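import Cfsg.Agent.Goldschmidt.Points

/-!
The distance `bz z` at which the groups `Zs z x` stop acting trivially, arcs of the coset graph and
their conjugacy.
-/

set_option autoImplicit false
set_option linter.unusedVariables false
set_option linter.style.haveILetI false

open Subgroup Cfsg.Agent.Amalgam Cfsg.Agent.FusionAlperin
open scoped commutatorElement

namespace Cfsg.Agent.Goldschmidt

open Cfsg.Agent.LAE60 (exists_adj vertexZ_ne_bot conj_mem_of_mem_normalizer mem_normalizer_of_forall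
  centralizer_le_normalizer' mem_centralizer_comm le_normalizer_inf commute_of_commutator_mem)
open Cfsg.Agent.Fusion (cj mem_cj conj_mem_cj cj_le_iff le_cj_iff cj_inv_cj cj_eq_of_mem cj_inf
  cj_eq_self_of_mem cj_mono)

variable {X : Type*} [Group X] {M₁ M₂ : Subgroup X} {z : X}

local notation "Γ" => Cfsg.cosetGraph M₁ M₂
local notation "St" => MulAction.stabilizer X
local notation "Qv" => Cfsg.vertexQ 2
local notation "Te" => Cfsg.edgeStabilizer

/-- The least distance at which some `Zs z x` acts nontrivially on neighbours. -/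
noncomputable def bz (M₁ M₂ : Subgroup X) (z : X) : ℕ :=
  sInf {n : ℕ | ∃ x m : Cfsg.CosetVertex M₁ M₂,
    (Cfsg.cosetGraph M₁ M₂).dist x m = n ∧ ¬ Zs z x ≤ Qv m}

theorem dist_adj (h : Hyp M₁ M₂) {u v w : Cfsg.CosetVertex M₁ M₂} (hvw : (Γ).Adj v w) :
    (Γ).dist u w ≤ (Γ).dist u v + 1 :=
  ((connected h.pair.1.1).dist_triangle (v := v)).trans
    (Nat.add_le_add_left (SimpleGraph.dist_eq_one_iff_adj.2 hvw).le _)

theorem dist_one {u v : Cfsg.CosetVertex M₁ M₂} (huv : (Γ).Adj u v) : (Γ).dist u v = 1 :=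
  SimpleGraph.dist_eq_one_iff_adj.2 huv

theorem dist_two (h : Hyp M₁ M₂) {u v w : Cfsg.CosetVertex M₁ M₂} (huv : (Γ).Adj u v)
    (hvw : (Γ).Adj v w) : (Γ).dist u w ≤ 2 := by
  have := dist_adj h (u := u) hvw
  rw [dist_one huv] at this
  exact this

theorem exists_critical (h : Ctx M₁ M₂ z) :
    ∃ x m : Cfsg.CosetVertex M₁ M₂, (Γ).dist x m = bz M₁ M₂ z ∧ ¬ Zs z x ≤ Qv m := by
  have hne : {n : ℕ | ∃ x m : Cfsg.CosetVertex M₁ M₂,
      (Γ).dist x m = n ∧ ¬ Zs z x ≤ Qv m}.Nonempty := by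
    by_contra hcon
    let x : Cfsg.CosetVertex M₁ M₂ := Sum.inl ((1 : X) : X ⧸ M₁)
    have hall : ∀ m : Cfsg.CosetVertex M₁ M₂, Zs z x ≤ Qv m := fun m => by
      by_contra hn
      exact hcon ⟨_, x, m, rfl, hn⟩
    have hb : Zs z x = ⊥ := eq_bot_of_fixes_all h.pair.1.2.2.2 fun ν t ht =>
      MulAction.mem_stabilizer_iff.1 (Amalgam.pCoreOf_le 2 _ (hall ν ht))
    obtain ⟨p, hp⟩ := exists_adj x
    exact zz_ne_one h (isPt_of_adj hp ⟨1, rfl⟩) (mem_bot.1 (hb ▸ zz_mem_Zs hp))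
  exact Nat.sInf_mem hne

theorem isLine_of_not_le (h : Ctx M₁ M₂ z) {x m : Cfsg.CosetVertex M₁ M₂}
    (hn : ¬ Zs z x ≤ Qv m) : IsLine x :=
  isLine_iff_not_pt.2 fun hp => hn ((Zs_pt h hp).le.trans bot_le)

theorem le_dist_of_not_le {x m : Cfsg.CosetVertex M₁ M₂} (hn : ¬ Zs z x ≤ Qv m) :
    bz M₁ M₂ z ≤ (Γ).dist x m :=
  Nat.sInf_le ⟨x, m, rfl, hn⟩

theorem Zs_le_Q_of_lt {x m : Cfsg.CosetVertex M₁ M₂} (hd : (Γ).dist x m < bz M₁ M₂ z) :
    Zs z x ≤ Qv m := by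
  by_contra hn
  exact absurd (le_dist_of_not_le hn) (Nat.not_le.2 hd)

theorem Zs_le_St_of_le (h : Ctx M₁ M₂ z) {x m : Cfsg.CosetVertex M₁ M₂}
    (hd : (Γ).dist x m ≤ bz M₁ M₂ z) : Zs z x ≤ St m := by
  by_cases e : x = m
  · subst e
    obtain hx | hx := line_or_pt x
    · exact (Zs_le_Wl h hx).trans ((Wl_le_Q x).trans (Amalgam.pCoreOf_le 2 _))
    · exact (Zs_pt h hx).le.trans bot_le
  obtain ⟨γ, hγ, hd'⟩ := exists_adj_dist_succ h.pair.1.1 e
  refine (Zs_le_Q_of_lt (m := γ) (by omega)).trans ?_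
  exact (vertexQ_le_edge h.toHyp hγ).trans inf_le_right

/-- `Zs z x` acts trivially on the neighbours of the points of `x`. -/
theorem Zs_le_Q_adj (h : Ctx M₁ M₂ z) {x y : Cfsg.CosetVertex M₁ M₂} (hxy : (Γ).Adj x y)
    (hx : IsLine x) : Zs z x ≤ Qv y := by
  haveI : Fact (Nat.Prime 2) := ⟨Nat.prime_two⟩
  by_contra hn
  have hy := isPt_of_adj hxy hx
  have hQy : Qv y ≤ St x := (vertexQ_le_edge h.toHyp hxy.symm).trans inf_le_right
  have hZy : Zs z x ≤ St y :=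
    ((Zs_le_Wl h hx).trans (Wl_le_Q x)).trans ((vertexQ_le_edge h.toHyp hxy).trans inf_le_right)
  have hcap : ∀ w ∈ Zs z x, w ∈ Qv y → w = 1 ∨ w = zz z y := by
    intro w hw hwQ
    obtain e | ⟨q, hq, rfl⟩ := mem_Zs h hx hw
    · exact Or.inl e
    by_cases e : q = y
    · exact Or.inr (by rw [e])
    exact absurd (Zs_le_two h hx hq hxy e hwQ
      ((Zp_le_Q h.toHyp hxy hy).2 (zz_mem h hy))) hn
  have hNc : ∀ g ∈ St y, ∀ n ∈ zpowers (zz z y), g * n * g⁻¹ = n := by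
    intro g hg n hn'
    obtain rfl | rfl := (zpowers_zz h).1 hn'
    · simp
    · rw [zz_comm_stab h hy hg]; group
  let K : Subgroup X :=
    { carrier := {k | k ∈ St y ∧ ∀ q ∈ Qv y, ⁅k, q⁆ ∈ zpowers (zz z y)}
      one_mem' := ⟨one_mem _, fun q hq => by
        rw [commutatorElement_one_left]; exact one_mem _⟩
      mul_mem' := fun {a b} ha hb => ⟨mul_mem ha.1 hb.1, fun q hq => by
        have e : ⁅a * b, q⁆ = a * ⁅b, q⁆ * a⁻¹ * ⁅a, q⁆ := by
          rw [commutatorElement_def, commutatorElement_def, commutatorElement_def]; group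
        rw [e, hNc a ha.1 _ (hb.2 q hq)]
        exact mul_mem (hb.2 q hq) (ha.2 q hq)⟩
      inv_mem' := fun {a} ha => ⟨inv_mem ha.1, fun q hq => by
        have e : ⁅a⁻¹, q⁆ = a⁻¹ * ⁅a, q⁆⁻¹ * (a⁻¹)⁻¹ := by
          rw [commutatorElement_def, commutatorElement_def]; group
        rw [e, hNc _ (inv_mem ha.1) _ (inv_mem (ha.2 q hq))]
        exact inv_mem (ha.2 q hq)⟩ }
  have hZK : Zs z x ≤ K := fun s hs => by
    refine ⟨hZy hs, fun q hq => ?_⟩
    have h1 : ⁅s, q⁆ ∈ Zs z x := by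
      rw [commutatorElement_def, mul_assoc s, mul_assoc s]
      exact mul_mem hs (conj_mem_Zs h (hQy hq) (inv_mem hs))
    have h2 : ⁅s, q⁆ ∈ Qv y := by
      rw [commutatorElement_def]
      exact mul_mem (conj_mem_Q (hZy hs) hq) (inv_mem hq)
    exact (zpowers_zz h).2 (hcap _ h1 h2)
  have hKn : St y ≤ normalizer (K : Set X) := mem_normalizer_of_forall fun g hg k hk => by
    refine ⟨mul_mem (mul_mem hg hk.1) (inv_mem hg), fun q hq => ?_⟩
    have hq' : g⁻¹ * q * g ∈ Qv y := by simpa using conj_mem_Q (inv_mem hg) hq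
    have e : ⁅g * k * g⁻¹, q⁆ = g * ⁅k, g⁻¹ * q * g⁆ * g⁻¹ := by
      rw [commutatorElement_def, commutatorElement_def]; group
    rw [e, hNc g hg _ (hk.2 _ hq')]
    exact hk.2 _ hq'
  have hKle : K ≤ St y := fun k hk => hk.1
  haveI := finite_of_le h.toHyp hKle
  have hKp : ¬ IsPGroup 2 ↥K := fun hK =>
    hn (hZK.trans (Amalgam.le_pCoreOf hKle hKn hK))
  have h3 : 3 ∣ Nat.card K := by
    haveI := finite_of_le h.toHyp (Amalgam.pCoreOf_le 2 (St y))
    obtain ⟨n, hn2⟩ := IsPGroup.iff_card.1 (Amalgam.pCoreOf_isPGroup (p := 2) (St y))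
    have hdvd : Nat.card K ∣ 3 * 2 ^ (n + 1) := by
      have := Subgroup.card_dvd_of_le hKle
      rw [card_stab h.toHyp y, show Cfsg.vertexQ 2 y = Cfsg.pCoreOf 2 (St y) from rfl, hn2,
        show 6 * 2 ^ n = 3 * 2 ^ (n + 1) by ring] at this
      exact this
    by_contra h3
    refine hKp ?_
    have hco : (Nat.card K).Coprime 3 :=
      (Nat.prime_three.coprime_iff_not_dvd.2 h3).symm
    obtain ⟨j, -, hj⟩ := (Nat.dvd_prime_pow Nat.prime_two).1 (hco.dvd_of_dvd_mul_left hdvd)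
    exact IsPGroup.of_card hj
  haveI : Fact (Nat.Prime 3) := ⟨Nat.prime_three⟩
  obtain ⟨⟨k, hk⟩, hord⟩ := exists_prime_orderOf_dvd_card' 3 h3
  have hk3 : k ^ 3 = 1 := by
    rw [orderOf_mk] at hord
    rw [← hord]
    exact pow_orderOf_eq_one k
  have hcent : ∀ q ∈ Qv y, q * k = k * q := by
    intro q hq
    rcases (zpowers_zz h).1 (hk.2 q hq) with e | e
    · exact (commutatorElement_eq_one_iff_mul_comm.1 e).symm
    exfalso
    set c := zz z y with hc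
    have hkc : k * c = c * k := zz_comm_stab h hy hk.1
    have e1 : k * q = c * (q * k) := by
      rw [← e, commutatorElement_def]; group
    have e2 : k ^ 3 * q = c * c * c * (q * k ^ 3) :=
      calc k ^ 3 * q = k * (k * (k * q)) := by simp [pow_succ, mul_assoc]
        _ = k * (k * (c * (q * k))) := by rw [e1]
        _ = k * (k * c) * (q * k) := by simp only [mul_assoc]
        _ = k * (c * k) * (q * k) := by rw [hkc]
        _ = k * c * (k * q) * k := by simp only [mul_assoc]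
        _ = k * c * (c * (q * k)) * k := by rw [e1]
        _ = c * k * (c * (q * k)) * k := by rw [hkc]
        _ = c * (k * c) * (q * k) * k := by simp only [mul_assoc]
        _ = c * c * (k * q) * (k * k) := by rw [hkc]; simp only [mul_assoc]
        _ = c * c * (c * (q * k)) * (k * k) := by rw [e1]
        _ = _ := by simp [pow_succ, mul_assoc]
    rw [hk3, one_mul, mul_one, zz_sq h y, one_mul] at e2
    exact zz_ne_one h hy (mul_eq_right.1 e2.symm)
  have hkQ : k ∈ Qv y :=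
    inf_centralizer_pCoreOf_le (charP_stabilizer h.pair y) ⟨hk.1, mem_centralizer_iff.2 hcent⟩
  have h2 := (Amalgam.pCoreOf_isPGroup (p := 2) (St y))
  obtain ⟨j, hj⟩ := IsPGroup.iff_orderOf.1 h2 ⟨k, hkQ⟩
  rw [orderOf_mk] at hord hj
  rw [hord] at hj
  exact absurd (Nat.prime_three.dvd_of_dvd_pow (n := j) (m := 2) (hj ▸ dvd_rfl)) (by norm_num)

theorem Wl_le_Q_adj (h : Ctx M₁ M₂ z) {x y : Cfsg.CosetVertex M₁ M₂} (hxy : (Γ).Adj x y)
    (hx : IsLine x) : Wl x ≤ Qv y := by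
  intro w hw
  obtain ⟨y', hy', hne⟩ := exists_other h.toHyp hxy
  obtain ⟨a, ha, b, hb, rfl⟩ := (Wl_eq_mul h.toHyp hxy hy' hx hne).2 w hw
  have hyp := isPt_of_adj hxy hx
  refine mul_mem ((Zp_le_Q h.toHyp hxy hyp).2 ha) ?_
  by_cases e : b = 1
  · exact e ▸ one_mem _
  obtain ⟨c, rfl⟩ := isPt_of_adj hy' hx
  have hb0 := hb
  rw [Zp_inr h.toHyp, mem_cj] at hb
  have hb' : c⁻¹ * b * c ≠ 1 := fun e' => e (conj_eq_one_iff (a := c⁻¹) |>.1 (by rwa [inv_inv]))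
  have hctx : Ctx M₁ M₂ (c⁻¹ * b * c) := ⟨h.toHyp, hb, hb'⟩
  have e2 : zz (c⁻¹ * b * c) (Sum.inr (c : X ⧸ M₂) : Cfsg.CosetVertex M₁ M₂) = b := by
    rw [zz_inr h.toHyp hb]; group
  have := Zs_le_Q_adj hctx hxy hx (zz_mem_Zs hy')
  rwa [e2] at this

theorem bz_two (h : Ctx M₁ M₂ z) : 2 ≤ bz M₁ M₂ z := by
  obtain ⟨x, m, hd, hn⟩ := exists_critical h
  by_contra hb
  have hx := isLine_of_not_le h hn
  rcases Nat.lt_or_ge ((Γ).dist x m) 1 with h0 | h1
  · have e : x = m := (connected h.pair.1.1).dist_eq_zero_iff.1 (by omega)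
    exact hn (e ▸ (Zs_le_Wl h hx).trans (Wl_le_Q x))
  · exact hn (Zs_le_Q_adj h (SimpleGraph.dist_eq_one_iff_adj.1 (by omega)) hx)

/-! ### `Vp` and `Ul` -/

theorem Vp_le {p : Cfsg.CosetVertex M₁ M₂} {S : Subgroup X}
    (hS : ∀ l, (Γ).Adj p l → Zs z l ≤ S) : Vp z p ≤ S :=
  (closure_le S).2 (by rintro _ ⟨l, q, hl, hq, rfl⟩; exact hS l hl (zz_mem_Zs hq))

theorem Zs_le_Vp {p l : Cfsg.CosetVertex M₁ M₂} (hl : (Γ).Adj p l) : Zs z l ≤ Vp z p :=
  Zs_le fun q hq => subset_closure ⟨l, q, hl, hq, rfl⟩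

theorem Ul_le {x : Cfsg.CosetVertex M₁ M₂} {S : Subgroup X}
    (hS : ∀ r, (Γ).Adj x r → Vp z r ≤ S) : Ul z x ≤ S :=
  (closure_le S).2 (by rintro _ ⟨r, l, q, hr, hl, hq, rfl⟩; exact hS r hr (Zs_le_Vp hl (zz_mem_Zs hq)))

theorem Vp_le_Ul {x r : Cfsg.CosetVertex M₁ M₂} (hr : (Γ).Adj x r) : Vp z r ≤ Ul z x :=
  Vp_le fun l hl => Zs_le fun q hq => subset_closure ⟨r, l, q, hr, hl, hq, rfl⟩

theorem cj_Vp (h : Ctx M₁ M₂ z) (g : X) (p : Cfsg.CosetVertex M₁ M₂) :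
    cj g (Vp z p) = Vp z (g • p) := by
  refine le_antisymm ?_ (Vp_le fun l hl => ?_)
  · rw [cj_le_iff]
    refine Vp_le fun l hl => ?_
    rw [le_cj_iff, inv_inv, cj_Zs h]
    exact Zs_le_Vp (adj_smul g hl)
  · rw [le_cj_iff, cj_Zs h]
    exact Zs_le_Vp (by simpa using adj_smul g⁻¹ hl)

theorem cj_Ul (h : Ctx M₁ M₂ z) (g : X) (x : Cfsg.CosetVertex M₁ M₂) :
    cj g (Ul z x) = Ul z (g • x) := by
  refine le_antisymm ?_ (Ul_le fun r hr => ?_)
  · rw [cj_le_iff]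
    refine Ul_le fun r hr => ?_
    rw [le_cj_iff, inv_inv, cj_Vp h]
    exact Vp_le_Ul (adj_smul g hr)
  · rw [le_cj_iff, cj_Vp h]
    exact Vp_le_Ul (by simpa using adj_smul g⁻¹ hr)

theorem conj_mem_Vp (h : Ctx M₁ M₂ z) {p : Cfsg.CosetVertex M₁ M₂} {g w : X} (hg : g ∈ St p)
    (hw : w ∈ Vp z p) : g * w * g⁻¹ ∈ Vp z p := by
  have := cj_Vp h g p
  rw [MulAction.mem_stabilizer_iff.1 hg] at this
  exact this ▸ conj_mem_cj.2 hw

theorem Vp_le_St (h : Ctx M₁ M₂ z) {p v : Cfsg.CosetVertex M₁ M₂}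
    (hd : (Γ).dist v p + 1 ≤ bz M₁ M₂ z) : Vp z p ≤ St v :=
  Vp_le fun l hl => Zs_le_St_of_le h
    ((SimpleGraph.dist_comm).le.trans ((dist_adj h.toHyp hl).trans hd))

theorem Vp_le_Qv (h : Ctx M₁ M₂ z) {p v : Cfsg.CosetVertex M₁ M₂}
    (hd : (Γ).dist v p + 1 < bz M₁ M₂ z) : Vp z p ≤ Qv v :=
  Vp_le fun l hl => Zs_le_Q_of_lt
    ((SimpleGraph.dist_comm).le.trans_lt ((dist_adj h.toHyp hl).trans_lt hd))

theorem Vp_le_Q_self (h : Ctx M₁ M₂ z) {p : Cfsg.CosetVertex M₁ M₂} (hp : IsPt p) :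
    Vp z p ≤ Qv p :=
  Vp_le fun l hl => Zs_le_Q_adj h hl.symm (isLine_of_adj hl hp)

theorem Zs_comm (h : Ctx M₁ M₂ z) {x l : Cfsg.CosetVertex M₁ M₂} (hl : IsLine l)
    (hd : (Γ).dist x l < bz M₁ M₂ z) {a c : X} (ha : a ∈ Zs z x) (hc : c ∈ Zs z l) :
    a * c = c * a :=
  Wl_comm (Zs_le_Wl h hl hc) (Zs_le_Q_of_lt hd ha)

theorem comm_closure {S : Set X} {a : X} (hS : ∀ s ∈ S, a * s = s * a) {c : X}
    (hc : c ∈ closure S) : a * c = c * a := by
  have : closure S ≤ centralizer ({a} : Set X) := (closure_le _).2 fun s hs =>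
    mem_centralizer_iff.2 (by rintro _ rfl; exact hS s hs)
  exact mem_centralizer_iff.1 (this hc) a rfl

/-- `Vp` at two points whose lines are within the distance commute. -/
theorem Vp_comm (h : Ctx M₁ M₂ z) {p p' : Cfsg.CosetVertex M₁ M₂} (hp' : IsPt p')
    (hd : ∀ l l', (Γ).Adj p l → (Γ).Adj p' l' → (Γ).dist l l' < bz M₁ M₂ z) {a c : X}
    (ha : a ∈ Vp z p) (hc : c ∈ Vp z p') : a * c = c * a := by
  refine comm_closure ?_ hc
  rintro _ ⟨l', q', hl', hq', rfl⟩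
  refine (comm_closure ?_ ha).symm
  rintro _ ⟨l, q, hl, hq, rfl⟩
  exact (Zs_comm h (isLine_of_adj hl' hp') (hd l l' hl hl') (zz_mem_Zs hq) (zz_mem_Zs hq')).symm

theorem Vp_comm_self (h : Ctx M₁ M₂ z) (hb : 3 ≤ bz M₁ M₂ z) {p : Cfsg.CosetVertex M₁ M₂}
    (hp : IsPt p) {a c : X} (ha : a ∈ Vp z p) (hc : c ∈ Vp z p) : a * c = c * a :=
  Vp_comm h hp (fun l l' hl hl' => lt_of_le_of_lt (dist_two h.toHyp hl.symm hl') (by omega)) ha hc

theorem Vp_sq (h : Ctx M₁ M₂ z) (hb : 3 ≤ bz M₁ M₂ z) {p : Cfsg.CosetVertex M₁ M₂} (hp : IsPt p)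
    {a : X} (ha : a ∈ Vp z p) : a * a = 1 := by
  induction ha using closure_induction with
  | mem a ha => obtain ⟨l, q, -, -, rfl⟩ := ha; exact zz_sq h q
  | one => exact one_mul 1
  | inv a _ iha => rw [← mul_inv_rev, iha, inv_one]
  | mul a c ha hc iha ihc =>
    calc a * c * (a * c) = a * (c * a) * c := by group
      _ = a * (a * c) * c := by rw [Vp_comm_self h hb hp ha hc]
      _ = a * a * (c * c) := by group
      _ = 1 := by rw [iha, ihc, one_mul]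

theorem Vp_inv (h : Ctx M₁ M₂ z) (hb : 3 ≤ bz M₁ M₂ z) {p : Cfsg.CosetVertex M₁ M₂} (hp : IsPt p)
    {a : X} (ha : a ∈ Vp z p) : a⁻¹ = a :=
  inv_eq_of_mul_eq_one_right (Vp_sq h hb hp ha)

/-! ### Arcs -/

/-- A walk of length `n` without backtracking. -/
structure IsArc (M₁ M₂ : Subgroup X) (c : ℕ → Cfsg.CosetVertex M₁ M₂) (n : ℕ) : Prop where
  adj : ∀ i, i < n → (Cfsg.cosetGraph M₁ M₂).Adj (c i) (c (i + 1))
  nb : ∀ i, i + 2 ≤ n → c i ≠ c (i + 2)

theorem IsArc.mono {c : ℕ → Cfsg.CosetVertex M₁ M₂} {n m : ℕ} (hc : IsArc M₁ M₂ c n) (hm : m ≤ n) :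
    IsArc M₁ M₂ c m :=
  ⟨fun i hi => hc.adj i (hi.trans_le hm), fun i hi => hc.nb i (hi.trans hm)⟩

theorem IsArc.shift {c : ℕ → Cfsg.CosetVertex M₁ M₂} {n j m : ℕ} (hc : IsArc M₁ M₂ c n)
    (hm : j + m ≤ n) : IsArc M₁ M₂ (fun i => c (j + i)) m :=
  ⟨fun i hi => hc.adj (j + i) (by omega), fun i hi => hc.nb (j + i) (by omega)⟩

theorem IsArc.rev {c : ℕ → Cfsg.CosetVertex M₁ M₂} {n : ℕ} (hc : IsArc M₁ M₂ c n) :
    IsArc M₁ M₂ (fun i => c (n - i)) n := by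
  refine ⟨fun i hi => ?_, fun i hi => ?_⟩
  · have := (hc.adj (n - i - 1) (by omega)).symm
    rwa [show n - i - 1 + 1 = n - i by omega, show n - i - 1 = n - (i + 1) by omega] at this
  · have := (hc.nb (n - i - 2) (by omega)).symm
    rwa [show n - i - 2 + 2 = n - i by omega, show n - i - 2 = n - (i + 2) by omega] at this

/-- Prefix a vertex. -/
def consV {V : Type*} (v : V) (c : ℕ → V) : ℕ → V
  | 0 => v
  | i + 1 => c i

@[simp] theorem consV_zero {V : Type*} (v : V) (c : ℕ → V) : consV v c 0 = v := rfl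

@[simp] theorem consV_succ {V : Type*} (v : V) (c : ℕ → V) (i : ℕ) : consV v c (i + 1) = c i := rfl

theorem IsArc.cons {c : ℕ → Cfsg.CosetVertex M₁ M₂} {n : ℕ} {v : Cfsg.CosetVertex M₁ M₂}
    (hc : IsArc M₁ M₂ c n) (hv : (Γ).Adj v (c 0)) (hne : 1 ≤ n → v ≠ c 1) :
    IsArc M₁ M₂ (consV v c) (n + 1) := by
  refine ⟨fun i hi => ?_, fun i hi => ?_⟩
  · cases i with
    | zero => exact hv
    | succ i => exact hc.adj i (by omega)
  · cases i with
    | zero => exact hne (by omega)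
    | succ i => exact hc.nb i (by omega)

theorem IsArc.dist_le (h : Hyp M₁ M₂) {c : ℕ → Cfsg.CosetVertex M₁ M₂} {n : ℕ}
    (hc : IsArc M₁ M₂ c n) : ∀ i j, i + j ≤ n → (Γ).dist (c i) (c (i + j)) ≤ j := by
  intro i j
  induction j with
  | zero => intro _; simp
  | succ j ih =>
    intro hj
    exact (dist_adj h (hc.adj (i + j) (by omega))).trans (Nat.add_le_add_right (ih (by omega)) 1)

theorem IsArc.dist_le' (h : Hyp M₁ M₂) {c : ℕ → Cfsg.CosetVertex M₁ M₂} {n : ℕ}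
    (hc : IsArc M₁ M₂ c n) {i j : ℕ} (hij : i ≤ j) (hj : j ≤ n) :
    (Γ).dist (c i) (c j) ≤ j - i ∧ (Γ).dist (c j) (c i) ≤ j - i := by
  have h1 := hc.dist_le h i (j - i) (by omega)
  rw [Nat.add_sub_cancel' hij] at h1
  exact ⟨h1, (SimpleGraph.dist_comm).le.trans h1⟩

theorem IsArc.parity {c : ℕ → Cfsg.CosetVertex M₁ M₂} {n : ℕ} (hc : IsArc M₁ M₂ c n) :
    ∀ i ≤ n, (IsLine (c i) ↔ (IsLine (c 0) ↔ Even i)) := by
  intro i
  induction i with
  | zero => intro _; simp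
  | succ i ih =>
    intro hi
    have hadj := hc.adj i (by omega)
    have key : IsLine (c (i + 1)) ↔ ¬ IsLine (c i) :=
      ⟨fun h1 h2 => not_line_pt h1 (isPt_of_adj hadj h2),
        fun h1 => isLine_of_adj hadj ((line_or_pt (c i)).resolve_left h1)⟩
    rw [key, ih (by omega), Nat.even_add_one]
    tauto

theorem exists_geodesic (h : Hyp M₁ M₂) (x m : Cfsg.CosetVertex M₁ M₂) :
    ∃ c : ℕ → Cfsg.CosetVertex M₁ M₂, IsArc M₁ M₂ c ((Γ).dist x m) ∧ c 0 = x ∧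
      c ((Γ).dist x m) = m := by
  obtain ⟨w, hw⟩ := (connected h.pair.1.1).exists_walk_length_eq_dist x m
  refine ⟨w.getVert, ⟨fun i hi => w.adj_getVert_succ (hw ▸ hi), fun i hi e => ?_⟩, w.getVert_zero,
    by rw [← hw, w.getVert_length]⟩
  have h1 := SimpleGraph.dist_le (w.take i)
  have h2 := SimpleGraph.dist_le (w.drop (i + 2))
  rw [SimpleGraph.Walk.take_length, hw] at h1
  rw [SimpleGraph.Walk.drop_length, hw] at h2
  have h3 := (connected h.pair.1.1).dist_triangle (u := x) (v := w.getVert i) (w := m)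
  rw [← e] at h2
  omega

/-- All arcs of length `n` whose first vertex satisfies `P` are conjugate. -/
def Homog (M₁ M₂ : Subgroup X) (n : ℕ) (P : Cfsg.CosetVertex M₁ M₂ → Prop) : Prop :=
  ∀ c d, IsArc M₁ M₂ c n → IsArc M₁ M₂ d n → P (c 0) → P (d 0) → ∃ g : X, ∀ i ≤ n, g • c i = d i

/-- An element fixing an arc and moving a neighbour of its end. -/
def Moves (M₁ M₂ : Subgroup X) (c : ℕ → Cfsg.CosetVertex M₁ M₂) (n : ℕ) : Prop :=
  ∃ k : X, (∀ i ≤ n, k • c i = c i) ∧ ∃ m, (Cfsg.cosetGraph M₁ M₂).Adj (c n) m ∧ k • m ≠ m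

theorem homog_zero_line : Homog M₁ M₂ 0 IsLine := fun c d _ _ hc hd => by
  obtain ⟨g, hg⟩ := line_transitive hc hd
  exact ⟨g, fun i hi => by obtain rfl := Nat.le_zero.1 hi; exact hg⟩

theorem homog_zero_pt : Homog M₁ M₂ 0 IsPt := fun c d _ _ hc hd => by
  obtain ⟨g, hg⟩ := pt_transitive hc hd
  exact ⟨g, fun i hi => by obtain rfl := Nat.le_zero.1 hi; exact hg⟩

theorem IsArc.smul {c : ℕ → Cfsg.CosetVertex M₁ M₂} {n : ℕ} (hc : IsArc M₁ M₂ c n) (g : X) :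
    IsArc M₁ M₂ (fun i => g • c i) n :=
  ⟨fun i hi => adj_smul g (hc.adj i hi), fun i hi e => hc.nb i hi (smul_left_cancel g e)⟩

theorem homog_succ (h : Hyp M₁ M₂) {n : ℕ} {P : Cfsg.CosetVertex M₁ M₂ → Prop}
    (ih : Homog M₁ M₂ n P)
    (hm : 1 ≤ n → ∃ e, IsArc M₁ M₂ e n ∧ P (e 0) ∧ Moves M₁ M₂ e n) :
    Homog M₁ M₂ (n + 1) P := by
  intro c d hc hd hPc hPd
  obtain ⟨g, hg⟩ := ih c d (hc.mono (by omega)) (hd.mono (by omega)) hPc hPd
  set c' := g • c (n + 1) with hc'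
  have hac : (Γ).Adj (d n) c' := by
    rw [← hg n le_rfl, hc']; exact adj_smul g (hc.adj n (by omega))
  have had := hd.adj n (by omega)
  suffices ∃ k : X, (∀ i ≤ n, k • d i = d i) ∧ k • c' = d (n + 1) by
    obtain ⟨k, hk, hk'⟩ := this
    refine ⟨k * g, fun i hi => ?_⟩
    rcases Nat.lt_or_ge i (n + 1) with hi' | hi'
    · rw [mul_smul, hg i (by omega), hk i (by omega)]
    · obtain rfl : i = n + 1 := by omega
      rw [mul_smul, ← hc', hk']
  rcases Nat.eq_zero_or_pos n with rfl | hn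
  · obtain ⟨k, hk, hk'⟩ := neighbours_transitive hac had
    exact ⟨k, fun i hi => by obtain rfl := Nat.le_zero.1 hi; exact hk, hk'⟩
  obtain ⟨e, he, hPe, k, hk, m, hm1, hm2⟩ := hm hn
  obtain ⟨g', hg'⟩ := ih e d he (hd.mono (by omega)) hPe hPd
  set k' := g' * k * g'⁻¹ with hk'
  have hfix : ∀ i ≤ n, k' • d i = d i := fun i hi => by
    rw [← hg' i hi, hk', mul_smul, inv_smul_smul, mul_smul, hk i hi]
  have hmov : k' • (g' • m) ≠ g' • m := by
    rw [hk', mul_smul, inv_smul_smul, mul_smul]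
    exact fun e' => hm2 (smul_left_cancel g' e')
  by_cases heq : c' = d (n + 1)
  · exact ⟨1, fun i _ => one_smul _ _, by rw [one_smul, heq]⟩
  have hm' : (Γ).Adj (d n) (g' • m) := hg' n le_rfl ▸ adj_smul g' hm1
  have hprev : (Γ).Adj (d n) (d (n - 1)) := by
    have := hd.adj (n - 1) (by omega)
    rw [show n - 1 + 1 = n by omega] at this
    exact this.symm
  have hpd : d (n - 1) ≠ d (n + 1) := by
    have := hd.nb (n - 1) (by omega)
    rwa [show n - 1 + 2 = n + 1 by omega] at this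
  have hpc : d (n - 1) ≠ c' := by
    have := hc.nb (n - 1) (by omega)
    rw [show n - 1 + 2 = n + 1 by omega] at this
    rw [← hg (n - 1) (by omega), hc']
    exact fun e' => this (smul_left_cancel g e')
  have hfp := hfix (n - 1) (by omega)
  have hmp : g' • m ≠ d (n - 1) := fun e' => hmov (e' ▸ hfp)
  have hkm : k' • g' • m ≠ d (n - 1) := fun e' => hmp (smul_left_cancel k' (e'.trans hfp.symm))
  rcases eq_or_eq_or_eq h hprev hac had hpc hpd heq hm' with e1 | e1 | e1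
  · exact absurd e1 hmp
  · rcases eq_or_eq_or_eq h hprev hac had hpc hpd heq (adj_fix (hfix n le_rfl) hm') with
      e2 | e2 | e2
    · exact absurd e2 hkm
    · exact absurd (e2.trans e1.symm) hmov
    · exact ⟨k', hfix, e1 ▸ e2⟩
  · rcases eq_or_eq_or_eq h hprev hac had hpc hpd heq (adj_fix (hfix n le_rfl) hm') with
      e2 | e2 | e2
    · exact absurd e2 hkm
    · exact ⟨k'⁻¹, fun i hi => inv_smul_eq_iff.2 (hfix i hi).symm,
        inv_smul_eq_iff.2 (e1 ▸ e2.symm)⟩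
    · exact absurd (e2.trans e1.symm) hmov

/-- Movers at both kinds of ends give conjugacy of all arcs of length at most `N + 1`. -/
theorem homog_of_movers (h : Hyp M₁ M₂) {N : ℕ}
    (h1 : ∃ e, IsArc M₁ M₂ e N ∧ IsLine (e N) ∧ Moves M₁ M₂ e N)
    (h2 : ∃ e, IsArc M₁ M₂ e N ∧ IsPt (e N) ∧ Moves M₁ M₂ e N) :
    ∀ n ≤ N + 1, Homog M₁ M₂ n IsLine ∧ Homog M₁ M₂ n IsPt := by
  intro n
  induction n with
  | zero => exact fun _ => ⟨homog_zero_line, homog_zero_pt⟩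
  | succ n ih =>
    intro hn
    have key : ∀ e, IsArc M₁ M₂ e N → Moves M₁ M₂ e N →
        IsArc M₁ M₂ (fun i => e (N - n + i)) n ∧ Moves M₁ M₂ (fun i => e (N - n + i)) n ∧
          e (N - n + n) = e N := by
      intro e he ⟨k, hk, hkm⟩
      have eN : N - n + n = N := by omega
      refine ⟨he.shift (by omega), ⟨k, fun i hi => hk _ (by omega), ?_⟩, by rw [eN]⟩
      show ∃ m, (Γ).Adj (e (N - n + n)) m ∧ k • m ≠ m
      rw [eN]; exact hkm
    obtain ⟨e, he, hel, hem⟩ := h1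
    obtain ⟨f, hf, hfp, hfm⟩ := h2
    obtain ⟨he', hem', hee⟩ := key e he hem
    obtain ⟨hf', hfm', hfe⟩ := key f hf hfm
    have pe := he'.parity n le_rfl
    have pf := hf'.parity n le_rfl
    simp only [hee] at pe
    simp only [hfe] at pf
    rw [isLine_iff_not_pt (v := f N)] at pf
    rcases Nat.even_or_odd n with hev | hodd
    · refine ⟨homog_succ h (ih (by omega)).1 fun _ => ⟨_, he', ?_, hem'⟩,
        homog_succ h (ih (by omega)).2 fun _ => ⟨_, hf', ?_, hfm'⟩⟩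
      · exact (pe.1 hel).2 hev
      · refine (line_or_pt _).resolve_left fun hl => ?_
        exact (pf.2 ⟨fun _ => hev, fun _ => hl⟩) hfp
    · have hnev : ¬ Even n := Nat.not_even_iff_odd.2 hodd
      refine ⟨homog_succ h (ih (by omega)).1 fun _ => ⟨_, hf', ?_, hfm'⟩,
        homog_succ h (ih (by omega)).2 fun _ => ⟨_, he', ?_, hem'⟩⟩
      · by_contra hl
        exact (pf.2 ⟨fun h' => absurd h' hl, fun h' => absurd h' hnev⟩) hfp
      · exact (line_or_pt _).resolve_left fun hl => hnev ((pe.1 hel).1 hl)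

end Cfsg.Agent.Goldschmidt
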