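import Cfsg.Agent.Goldschmidt.Kernels

/-!
`bz z` is not an even number `≥ 4`.
-/

set_option autoImplicit false
set_option linter.unusedVariables false
set_option linter.style.haveILetI false

open Subgroup Cfsg.Agent.Amalgam Cfsg.Agent.FusionAlperin
open scoped commutatorElement

namespace Cfsg.Agent.Goldschmidt

open Cfsg.Agent.LAE60 (exists_adj vertexZ_ne_bot conj_mem_of_mem_normalizer mem_normalizer_of_forall
  centralizer_le_normalizer' mem_centralizer_comm le_normalizer_inf commute_of_commutator_mem)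
open Cfsg.Agent.Fusion (cj mem_cj conj_mem_cj cj_le_iff le_cj_iff cj_inv_cj cj_eq_of_mem cj_inf
  cj_eq_self_of_mem cj_mono cj_eq_iff_mem_normalizer)

variable {X : Type*} [Group X] {M₁ M₂ : Subgroup X} {z : X}

local notation "Γ" => Cfsg.cosetGraph M₁ M₂
local notation "St" => MulAction.stabilizer X
local notation "Qv" => Cfsg.vertexQ 2
local notation "Te" => Cfsg.edgeStabilizer

theorem exists_gen_not_mem {x : Cfsg.CosetVertex M₁ M₂} {S : Subgroup X} (hn : ¬ Zs z x ≤ S) :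
    ∃ p, (Γ).Adj x p ∧ zz z p ∉ S := by
  by_contra hc
  exact hn (Zs_le fun q hq => by_contra fun e => hc ⟨q, hq, e⟩)

theorem arc_Zs_le_St (h : Ctx M₁ M₂ z) {c : ℕ → Cfsg.CosetVertex M₁ M₂} {n : ℕ}
    (hc : IsArc M₁ M₂ c n) (hn : n ≤ bz M₁ M₂ z) {i : ℕ} (hi : i ≤ n) :
    Zs z (c 0) ≤ St (c i) :=
  Zs_le_St_of_le h (((hc.dist_le' h.toHyp (Nat.zero_le i) hi).1).trans (by omega))

/-- A critical arc of even length: both ends act on each other and the two inner points carry the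
same `zz`. -/
theorem crit_even (h : Ctx M₁ M₂ z) {c : ℕ → Cfsg.CosetVertex M₁ M₂} {n : ℕ}
    (hn : n + 2 = bz M₁ M₂ z) (hc : IsArc M₁ M₂ c (n + 2)) (h0 : IsLine (c 0))
    (hlast : IsLine (c (n + 2))) (hcrit : ¬ Zs z (c 0) ≤ Qv (c (n + 2))) :
    zz z (c 1) = zz z (c (n + 1)) ∧
      (∃ q, (Γ).Adj (c (n + 2)) q ∧ q ≠ c (n + 1) ∧ zz z q ∈ Te (c 0) (c 1) ∧
        zz z q ∉ Qv (c 0)) := by
  obtain ⟨p, hp, hps⟩ := exists_gen_not_mem hcrit
  have hs : ∀ i ≤ n + 2, zz z p ∈ St (c i) := fun i hi =>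
    arc_Zs_le_St h hc hn.le hi (zz_mem_Zs hp)
  have hadj1 := hc.adj (n + 1) (by omega)
  obtain ⟨q, hq, hqne⟩ := exists_other h.toHyp hadj1.symm
  have hsq : zz z p * zz z q * (zz z p)⁻¹ = zz z q * zz z (c (n + 1)) :=
    conj_zz_of_mem_edge h hlast hadj1.symm hq hqne
      (mem_Te_iff.2 ⟨hs _ le_rfl, hs _ (by omega)⟩) hps
  have hcy := isPt_of_adj hadj1.symm hlast
  have htSt : ∀ i ≤ n + 2, zz z q ∈ St (c i) := fun i hi =>
    Zs_le_St_of_le h (((hc.dist_le' h.toHyp hi le_rfl).2).trans (by omega)) (zz_mem_Zs hq)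
  have htQ : zz z q ∉ Qv (c 0) := fun hmem => by
    have e := Wl_comm (zz_mem_Wl h hp h0) hmem
    rw [← e, mul_inv_cancel_right] at hsq
    exact zz_ne_one h hcy (left_eq_mul.1 hsq)
  have hc1 := hc.adj 0 (by omega)
  have hc1p := isPt_of_adj hc1 h0
  have hpne : p ≠ c 1 := fun e => by
    have e' := zz_comm_stab h hc1p (htSt 1 (by omega))
    rw [e, ← e', mul_inv_cancel_right] at hsq
    exact zz_ne_one h hcy (left_eq_mul.1 hsq)
  have hts : zz z q * zz z p * (zz z q)⁻¹ = zz z p * zz z (c 1) :=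
    conj_zz_of_mem_edge h h0 hc1 hp hpne
      (mem_Te_iff.2 ⟨htSt 0 (by omega), htSt 1 (by omega)⟩) htQ
  refine ⟨?_, q, hq, hqne, mem_Te_iff.2 ⟨htSt 0 (by omega), htSt 1 (by omega)⟩, htQ⟩
  have hc1s : zz z p * zz z (c 1) = zz z (c 1) * zz z p :=
    zz_comm_stab h hc1p (hs 1 (by omega))
  have hqc : zz z q * zz z (c (n + 1)) = zz z (c (n + 1)) * zz z q :=
    Wl_comm (zz_mem_Wl h hadj1.symm hlast) (Wl_le_Q _ (zz_mem_Wl h hq hlast))
  have e1 : zz z p * zz z q * (zz z p)⁻¹ * (zz z q)⁻¹ = zz z (c (n + 1)) := by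
    rw [hsq, hqc, mul_inv_cancel_right]
  have e2 : zz z p * zz z q * (zz z p)⁻¹ * (zz z q)⁻¹ = zz z (c 1) :=
    calc _ = zz z p * (zz z q * zz z p * (zz z q)⁻¹)⁻¹ := by group
      _ = _ := by rw [hts, hc1s, mul_inv_rev, mul_inv_cancel_left, zz_inv h]
  rw [← e2, e1]

theorem bz_not_even (h : Ctx M₁ M₂ z) (hev : Even (bz M₁ M₂ z)) : bz M₁ M₂ z < 4 := by
  by_contra hcon
  obtain ⟨x, m, hd, hn⟩ := exists_critical h
  obtain ⟨c, hc, hcx, hcm⟩ := exists_geodesic h.toHyp x m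
  rw [hd] at hc hcm
  subst hcx hcm
  have h0 := isLine_of_not_le h hn
  have hlast : IsLine (c (bz M₁ M₂ z)) := by
    rw [hc.parity _ le_rfl]; exact ⟨fun _ => hev, fun _ => h0⟩
  by_cases hb4 : bz M₁ M₂ z = 4
  · rw [hb4] at hc hn hlast
    have e := (crit_even h (n := 2) hb4.symm hc h0 hlast hn).1
    have hl2 : IsLine (c 2) := (hc.parity 2 (by omega)).2 ⟨fun _ => even_two, fun _ => h0⟩
    exact hc.nb 1 (by omega)
      (zz_inj h (hc.adj 1 (by omega)).symm (hc.adj 2 (by omega)) hl2 e)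
  obtain ⟨k, hk⟩ : ∃ k, bz M₁ M₂ z = k + 6 := by
    obtain ⟨j, hj⟩ := hev
    exact ⟨bz M₁ M₂ z - 6, by omega⟩
  rw [hk] at hc hn hlast hev
  obtain ⟨e15, q, hq, hqne, htT, htQ⟩ := crit_even h (n := k + 4) hk.symm hc h0 hlast hn
  set t := zz z q with ht
  have hc1 := hc.adj 0 (by omega)
  obtain ⟨y0, hy0, hy0ne⟩ := exists_other h.toHyp hc1
  have hy0p := isPt_of_adj hy0 h0
  have hmove : t • y0 ≠ y0 := smul_ne_of_mem_edge h.toHyp hc1 hy0 hy0ne htT htQ
  have hl4 : IsLine (c (k + 4)) := (hc.parity _ (by omega)).2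
    ⟨fun _ => by simpa [parity_simps] using hev, fun _ => h0⟩
  have hfar : zz z y0 ≠ zz z (c (k + 3)) := by
    intro e
    have hcomm : t * zz z (c (k + 3)) = zz z (c (k + 3)) * t :=
      Zs_comm h hl4 (lt_of_le_of_lt (hc.dist_le' h.toHyp (i := k + 4) (j := k + 6)
        (by omega) le_rfl).2 (by omega)) (zz_mem_Zs hq)
        (zz_mem_Zs (hc.adj (k + 3) (by omega)).symm)
    refine hmove (zz_inj h (adj_fix (mem_Te_iff.1 htT).1 hy0) hy0 h0 ?_)
    rw [zz_smul h, e, hcomm, mul_inv_cancel_right]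
  have harc : IsArc M₁ M₂ (consV y0 c) (k + 6) :=
    (hc.mono (by omega : k + 5 ≤ k + 6)).cons hy0.symm fun _ => hy0ne
  by_cases hcase : ∃ l, (Γ).Adj y0 l ∧ ¬ Zs z l ≤ Qv (c (k + 4))
  · obtain ⟨l, hl, hln⟩ := hcase
    have hlx : l ≠ c 0 := fun e => hln (e ▸ Zs_le_Q_of_lt (lt_of_le_of_lt
      (hc.dist_le' h.toHyp (Nat.zero_le (k + 4)) (by omega)).1 (by omega)))
    have harc2 : IsArc M₁ M₂ (consV l (consV y0 c)) (k + 6) :=
      (harc.mono (by omega : k + 5 ≤ k + 6)).cons hl.symm fun _ => hlx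
    exact hfar (crit_even h (n := k + 4) hk.symm harc2 (isLine_of_adj hl hy0p) hl4 hln).1
  have hV4 : Vp z y0 ≤ Qv (c (k + 4)) := Vp_le fun l hl => by_contra fun e => hcase ⟨l, hl, e⟩
  have hV5 : ∀ v ∈ Vp z y0, v • c (k + 5) = c (k + 5) := fun v hv =>
    (Q_fix_adj h.toHyp (hc.adj (k + 4) (by omega)) (hV4 hv)).2
  have hVy : Vp z y0 ≤ Te (c 0) y0 :=
    (Vp_le_Q_self h hy0p).trans (vertexQ_le_edge' h.toHyp hy0.symm)
  have hVlow : ∀ i ≤ k + 4, ∀ v ∈ Vp z y0, v • c i = c i := by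
    intro i hi v hv
    have hd1 : (Γ).dist (c i) y0 ≤ i + 1 :=
      (dist_adj h.toHyp hy0).trans
        (Nat.add_le_add_right (((hc.dist_le' h.toHyp (Nat.zero_le i) (by omega)).2).trans
          (by omega)) 1)
    exact Vp_le_St h (by omega) hv
  by_cases hfix : ∀ v ∈ Vp z y0, v • c (k + 6) = c (k + 6)
  · -- `Vp y0` is then normalized by `t`
    have hεV : zz z (c 1) ∈ Vp z y0 := Zs_le_Vp hy0.symm (zz_mem_Zs hc1)
    have hadj5 := hc.adj (k + 5) (by omega)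
    have htV : ∀ v ∈ Vp z y0, t * v * t⁻¹ ∈ Vp z y0 := by
      intro v hv
      by_cases hvQ : v ∈ Qv (c (k + 6))
      · rwa [← Wl_comm (zz_mem_Wl h hq hlast) hvQ, mul_inv_cancel_right]
      have e : v * t * v⁻¹ = t * zz z (c 1) := by
        rw [e15]
        exact conj_zz_of_mem_edge h hlast hadj5.symm hq hqne
          (mem_Te_iff.2 ⟨hfix v hv, hV5 v hv⟩) hvQ
      have hte : t * zz z (c 1) = zz z (c 1) * t :=
        zz_comm_stab h (isPt_of_adj hc1 h0) (mem_Te_iff.1 htT).2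
      have e2 : t * v * t⁻¹ = zz z (c 1) * v :=
        calc t * v * t⁻¹ = t * (v * t * v⁻¹)⁻¹ * v := by group
          _ = _ := by rw [e, hte, mul_inv_rev, mul_inv_cancel_left, zz_inv h]
      rw [e2]
      exact mul_mem hεV hv
    haveI := finite_of_le h.toHyp (hVy.trans inf_le_left)
    have htn : t ∈ normalizer (Vp z y0 : Set X) := by
      rw [← cj_eq_iff_mem_normalizer]
      refine eq_of_le_of_card_ge ?_ (card_cj_eq t _).ge
      rintro _ ⟨v, hv, rfl⟩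
      exact htV v hv
    have hSy : St y0 ≤ normalizer (Vp z y0 : Set X) :=
      mem_normalizer_of_forall fun g hg w hw => conj_mem_Vp h hg hw
    have hSx : St (c 0) ≤ normalizer (Vp z y0 : Set X) := by
      rw [← sup_eq_stab h.toHyp hy0 (K := zpowers t) (zpowers_le.2 (mem_Te_iff.1 htT).1)
        (fun hle => hmove (mem_Te_iff.1 (hle (mem_zpowers t))).2)]
      exact sup_le (inf_le_right.trans hSy) (zpowers_le.2 htn)
    have hbot := bot_of_normalized h.toHyp hy0 hVy hSx hSy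
    exact zz_ne_one h hy0p (mem_bot.1 (hbot ▸ Zs_le_Vp hy0.symm (zz_mem_Zs hy0)))
  simp only [not_forall] at hfix
  obtain ⟨v, hv, hvm⟩ := hfix
  have hpt5 : IsPt (c (k + 5)) := isPt_of_adj (hc.adj (k + 4) (by omega)) hl4
  have hmover2 : ∃ e, IsArc M₁ M₂ e (k + 6) ∧ IsPt (e (k + 6)) ∧ Moves M₁ M₂ e (k + 6) := by
    refine ⟨consV y0 c, harc, hpt5, v, fun i hi => ?_, c (k + 6), hc.adj (k + 5) (by omega), hvm⟩
    cases i with
    | zero => exact (mem_Te_iff.1 (hVy hv)).2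
    | succ i =>
      show v • c i = c i
      rcases Nat.lt_or_ge i (k + 5) with hi' | hi'
      · exact hVlow i (by omega) v hv
      · obtain rfl : i = k + 5 := by omega
        exact hV5 v hv
  have hmover1 : ∃ e, IsArc M₁ M₂ e (k + 6) ∧ IsLine (e (k + 6)) ∧ Moves M₁ M₂ e (k + 6) := by
    obtain ⟨p, hp, hps⟩ := exists_gen_not_mem hn
    have hs : ∀ i ≤ k + 6, zz z p ∈ St (c i) := fun i hi =>
      arc_Zs_le_St h hc hk.ge hi (zz_mem_Zs hp)
    refine ⟨c, hc, hlast, zz z p, hs, q, hq, smul_ne_of_mem_edge h.toHyp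
      (hc.adj (k + 5) (by omega)).symm hq hqne
      (mem_Te_iff.2 ⟨hs _ le_rfl, hs _ (by omega)⟩) hps⟩
  have hhom := (homog_of_movers h.toHyp hmover1 hmover2 (k + 4) (by omega)).2
  obtain ⟨g, hg⟩ := hhom (fun i => c (1 + i)) (consV y0 c) (hc.shift (by omega))
    (harc.mono (by omega)) (isPt_of_adj hc1 h0) hy0p
  have g0 : g • c 1 = y0 := hg 0 (by omega)
  have g1 : g • c (1 + (k + 4)) = c (k + 3) := hg (k + 4) le_rfl
  rw [show 1 + (k + 4) = k + 5 by omega] at g1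
  exact hfar (by rw [← g0, ← g1, zz_smul h, zz_smul h, e15])

end Cfsg.Agent.Goldschmidt
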