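import Cfsg.Agent.Goldschmidt.Dist

/-!
When `bz z ≥ 3`, distinct lines at a point have distinct traces `Q_p ∩ Q_x` on `Q_p`.
-/

set_option autoImplicit false
set_option linter.unusedVariables false
set_option linter.style.haveILetI false

open Subgroup Cfsg.Agent.Amalgam Cfsg.Agent.FusionAlperin
open scoped commutatorElement

namespace Cfsg.Agent.Goldschmidt

open Cfsg.Agent.LAE60 (exists_adj vertexZ_ne_bot conj_mem_of_mem_normalizer mem_normalizer_of_forall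
  centralizer_le_normalizer' mem_centralizer_comm le_normalizer_inf commute_of_commutator_mem)
open Cfsg.Agent.Fusion (cj mem_cj conj_mem_cj cj_le_iff le_cj_iff cj_inv_cj cj_eq_of_mem cj_inf
  cj_eq_self_of_mem cj_mono)

variable {X : Type*} [Group X] {M₁ M₂ : Subgroup X} {z : X}

local notation "Γ" => Cfsg.cosetGraph M₁ M₂
local notation "St" => MulAction.stabilizer X
local notation "Qv" => Cfsg.vertexQ 2
local notation "Te" => Cfsg.edgeStabilizer

theorem Q_fix_adj (h : Hyp M₁ M₂) {v w : Cfsg.CosetVertex M₁ M₂} (hvw : (Γ).Adj v w) {g : X}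
    (hg : g ∈ Qv v) : g • v = v ∧ g • w = w :=
  mem_Te_iff.1 (vertexQ_le_edge h hvw hg)

/-- An element of a line stabilizer fixing `p` outside the kernel multiplies each other `zz` by
`zz p`. -/
theorem conj_zz_of_mem_edge (h : Ctx M₁ M₂ z) {l p q : Cfsg.CosetVertex M₁ M₂} (hl : IsLine l)
    (hp : (Γ).Adj l p) (hq : (Γ).Adj l q) (hqp : q ≠ p) {g : X} (hg : g ∈ Te l p)
    (hgQ : g ∉ Qv l) : g * zz z q * g⁻¹ = zz z q * zz z p := by
  rw [← zz_smul h]
  have h1 : g • q ≠ q := smul_ne_of_mem_edge h.toHyp hp hq hqp hg hgQ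
  have h2 : g • q ≠ p := fun e => hqp (smul_left_cancel g (e.trans (mem_Te_iff.1 hg).2.symm))
  exact (zz_prod h hl hq hp (adj_fix (mem_Te_iff.1 hg).1 hq) hqp h1.symm h2.symm).symm

theorem exists_order_three (h : Hyp M₁ M₂) (v : Cfsg.CosetVertex M₁ M₂) :
    ∃ k ∈ St v, k ^ 3 = 1 ∧ ∀ w, (Γ).Adj v w → k • w ≠ w := by
  haveI : Fact (Nat.Prime 3) := ⟨Nat.prime_three⟩
  haveI := fin h v
  have h3 : 3 ∣ Nat.card (St v) := by
    rw [card_stab h v]; exact Dvd.dvd.mul_right (by norm_num) _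
  obtain ⟨⟨k, hk⟩, hord⟩ := exists_prime_orderOf_dvd_card' 3 h3
  rw [orderOf_mk] at hord
  refine ⟨k, hk, by rw [← hord]; exact pow_orderOf_eq_one k, fun w hw e => ?_⟩
  haveI : Fact (Nat.Prime 2) := ⟨Nat.prime_two⟩
  obtain ⟨j, hj⟩ := IsPGroup.iff_orderOf.1 (isPGroup_edge h hw) ⟨k, mem_Te_iff.2 ⟨hk, e⟩⟩
  rw [orderOf_mk, hord] at hj
  exact absurd (Nat.prime_three.dvd_of_dvd_pow (n := j) (m := 2) (hj ▸ dvd_rfl)) (by norm_num)

/-- Lemma H: distinct lines at a point leave distinct traces on `Q_p`. -/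
theorem inf_ne (h : Ctx M₁ M₂ z) (hb : 3 ≤ bz M₁ M₂ z) {p x x2 : Cfsg.CosetVertex M₁ M₂}
    (hp : IsPt p) (hx : (Γ).Adj p x) (hx2 : (Γ).Adj p x2) (hne : x2 ≠ x) :
    Qv p ⊓ Qv x ≠ Qv p ⊓ Qv x2 := by
  intro he
  have hH := h.toHyp
  have hxl := isLine_of_adj hx hp
  have hall : ∀ l, (Γ).Adj p l → Qv p ⊓ Qv l = Qv p ⊓ Qv x := by
    intro l hl
    by_cases e1 : l = x
    · rw [e1]
    by_cases e2 : l = x2
    · rw [e2, he]
    obtain ⟨t, ht, htQ⟩ := SetLike.not_le_iff_exists.1 (not_edge_le_Q hH hx)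
    obtain ⟨htp, htx⟩ := mem_Te_iff.1 ht
    have htx2 : t • x2 = l := by
      rcases eq_or_eq_or_eq hH hx hx2 hl hne.symm (Ne.symm e1) (Ne.symm e2)
        (adj_fix htp hx2) with e | e | e
      · exact absurd (smul_left_cancel t (e.trans htx.symm)) hne
      · exact absurd e (smul_ne_of_mem_edge hH hx hx2 hne ht htQ)
      · exact e
    have e : cj t (Qv p ⊓ Qv x) = Qv p ⊓ Qv x := by
      rw [cj_inf, cj_Q, cj_Q, htp, htx]
    calc Qv p ⊓ Qv l = cj t (Qv p ⊓ Qv x2) := by rw [cj_inf, cj_Q, cj_Q, htp, htx2]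
      _ = _ := by rw [← he, e]
  set D := Qv p ⊓ Qv x with hD
  have hconj : ∀ g ∈ St p, ∀ d ∈ D, g * d * g⁻¹ ∈ D := by
    intro g hg d hd
    have := conj_mem_cj (g := g).2 hd
    rw [hD, cj_inf, cj_Q, cj_Q, MulAction.mem_stabilizer_iff.1 hg,
      hall _ (adj_fix hg hx)] at this
    exact this
  have hDV : ∀ d ∈ D, ∀ w ∈ Vp z p, d * w = w * d := by
    intro d hd w hw
    refine comm_closure ?_ hw
    rintro _ ⟨l, q, hl, hq, rfl⟩
    have hd' : d ∈ Qv p ⊓ Qv l := (hall l hl).symm ▸ hd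
    exact Wl_comm (zz_mem_Wl h hq (isLine_of_adj hl hp)) hd'.2
  obtain ⟨k, hk, hk3, hkm⟩ := exists_order_three hH p
  have hkinv : k⁻¹ = k * k := by
    refine inv_eq_of_mul_eq_one_right ?_
    rw [← hk3]; simp [pow_succ, mul_assoc]
  have hk3' : k * (k * k) = 1 := by rw [← hkinv, mul_inv_cancel]
  obtain ⟨y0, hy0, hy0p⟩ := exists_other hH hx.symm
  set a := zz z y0 with ha'
  have haV : a ∈ Vp z p := Zs_le_Vp hx (zz_mem_Zs hy0)
  have hconjV : ∀ g ∈ St p, g * a * g⁻¹ ∈ Vp z p := fun g hg => conj_mem_Vp h hg haV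
  set b := k * a * k⁻¹ with hb'
  set c := k * k * a * (k * k)⁻¹ with hc'
  have hbV : b ∈ Vp z p := hconjV k hk
  have hcV : c ∈ Vp z p := hconjV _ (mul_mem hk hk)
  set σ := a * b * c with hσ
  have hσV : σ ∈ Vp z p := mul_mem (mul_mem haV hbV) hcV
  have hVQ : Vp z p ≤ Qv x := Vp_le fun l hl =>
    Zs_le_Q_of_lt (lt_of_le_of_lt (dist_two hH hl.symm hx) (by omega))
  have hσW : σ ∈ Wl x := by
    refine mem_Wl.2 ⟨⟨hVQ hσV, fun q hq => ?_⟩, Vp_sq h hb hp hσV⟩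
    by_cases hqp : q ∈ Qv p
    · exact hDV q ⟨hqp, hq⟩ σ hσV
    obtain ⟨hqx, hqP⟩ := mem_Te_iff.1 (vertexQ_le_edge hH hx.symm hq)
    have hqT : q ∈ Te p x := mem_Te_iff.2 ⟨hqP, hqx⟩
    set x' := k • x with hx'
    have hx'p : (Γ).Adj p x' := adj_fix hk hx
    set x'' := k • x' with hx''
    have hx''p : (Γ).Adj p x'' := adj_fix hk hx'p
    have hkx'' : k • x'' = x := by rw [hx'', hx', ← mul_smul, ← mul_smul, mul_assoc, hk3', one_smul]
    have n1 : x' ≠ x := hkm x hx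
    have n2 : x'' ≠ x' := hkm x' hx'p
    have n3 : x'' ≠ x := fun e => by
      have := hkx''; rw [e] at this; exact n1 this
    have hqx' : q • x' = x'' := by
      rcases eq_or_eq_or_eq hH hx hx'p hx''p n1.symm n3.symm n2.symm
        (adj_fix hqP hx'p) with e | e | e
      · exact absurd (smul_left_cancel q (e.trans hqx.symm)) n1
      · exact absurd e (smul_ne_of_mem_edge hH hx hx'p n1 hqT hqp)
      · exact e
    have hqx'' : q • x'' = x' := by
      rcases eq_or_eq_or_eq hH hx hx'p hx''p n1.symm n3.symm n2.symm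
        (adj_fix hqP hx''p) with e | e | e
      · exact absurd (smul_left_cancel q (e.trans hqx.symm)) n3
      · exact e
      · exact absurd e (smul_ne_of_mem_edge hH hx hx''p n3 hqT hqp)
    have hqi : ∀ {u v : Cfsg.CosetVertex M₁ M₂}, q • u = v → q⁻¹ • v = u :=
      fun e => inv_smul_eq_iff.2 e.symm
    set r := k * (q * k * q⁻¹) with hr
    have hrp : r ∈ St p := mul_mem hk (mul_mem (mul_mem hqP hk) (inv_mem hqP))
    have hrx : r • x = x := by
      rw [hr, mul_smul, mul_smul, mul_smul, hqi hqx, ← hx', hqx', hkx'']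
    have hrx' : r • x' = x' := by
      rw [hr, mul_smul, mul_smul, mul_smul, hqi hqx'', hkx'', hqx, ← hx']
    have hrQ : r ∈ Qv p := by
      by_contra hn
      exact smul_ne_of_mem_edge hH hx hx'p n1 (mem_Te_iff.2 ⟨hrp, hrx⟩) hn hrx'
    have hrD : r ∈ D := by
      by_contra hn
      have hnot : ∀ g ∈ St p, g * r * g⁻¹ ∈ Qv p ∧ g * r * g⁻¹ ∉ D := fun g hg =>
        ⟨conj_mem_Q hg hrQ, fun hd => hn (by
          have := hconj _ (inv_mem hg) _ hd
          simpa [mul_assoc] using this)⟩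
      have two : ∀ u ∈ Qv p, ∀ v ∈ Qv p, (u * v ∈ D ↔ (u ∈ D ↔ v ∈ D)) := fun u hu v hv => by
        have := mul_mem_Q_iff hH hx.symm (vertexQ_le_edge' hH hx hu) (vertexQ_le_edge' hH hx hv)
        rw [hD]
        simpa [hu, hv, mul_mem hu hv] using this
      have e : (k⁻¹ * r * k) * ((k⁻¹ * k⁻¹) * r * (k * k)) * r = 1 := by
        have hq3 : q * k * q⁻¹ * (q * k * q⁻¹) * (q * k * q⁻¹) = 1 := by
          calc q * k * q⁻¹ * (q * k * q⁻¹) * (q * k * q⁻¹) = q * (k * (k * k)) * q⁻¹ := by group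
            _ = 1 := by rw [hk3']; group
        have e' : k⁻¹ * r = q * k * q⁻¹ := by rw [hr, inv_mul_cancel_left]
        calc (k⁻¹ * r * k) * ((k⁻¹ * k⁻¹) * r * (k * k)) * r
            = k⁻¹ * r * (k⁻¹ * r) * (k * (k * k)) * (k⁻¹ * r) := by group
          _ = 1 := by rw [hk3', mul_one, e', hq3]
      have h1 := hnot k⁻¹ (inv_mem hk)
      rw [inv_inv] at h1
      have h2 := hnot (k⁻¹ * k⁻¹) (inv_mem hk |> fun h => mul_mem h h)
      rw [mul_inv_rev, inv_inv] at h2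
      have h12 : (k⁻¹ * r * k) * ((k⁻¹ * k⁻¹) * r * (k * k)) ∈ D :=
        (two _ h1.1 _ h2.1).2 (iff_of_false h1.2 h2.2)
      have := (two _ (mul_mem h1.1 h2.1) _ hrQ).1 (e ▸ one_mem D)
      exact hn (this.1 h12)
    have hqa : q * a * q⁻¹ = a := by
      show q * zz z y0 * q⁻¹ = zz z y0
      rw [Wl_comm (zz_mem_Wl h hy0 hxl) hq]; group
    have hkq : q * k * q⁻¹ = k⁻¹ * r := by rw [hr, inv_mul_cancel_left]
    have hra : r * a * r⁻¹ = a := by rw [hDV r hrD a haV]; group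
    have hqb : q * b * q⁻¹ = c :=
      calc q * b * q⁻¹ = (q * k * q⁻¹) * (q * a * q⁻¹) * (q * k * q⁻¹)⁻¹ := by rw [hb']; group
        _ = k⁻¹ * (r * a * r⁻¹) * k := by rw [hqa, hkq]; group
        _ = c := by rw [hra, hc', ← hkinv, inv_inv]
    have hqc : q * c * q⁻¹ = b := by
      have hka : k⁻¹ * a * k ∈ Vp z p := by simpa using hconjV k⁻¹ (inv_mem hk)
      have hr2 : r * (k⁻¹ * a * k) * r⁻¹ = k⁻¹ * a * k := by rw [hDV r hrD _ hka]; group
      calc q * c * q⁻¹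
          = (q * k * q⁻¹) * (q * k * q⁻¹) * (q * a * q⁻¹) * (q * k * q⁻¹)⁻¹ * (q * k * q⁻¹)⁻¹ := by
            rw [hc']; group
        _ = k⁻¹ * (r * (k⁻¹ * (r * a * r⁻¹) * k) * r⁻¹) * k := by rw [hqa, hkq]; group
        _ = (k⁻¹ * k⁻¹) * a * (k * k) := by rw [hra, hr2]; group
        _ = b := by
            rw [hb', hkinv]
            simp only [mul_assoc, hk3', mul_one]

    calc q * σ = (q * a * q⁻¹) * (q * b * q⁻¹) * (q * c * q⁻¹) * q := by rw [hσ]; group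
      _ = σ * q := by
          rw [hqa, hqb, hqc, hσ, mul_assoc a c b, Vp_comm_self h hb hp hcV hbV, ← mul_assoc]
  obtain ⟨q1, hq1, hq1x⟩ := SetLike.not_le_iff_exists.1 (vertexQ_not_le hH hx.symm)
  have hq1l : ∀ l, (Γ).Adj p l → q1 ∉ Qv l := fun l hl hc0 => hq1x
    (by have : q1 ∈ Qv p ⊓ Qv l := ⟨hq1, hc0⟩; rw [hall l hl] at this; exact this.2)
  have hmove : ∀ g ∈ St p, q1 * (g * a * g⁻¹) * q1⁻¹ = g * a * g⁻¹ * zz z p := by
    intro g hg
    rw [ha', ← zz_smul h]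
    have hl : (Γ).Adj p (g • x) := adj_fix hg hx
    refine conj_zz_of_mem_edge h (hxl.smul g) hl.symm (adj_smul g hy0) (fun e => ?_)
      (vertexQ_le_edge' hH hl hq1) (hq1l _ hl)
    exact hy0p (smul_left_cancel g (e.trans (MulAction.mem_stabilizer_iff.1 hg).symm))
  set ε := zz z p with hε
  have hεc : ∀ g ∈ St p, g * ε = ε * g := fun g hg => zz_comm_stab h hp hg
  have hVSt : Vp z p ≤ St p := (Vp_le_Q_self h hp).trans (Amalgam.pCoreOf_le 2 _)
  have hqa : q1 * a * q1⁻¹ = a * ε := by simpa using hmove 1 (one_mem _)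
  have hεε : ε * ε = 1 := zz_sq h p
  have hfix : q1 * (σ * a) * q1⁻¹ = σ * a :=
    calc q1 * (σ * a) * q1⁻¹
        = (q1 * a * q1⁻¹) * (q1 * b * q1⁻¹) * (q1 * c * q1⁻¹) * (q1 * a * q1⁻¹) := by
          rw [hσ]; group
      _ = (a * ε) * (b * ε) * (c * ε) * (a * ε) := by
          rw [hqa, hmove k hk, hmove (k * k) (mul_mem hk hk)]
      _ = a * (ε * b) * ε * c * (ε * a) * ε := by group
      _ = a * b * (ε * ε) * c * a * (ε * ε) := by
          rw [← hεc b (hVSt hbV), ← hεc a (hVSt haV)]; group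
      _ = σ * a := by rw [hεε, mul_one, mul_one, hσ]
  have hW : σ * a ∈ Zp p := by
    refine Wl_mem_Zp hH hx.symm hp (mul_mem hσW (zz_mem_Wl h hy0 hxl))
      (vertexQ_le_edge' hH hx hq1) hq1x ?_
    calc q1 * (σ * a) = q1 * (σ * a) * q1⁻¹ * q1 := by group
      _ = _ := by rw [hfix]
  have hkσ : k * σ * k⁻¹ = σ :=
    calc k * σ * k⁻¹ = (k * a * k⁻¹) * (k * b * k⁻¹) * (k * c * k⁻¹) := by rw [hσ]; group
      _ = b * c * (k * (k * k) * a * (k * (k * k))⁻¹) := by rw [hb', hc']; group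
      _ = b * c * a := by rw [hk3']; group
      _ = σ := by
        rw [hσ, mul_assoc a, Vp_comm_self h hb hp haV (mul_mem hbV hcV)]
  have hka : k * a * k⁻¹ = a := by
    have e := Zp_comm_stab hH hp hW hk
    have e' : k * (σ * a) * k⁻¹ = σ * a := by rw [e]; group
    have e'' : k * (σ * a) * k⁻¹ = k * σ * k⁻¹ * (k * a * k⁻¹) := by group
    rw [e'', hkσ] at e'
    exact mul_left_cancel e'
  have hyk : (Γ).Adj (k • x) (k • y0) := adj_smul k hy0
  have hmem : a ∈ Zs z (k • x) := by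
    have e : zz z (k • y0) = a := by rw [zz_smul h]; exact hka
    exact e ▸ zz_mem_Zs hyk
  rcases Zs_inf h hp hx (adj_fix hk hx) (hkm x hx) (zz_mem_Zs hy0) hmem with e | e
  · exact zz_ne_one h (isPt_of_adj hy0 hxl) e
  · exact hy0p (zz_inj h hy0 hx.symm hxl e)

theorem exists_Q_inf_not (h : Ctx M₁ M₂ z) (hb : 3 ≤ bz M₁ M₂ z)
    {p x x2 : Cfsg.CosetVertex M₁ M₂} (hp : IsPt p) (hx : (Γ).Adj p x) (hx2 : (Γ).Adj p x2)
    (hne : x2 ≠ x) : ∃ d, d ∈ Qv p ∧ d ∈ Qv x ∧ d ∉ Qv x2 := by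
  by_contra hcon
  refine inf_ne h hb hp hx hx2 hne ?_
  have hle : Qv p ⊓ Qv x ≤ Qv p ⊓ Qv x2 := fun d hd =>
    ⟨hd.1, by_contra fun hn => hcon ⟨d, hd.1, hd.2, hn⟩⟩
  obtain ⟨g, hg, rfl⟩ := neighbours_transitive hx hx2
  haveI : Finite ↥(Qv p ⊓ Qv (g • x)) :=
    finite_of_le h.toHyp (inf_le_left.trans (Amalgam.pCoreOf_le 2 (St p)))
  refine eq_of_le_of_card_ge hle (le_of_eq ?_)
  rw [← card_cj_eq g (Qv p ⊓ Qv x), cj_inf, cj_Q, cj_Q, MulAction.mem_stabilizer_iff.1 hg]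

/-- `Wl` of two lines at `p` share only `Zp p`. -/
theorem Wl_inf (h : Ctx M₁ M₂ z) (hb : 3 ≤ bz M₁ M₂ z) {p x x2 : Cfsg.CosetVertex M₁ M₂}
    (hp : IsPt p) (hx : (Γ).Adj p x) (hx2 : (Γ).Adj p x2) (hne : x2 ≠ x) {w : X}
    (hw : w ∈ Wl x) (hw2 : w ∈ Wl x2) : w ∈ Zp p := by
  obtain ⟨d, hdp, hd2, hdx⟩ := exists_Q_inf_not h hb hp hx2 hx hne.symm
  exact Wl_mem_Zp h.toHyp hx.symm hp hw (vertexQ_le_edge' h.toHyp hx hdp) hdx (Wl_comm hw2 hd2)

end Cfsg.Agent.Goldschmidt
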