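import Cfsg.Agent.Goldschmidt.Three
import Cfsg.Agent.LAE60.SThreeFinal

/-!
Goldschmidt's bound `|M₁ ⊓ M₂| ≤ 2^7`: reduction to the case of characteristic `2` with exactly
one group centralizing `Ω₁(Z(T))`.
-/

set_option autoImplicit false
set_option linter.unusedVariables false
set_option linter.style.haveILetI false

open Subgroup Cfsg.Agent.Amalgam Cfsg.Agent.FusionAlperin
open scoped commutatorElement

namespace Cfsg.Agent.Goldschmidt

open Cfsg.Agent.LAE60 (exists_adj conj_mem_of_mem_normalizer mem_normalizer_of_forall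
  centralizer_le_normalizer' mem_centralizer_comm le_normalizer_inf le_normalizer_centralizer)
open Cfsg.Agent.Fusion (cj mem_cj conj_mem_cj cj_eq_of_mem cj_mono cj_eq_iff_mem_normalizer)

variable {G : Type*} [Group G]

/-- What the hypotheses say on one of the two groups. -/
structure Res (T M : Subgroup G) : Prop where
  le : T ≤ M
  fin : Finite M
  isP : IsPGroup 2 T
  cardM : Nat.card M = 6 * Nat.card (Cfsg.pCoreOf 2 M)
  cardT : Nat.card T = 2 * Nat.card (Cfsg.pCoreOf 2 M)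

theorem res_of {T M : Subgroup G} [Finite M] (hle : T ≤ M)
    (ha : ∃ P : Sylow 2 M, (P : Subgroup M) = T.subgroupOf M)
    (hb : Nonempty (M ⧸ Cfsg.pCore 2 M ≃* Equiv.Perm (Fin 3))) : Res T M := by
  haveI : Fact (Nat.Prime 2) := ⟨Nat.prime_two⟩
  have hS : SylIn 2 T M := ⟨hle, ha⟩
  obtain ⟨e⟩ := hb
  have hM : Nat.card M = 6 * Nat.card (Cfsg.pCoreOf 2 M) := by
    rw [← Subgroup.card_mul_index (Cfsg.pCore 2 ↥M), mul_comm,
      show Nat.card (Cfsg.pCoreOf 2 M) = Nat.card (Cfsg.pCore 2 ↥M) from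
        Subgroup.card_map_of_injective M.subtype_injective]
    congr 1
    rw [Subgroup.index, Nat.card_congr e.toEquiv, Nat.card_perm, Nat.card_fin]
    rfl
  refine ⟨hle, inferInstance, hS.isPGroup, hM, ?_⟩
  haveI : Finite (Cfsg.pCoreOf 2 M) :=
    Finite.of_injective _ (inclusion_injective (Amalgam.pCoreOf_le 2 M))
  obtain ⟨S, hS'⟩ := ha
  obtain ⟨k, hk⟩ := IsPGroup.iff_card.1 (Amalgam.pCoreOf_isPGroup (p := 2) M)
  have h1 : Nat.card T = 2 ^ (Nat.card M).factorization 2 := by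
    rw [← S.card_eq_multiplicity, ← Nat.card_congr (subgroupOfEquivOfLe hle).toEquiv, ← hS']
  have h2 : (Nat.card M).factorization 2 = k + 1 := by
    rw [hM, hk, show 6 * 2 ^ k = 3 * 2 ^ (k + 1) by ring,
      Nat.factorization_mul (by norm_num) (by positivity), Finsupp.add_apply,
      Nat.factorization_eq_zero_of_not_dvd (by norm_num), Nat.prime_two.factorization_pow,
      Finsupp.single_eq_same, zero_add]
  rw [h1, h2, hk, pow_succ']

theorem finite_sub {K M : Subgroup G} [Finite M] (h : K ≤ M) : Finite K :=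
  Finite.of_injective _ (inclusion_injective h)

theorem Res.sylIn {T M : Subgroup G} (r : Res T M) : SylIn 2 T M := by
  haveI : Fact (Nat.Prime 2) := ⟨Nat.prime_two⟩
  haveI := r.fin
  haveI := finite_sub r.le
  obtain ⟨P⟩ := (inferInstance : Nonempty (Sylow 2 M))
  refine sylIn_of_card_le r.le r.isP P (le_of_eq ?_)
  obtain ⟨k, hk⟩ := IsPGroup.iff_card.1 r.isP
  have h3 : Nat.card M = 3 * 2 ^ k := by
    rw [← hk, r.cardT, r.cardM]; ring
  rw [P.card_eq_multiplicity, h3, Nat.factorization_mul (by norm_num) (by positivity),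
    Finsupp.add_apply, Nat.factorization_eq_zero_of_not_dvd (by norm_num),
    Nat.prime_two.factorization_pow, Finsupp.single_eq_same, zero_add, hk]

theorem Res.core_le {T M : Subgroup G} (r : Res T M) : Cfsg.pCoreOf 2 M ≤ T :=
  haveI := r.fin
  pCoreOf_le_sylIn r.sylIn

/-- An element of order `3` in a subgroup that is not a `2`-group. -/
theorem exists_three {T M C : Subgroup G} (r : Res T M) (hC : C ≤ M) (hn : ¬ IsPGroup 2 C) :
    ∃ k ∈ C, k ^ 3 = 1 ∧ k ∉ T ∧ k * k ∉ T := by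
  haveI : Fact (Nat.Prime 2) := ⟨Nat.prime_two⟩
  haveI : Fact (Nat.Prime 3) := ⟨Nat.prime_three⟩
  haveI := r.fin
  haveI := finite_sub hC
  haveI := finite_sub r.le
  obtain ⟨n, hn2⟩ := IsPGroup.iff_card.1 r.isP
  have hd : Nat.card C ∣ 3 * 2 ^ n := by
    have := Subgroup.card_dvd_of_le hC
    rwa [show Nat.card M = 3 * 2 ^ n by rw [← hn2, r.cardT, r.cardM]; ring] at this
  have h3 : 3 ∣ Nat.card C := by
    by_contra h3
    refine hn ?_
    have hco : (Nat.card C).Coprime 3 := (Nat.prime_three.coprime_iff_not_dvd.2 h3).symm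
    obtain ⟨j, -, hj⟩ := (Nat.dvd_prime_pow Nat.prime_two).1 (hco.dvd_of_dvd_mul_left hd)
    exact IsPGroup.of_card hj
  obtain ⟨⟨k, hk⟩, hord⟩ := exists_prime_orderOf_dvd_card' 3 h3
  rw [orderOf_mk] at hord
  have hk3 : k ^ 3 = 1 := by rw [← hord]; exact pow_orderOf_eq_one k
  have hkT : k ∉ T := fun hkT => by
    obtain ⟨j, hj⟩ := IsPGroup.iff_orderOf.1 r.isP ⟨k, hkT⟩
    rw [orderOf_mk, hord] at hj
    exact absurd (Nat.prime_three.dvd_of_dvd_pow (n := j) (m := 2) (hj ▸ dvd_rfl)) (by norm_num)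
  refine ⟨k, hk, hk3, hkT, fun h2 => hkT ?_⟩
  have e : (k * k) * (k * k) = k := by
    calc (k * k) * (k * k) = k ^ 3 * k := by simp [pow_succ, mul_assoc]
      _ = k := by rw [hk3, one_mul]
  exact e ▸ mul_mem h2 h2

/-- The three cosets of `T` in `M`. -/
theorem Res.cosets {T M : Subgroup G} (r : Res T M) {k : G} (hk : k ∈ M) (hk3 : k ^ 3 = 1)
    (hkT : k ∉ T) (hkT2 : k * k ∉ T) {m : G} (hm : m ∈ M) :
    ∃ c, (c = 1 ∨ c = k ∨ c = k * k) ∧ ∃ t ∈ T, m = c * t := by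
  haveI := r.fin
  haveI := finite_sub r.le
  let cs : Fin 3 → G := ![1, k, k * k]
  have hcs : ∀ i, cs i ∈ M := by
    intro i; fin_cases i
    exacts [one_mem _, hk, mul_mem hk hk]
  have hd : ∀ i j, (cs i)⁻¹ * cs j ∈ T → i = j := by
    intro i j hij
    have hi : k⁻¹ ∉ T := fun h => hkT (inv_inv k ▸ inv_mem h)
    have hi2 : k⁻¹ * k⁻¹ ∉ T := fun h => hkT2 (by
      have := inv_mem h; rwa [mul_inv_rev, inv_inv] at this)
    fin_cases i <;> fin_cases j <;>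
      first
      | rfl
      | (simp [cs, hkT, hkT2, hi, hi2, mul_assoc] at hij)
  let f : Fin 3 × T → M := fun p => ⟨cs p.1 * p.2, mul_mem (hcs p.1) (r.le p.2.2)⟩
  have hf : Function.Injective f := by
    rintro ⟨i, t⟩ ⟨j, s⟩ e
    have e' : cs i * (t : G) = cs j * (s : G) := congrArg Subtype.val e
    have hij : i = j := hd i j (by
      have : (cs i)⁻¹ * cs j = (t : G) * (s : G)⁻¹ := by
        calc (cs i)⁻¹ * cs j = (cs i)⁻¹ * (cs j * (s : G)) * (s : G)⁻¹ := by group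
          _ = _ := by rw [← e']; group
      rw [this]; exact mul_mem t.2 (inv_mem s.2))
    subst hij
    rw [Subtype.ext (mul_left_cancel e')]
  have hbij : Function.Bijective f := (Nat.bijective_iff_injective_and_card f).2 ⟨hf, by
    rw [Nat.card_prod, Nat.card_fin, r.cardT, r.cardM]; ring⟩
  obtain ⟨⟨i, t⟩, e⟩ := hbij.2 ⟨m, hm⟩
  have e' : cs i * (t : G) = m := congrArg Subtype.val e
  refine ⟨cs i, ?_, t, t.2, e'.symm⟩
  fin_cases i
  exacts [Or.inl rfl, Or.inr (Or.inl rfl), Or.inr (Or.inr rfl)]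

theorem card_eq_relIndex_of_bot {K Q : Subgroup G} (hK : K = ⊥) :
    Nat.card Q = K.relIndex Q := by
  rw [hK, relIndex_bot_left]

/-- If one group is not of characteristic `2` then `T` is small. -/
theorem small_of_not_charP {T M N : Subgroup G} (r : Res T M) (s : Res T N)
    (hc : ∀ K : Subgroup G, K ≤ T → M ≤ normalizer (K : Set G) → N ≤ normalizer (K : Set G) →
      K = ⊥)
    (hn : ¬ M ⊓ centralizer (Cfsg.pCoreOf 2 M : Set G) ≤ Cfsg.pCoreOf 2 M) :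
    Nat.card T ≤ 2 ^ 7 := by
  haveI := r.fin
  haveI := s.fin
  set Q := Cfsg.pCoreOf 2 M with hQ
  set R := Cfsg.pCoreOf 2 N with hR
  have hMQ : M ≤ normalizer (Q : Set G) := Amalgam.le_normalizer_pCoreOf 2 M
  have hNR : N ≤ normalizer (R : Set G) := Amalgam.le_normalizer_pCoreOf 2 N
  set C := M ⊓ centralizer (Q : Set G) with hC
  obtain ⟨k, hk, hk3, hkT, hkT2⟩ := exists_three r (C := C) inf_le_left fun hp =>
    hn (Amalgam.le_pCoreOf inf_le_left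
      (le_normalizer_inf le_normalizer (le_normalizer_centralizer hMQ)) hp)
  obtain ⟨hkM, hkQ⟩ := mem_inf.1 hk
  obtain ⟨j, hj, hj3, hjT, hjT2⟩ := exists_three s (C := N) le_rfl fun hp => by
    haveI : Fact (Nat.Prime 2) := ⟨Nat.prime_two⟩
    obtain ⟨n, hn2⟩ := IsPGroup.iff_card.1 hp
    have h3 : 3 ∣ 2 ^ n := by
      rw [← hn2, s.cardM]; exact Dvd.dvd.mul_right (by norm_num) _
    exact absurd (Nat.prime_three.dvd_of_dvd_pow h3) (by norm_num)
  set H := Q ⊓ R with hH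
  have hTH : T ≤ normalizer (H : Set G) :=
    le_normalizer_inf (r.le.trans hMQ) (s.le.trans hNR)
  set K := H ⊓ cj j H ⊓ cj (j * j) H with hK
  have hKH : K ≤ H := inf_le_left.trans inf_le_left
  have hKcj : ∀ m ∈ N, K ≤ cj m H := by
    intro m hm
    obtain ⟨c, hcc, t, ht, rfl⟩ := s.cosets hj hj3 hjT hjT2 hm
    rw [← Cfsg.Agent.Fusion.cj_cj, cj_eq_of_mem (hTH ht)]
    rcases hcc with rfl | rfl | rfl
    · rw [Cfsg.Agent.Fusion.cj_one]; exact hKH
    · exact inf_le_left.trans inf_le_right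
    · exact inf_le_right
  have hKN : N ≤ normalizer (K : Set G) := mem_normalizer_of_forall fun g hg x hx => by
    have key : ∀ m ∈ N, g * x * g⁻¹ ∈ cj m H := fun m hm => by
      have := conj_mem_cj (g := g).2 (hKcj (g⁻¹ * m) (mul_mem (inv_mem hg) hm) hx)
      rwa [Cfsg.Agent.Fusion.cj_cj, mul_inv_cancel_left] at this
    refine mem_inf.2 ⟨mem_inf.2 ⟨?_, key j hj⟩, key _ (mul_mem hj hj)⟩
    have := key 1 (one_mem _)
    rwa [Cfsg.Agent.Fusion.cj_one] at this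
  have hKT : K ≤ T := hKH.trans (inf_le_left.trans r.core_le)
  have hKM : M ≤ normalizer (K : Set G) := by
    intro m hm
    obtain ⟨c, hcc, t, ht, rfl⟩ := r.cosets hkM hk3 hkT hkT2 hm
    have hkK : k ∈ normalizer (K : Set G) :=
      centralizer_le_normalizer' _ (centralizer_le (hKH.trans inf_le_left) hkQ)
    refine mul_mem ?_ (hKN (s.le ht))
    rcases hcc with rfl | rfl | rfl
    exacts [one_mem _, hkK, mul_mem hkK hkK]
  have hbot : K = ⊥ := hc K hKT hKM hKN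
  haveI := finite_sub r.le
  have hRT : R ≤ T := s.core_le
  have hQT : Q ≤ T := r.core_le
  haveI := finite_sub (Amalgam.pCoreOf_le 2 M)
  have hQi : Q.relIndex T = 2 := by
    have h1 := card_mul_index (Q.subgroupOf T)
    rw [Nat.card_congr (subgroupOfEquivOfLe hQT).toEquiv, r.cardT, ← hQ, mul_comm 2] at h1
    exact Nat.eq_of_mul_eq_mul_left Nat.card_pos h1
  have hHR : H.relIndex R ≤ 2 := by
    rw [hH, inf_relIndex_right]
    refine (relIndex_le_of_le_right hRT ?_).trans hQi.le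
    rw [hQi]; norm_num
  have hHg : ∀ g ∈ N, (cj g H).relIndex R ≤ 2 := by
    intro g hg
    have e : (cj g H).relIndex (cj g R) = H.relIndex R :=
      relIndex_map_map_of_injective H R (MulEquiv.injective _)
    rw [cj_eq_of_mem (hNR hg)] at e
    exact e.le.trans hHR
  have hR8 : Nat.card R ≤ 8 := by
    rw [card_eq_relIndex_of_bot hbot]
    refine relIndex_inf_le.trans ((Nat.mul_le_mul (relIndex_inf_le.trans
      (Nat.mul_le_mul hHR (hHg j hj))) (hHg _ (mul_mem hj hj))).trans ?_)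
    norm_num
  have := s.cardT
  rw [← hR] at this
  omega

section Gen

variable {X : Type*} [Group X] {M₁ M₂ : Subgroup X}

theorem pair_of (hgen : M₁ ⊔ M₂ = ⊤) (r₁ : Res (M₁ ⊓ M₂) M₁) (r₂ : Res (M₁ ⊓ M₂) M₂)
    (hN : ∀ N : Subgroup X, N ≤ M₁ ⊓ M₂ → N.Normal → N = ⊥)
    (c₁ : M₁ ⊓ centralizer (Cfsg.pCoreOf 2 M₁ : Set X) ≤ Cfsg.pCoreOf 2 M₁)
    (c₂ : M₂ ⊓ centralizer (Cfsg.pCoreOf 2 M₂ : Set X) ≤ Cfsg.pCoreOf 2 M₂) :
    Cfsg.IsCharPAmalgamPair 2 M₁ M₂ := by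
  haveI : Fact (Nat.Prime 2) := ⟨Nat.prime_two⟩
  haveI := r₁.fin
  haveI := r₂.fin
  have hdvd : ∀ {M : Subgroup X}, Res (M₁ ⊓ M₂) M → 2 ∣ Nat.card M := fun r => by
    rw [r.cardM]; exact Dvd.dvd.mul_right (by norm_num) _
  have hnot : ∀ {M : Subgroup X}, Res (M₁ ⊓ M₂) M → ¬ M ≤ M₁ ⊓ M₂ := by
    intro M r hle
    haveI := r.fin
    haveI := finite_sub r.le
    have h1 := Subgroup.card_le_of_le hle
    rw [r.cardT, r.cardM] at h1
    haveI := finite_sub (Amalgam.pCoreOf_le 2 M)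
    have : 0 < Nat.card (Cfsg.pCoreOf 2 M) := Nat.card_pos
    omega
  refine ⟨⟨hgen, ?_, ?_, hN⟩, r₁.fin, r₂.fin, hdvd r₁, hdvd r₂, fun S Q₁ Q₂ => ?_, ?_, ?_⟩
  · intro e; exact hnot r₂ (le_inf (e ▸ le_top) le_rfl)
  · intro e; exact hnot r₁ (le_inf le_rfl (e ▸ le_top))
  · haveI : Finite ↥(M₁ ⊓ M₂) := finite_sub inf_le_left
    obtain ⟨k, hk⟩ := IsPGroup.iff_card.1 r₁.isP
    have hS : Nat.card S = Nat.card ↥(M₁ ⊓ M₂) := by
      rw [Sylow.card_eq_multiplicity, hk, Nat.prime_two.factorization_pow, Finsupp.single_eq_same]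
    exact ⟨hS.trans (sylIn_card r₁.sylIn Q₁), hS.trans (sylIn_card r₂.sylIn Q₂)⟩
  all_goals intro x hx
  · have hxc : (x : X) ∈ centralizer (Cfsg.pCoreOf 2 M₁ : Set X) := by
      refine mem_centralizer_iff.2 ?_
      rintro _ ⟨q, hq, rfl⟩
      exact congrArg Subtype.val (mem_centralizer_iff.1 hx q hq)
    obtain ⟨q, hq, e⟩ := c₁ ⟨x.2, hxc⟩
    rwa [Subtype.ext e] at hq
  · have hxc : (x : X) ∈ centralizer (Cfsg.pCoreOf 2 M₂ : Set X) := by
      refine mem_centralizer_iff.2 ?_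
      rintro _ ⟨q, hq, rfl⟩
      exact congrArg Subtype.val (mem_centralizer_iff.1 hx q hq)
    obtain ⟨q, hq, e⟩ := c₂ ⟨x.2, hxc⟩
    rwa [Subtype.ext e] at hq

theorem bound_of_hyp (h : Hyp M₁ M₂) : Nat.card ↥(M₁ ⊓ M₂) ≤ 2 ^ 7 := by
  haveI : Fact (Nat.Prime 2) := ⟨Nat.prime_two⟩
  haveI := h.pair.2.1
  haveI : Finite ↥(M₁ ⊓ M₂) := finite_sub inf_le_left
  have hne : M₁ ⊓ M₂ ≠ ⊥ := by
    intro hb
    refine h.nc₁ fun g _ => mem_centralizer_iff.2 fun w hw => ?_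
    have : w ∈ (⊥ : Subgroup X) := hb ▸ (Modules.omegaOne_le 2 _ hw).1
    rw [mem_bot] at this
    simp [this]
  obtain ⟨z, hz, hz1⟩ :=
    (Z0 M₁ M₂).bot_or_exists_ne_one.resolve_left (Modules.omegaOne_center_ne_bot h.isP hne)
  have hctx : Ctx M₁ M₂ z := ⟨h, hz, hz1⟩
  have hxy := adj_mk (M₁ := M₁) (M₂ := M₂) (1 : X)
  have hx : IsLine (Sum.inl ((1 : X) : X ⧸ M₁) : Cfsg.CosetVertex M₁ M₂) := ⟨1, rfl⟩
  have hQ : Nat.card (Cfsg.vertexQ 2 (Sum.inr ((1 : X) : X ⧸ M₂) : Cfsg.CosetVertex M₁ M₂)) ≤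
      64 := by
    rcases bz_range hctx with hb | hb
    · exact bound_two hctx hb hxy hx
    · exact bound_three hctx hb hxy hx
  have hT := card_edge h hxy.symm
  rw [Amalgam.edgeStabilizer_comm, edgeStabilizer_mk, card_map_of_injective (MulEquiv.injective _)]
    at hT
  omega

theorem bound_gen (hgen : M₁ ⊔ M₂ = ⊤) (r₁ : Res (M₁ ⊓ M₂) M₁) (r₂ : Res (M₁ ⊓ M₂) M₂)
    (hN : ∀ N : Subgroup X, N ≤ M₁ ⊓ M₂ → N.Normal → N = ⊥)
    (c₁ : M₁ ⊓ centralizer (Cfsg.pCoreOf 2 M₁ : Set X) ≤ Cfsg.pCoreOf 2 M₁)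
    (c₂ : M₂ ⊓ centralizer (Cfsg.pCoreOf 2 M₂ : Set X) ≤ Cfsg.pCoreOf 2 M₂)
    (h1 : ¬ M₁ ≤ centralizer (Z0 M₁ M₂ : Set X)) : Nat.card ↥(M₁ ⊓ M₂) ≤ 2 ^ 7 := by
  have hp := pair_of hgen r₁ r₂ hN c₁ c₂
  by_cases h2 : M₂ ≤ centralizer (Z0 M₁ M₂ : Set X)
  · exact bound_of_hyp ⟨hp, r₁.isP, r₁.cardM, r₂.cardM, h1, h2⟩
  haveI := r₁.fin
  have h48 : Nat.card M₁ ≤ 48 := by
    rcases LAE60.SThree.classify (M₁ := M₁) (M₂ := M₂)
        ⟨hp, r₁.isP, r₁.cardM, r₂.cardM, h1, h2⟩ with ⟨⟨e⟩, -⟩ | ⟨⟨e⟩, -⟩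
    · rw [Nat.card_congr e.toEquiv, Nat.card_perm, Nat.card_fin]
      decide
    · rw [Nat.card_congr e.toEquiv, Nat.card_prod, Nat.card_perm, Nat.card_fin,
        Nat.card_congr Multiplicative.toAdd, Nat.card_zmod]
      decide
  exact (Subgroup.card_le_of_le inf_le_left).trans (h48.trans (by norm_num))

end Gen

theorem map_pCoreOf_eq {X : Type*} [Group X] {f : X →* G} (hf : Function.Injective f)
    (H : Subgroup X) : (Cfsg.pCoreOf 2 H).map f = Cfsg.pCoreOf 2 (H.map f) := by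
  refine le_antisymm (map_pCoreOf_le hf H) ?_
  have hr : Cfsg.pCoreOf 2 (H.map f) ≤ f.range :=
    (Amalgam.pCoreOf_le 2 _).trans (map_le_range f H)
  rw [← map_comap_eq_self hr]
  refine map_mono (Amalgam.le_pCoreOf ?_ ?_ ?_)
  · exact (comap_mono (Amalgam.pCoreOf_le 2 _)).trans (comap_map_eq_self_of_injective hf H).le
  · refine mem_normalizer_of_forall fun g hg x hx => ?_
    rw [mem_comap] at hx ⊢
    rw [map_mul, map_mul, map_inv]
    exact conj_mem_of_mem_normalizer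
      (Amalgam.le_normalizer_pCoreOf 2 _ (mem_map_of_mem f hg)) hx
  · exact (Amalgam.pCoreOf_isPGroup _).comap_of_injective f hf

theorem bound {M₁ M₂ : Subgroup G} (r₁ : Res (M₁ ⊓ M₂) M₁) (r₂ : Res (M₁ ⊓ M₂) M₂)
    (hc : ∀ K : Subgroup G, K ≤ M₁ ⊓ M₂ → M₁ ≤ normalizer (K : Set G) →
      M₂ ≤ normalizer (K : Set G) → K = ⊥)
    (h1 : ¬ M₁ ≤ centralizer (Z0 M₁ M₂ : Set G)) : Nat.card ↥(M₁ ⊓ M₂) ≤ 2 ^ 7 := by
  by_cases c₁ : M₁ ⊓ centralizer (Cfsg.pCoreOf 2 M₁ : Set G) ≤ Cfsg.pCoreOf 2 M₁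
  swap
  · exact small_of_not_charP r₁ r₂ hc c₁
  by_cases c₂ : M₂ ⊓ centralizer (Cfsg.pCoreOf 2 M₂ : Set G) ≤ Cfsg.pCoreOf 2 M₂
  swap
  · exact small_of_not_charP r₂ r₁ (fun K a b c => hc K a c b) c₂
  set J := M₁ ⊔ M₂ with hJ
  set A := M₁.subgroupOf J with hA
  set B := M₂.subgroupOf J with hB
  have eA : A.map J.subtype = M₁ := map_subgroupOf_eq_of_le le_sup_left
  have eB : B.map J.subtype = M₂ := map_subgroupOf_eq_of_le le_sup_right
  have hinj := J.subtype_injective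
  have eT : (A ⊓ B).map J.subtype = M₁ ⊓ M₂ := by rw [map_inf _ _ _ hinj, eA, eB]
  have eZ : (Z0 A B).map J.subtype = Z0 M₁ M₂ := by
    rw [Modules.map_omegaOne hinj, Modules.map_inf_centralizer hinj, eT]
  have hres : ∀ {A' : Subgroup J} {M : Subgroup G}, A'.map J.subtype = M → A ⊓ B ≤ A' →
      Res (M₁ ⊓ M₂) M → Res (A ⊓ B) A' := by
    intro A' M e hle r
    have eQ : (Cfsg.pCoreOf 2 A').map J.subtype = Cfsg.pCoreOf 2 M := by
      rw [map_pCoreOf_eq hinj, e]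
    have cA : Nat.card A' = Nat.card M := by rw [← e, card_map_of_injective hinj]
    have cT : Nat.card ↥(A ⊓ B) = Nat.card ↥(M₁ ⊓ M₂) := by
      rw [← eT, card_map_of_injective hinj]
    have cQ : Nat.card (Cfsg.pCoreOf 2 A') = Nat.card (Cfsg.pCoreOf 2 M) := by
      rw [← eQ, card_map_of_injective hinj]
    refine ⟨hle, ?_, ?_, by rw [cA, cQ, r.cardM], by rw [cT, cQ, r.cardT]⟩
    · haveI := r.fin
      exact Nat.finite_of_card_ne_zero (cA ▸ Nat.card_pos.ne')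
    · exact (r.isP.of_equiv ((MulEquiv.subgroupCongr eT).symm.trans
        ((A ⊓ B).equivMapOfInjective _ hinj).symm))
  have hch : ∀ {A' : Subgroup J} {M : Subgroup G}, A'.map J.subtype = M →
      M ⊓ centralizer (Cfsg.pCoreOf 2 M : Set G) ≤ Cfsg.pCoreOf 2 M →
      A' ⊓ centralizer (Cfsg.pCoreOf 2 A' : Set J) ≤ Cfsg.pCoreOf 2 A' := by
    intro A' M e hM x hx
    obtain ⟨hxA, hxc⟩ := mem_inf.1 hx
    have h' : (x : G) ∈ Cfsg.pCoreOf 2 M := by
      refine hM (mem_inf.2 ⟨e ▸ mem_map_of_mem _ hxA, mem_centralizer_iff.2 ?_⟩)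
      rw [← e, ← map_pCoreOf_eq hinj]
      rintro _ ⟨q, hq, rfl⟩
      exact congrArg Subtype.val (mem_centralizer_iff.1 hxc q hq)
    rw [← e, ← map_pCoreOf_eq hinj] at h'
    obtain ⟨y, hy, e'⟩ := h'
    exact hinj e' ▸ hy
  have hgen : A ⊔ B = ⊤ := by
    apply map_injective hinj
    rw [Subgroup.map_sup, eA, eB, ← MonoidHom.range_eq_map, Subgroup.range_subtype]
  have hN : ∀ N : Subgroup J, N ≤ A ⊓ B → N.Normal → N = ⊥ := by
    intro N hle hn
    have hnn : J ≤ normalizer ((N.map J.subtype : Subgroup G) : Set G) :=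
      mem_normalizer_of_forall fun g hg x hx => by
        obtain ⟨y, hy, rfl⟩ := hx
        exact ⟨⟨g, hg⟩ * y * ⟨g, hg⟩⁻¹, hn.conj_mem y hy _, rfl⟩
    have := hc (N.map J.subtype) (eT ▸ map_mono hle) (le_sup_left.trans hnn)
      (le_sup_right.trans hnn)
    exact (map_eq_bot_iff_of_injective N hinj).1 this
  have h1' : ¬ A ≤ centralizer (Z0 A B : Set J) := fun hle => h1 fun m hm => by
    rw [← eA] at hm
    obtain ⟨a, ha, rfl⟩ := hm
    rw [← eZ]
    refine mem_centralizer_iff.2 ?_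
    rintro _ ⟨w, hw, rfl⟩
    exact congrArg Subtype.val (mem_centralizer_iff.1 (hle ha) w hw)
  have := bound_gen hgen (hres eA inf_le_left r₁) (hres eB inf_le_right r₂) hN (hch eA c₁)
    (hch eB c₂) h1'
  rwa [← card_map_of_injective (K := A ⊓ B) hinj, eT] at this

/-- Goldschmidt's bound. -/
theorem goldschmidt_bound {M₁ M₂ : Subgroup G} [Finite M₁] [Finite M₂]
    (ha₁ : ∃ P : Sylow 2 M₁, (P : Subgroup M₁) = (M₁ ⊓ M₂).subgroupOf M₁)
    (ha₂ : ∃ P : Sylow 2 M₂, (P : Subgroup M₂) = (M₁ ⊓ M₂).subgroupOf M₂)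
    (hb₁ : Nonempty (M₁ ⧸ Cfsg.pCore 2 M₁ ≃* Equiv.Perm (Fin 3)))
    (hb₂ : Nonempty (M₂ ⧸ Cfsg.pCore 2 M₂ ≃* Equiv.Perm (Fin 3)))
    (hc : ∀ N : Subgroup G, N ≤ M₁ ⊓ M₂ → (N.subgroupOf M₁).Normal → (N.subgroupOf M₂).Normal →
      N = ⊥) : Nat.card ↥(M₁ ⊓ M₂) ≤ 2 ^ 7 := by
  have r₁ := res_of inf_le_left ha₁ hb₁
  have r₂ := res_of inf_le_right ha₂ hb₂
  have hc' : ∀ K : Subgroup G, K ≤ M₁ ⊓ M₂ → M₁ ≤ normalizer (K : Set G) →
      M₂ ≤ normalizer (K : Set G) → K = ⊥ := fun K hK n1 n2 =>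
    hc K hK (normal_subgroupOf_of_le_normalizer n1) (normal_subgroupOf_of_le_normalizer n2)
  by_cases h1 : M₁ ≤ centralizer (Z0 M₁ M₂ : Set G)
  swap
  · exact bound r₁ r₂ hc' h1
  by_cases h2 : M₂ ≤ centralizer (Z0 M₁ M₂ : Set G)
  swap
  · have e : Z0 M₂ M₁ = Z0 M₁ M₂ := by rw [Z0, Z0, inf_comm M₂ M₁]
    have := bound (M₁ := M₂) (M₂ := M₁) (inf_comm M₁ M₂ ▸ r₂) (inf_comm M₁ M₂ ▸ r₁)
      (fun K hK a b => hc' K (inf_comm M₁ M₂ ▸ hK) b a) (e.symm ▸ h2)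
    rwa [inf_comm] at this
  exfalso
  haveI : Fact (Nat.Prime 2) := ⟨Nat.prime_two⟩
  haveI : Finite ↥(M₁ ⊓ M₂) := finite_sub inf_le_left
  have hne : M₁ ⊓ M₂ ≠ ⊥ := fun hb => by
    have h := r₁.cardT
    rw [hb, Subgroup.card_bot] at h
    omega
  refine Modules.omegaOne_center_ne_bot r₁.isP hne (hc' _ ?_ ?_ ?_)
  · exact (Modules.omegaOne_le 2 _).trans inf_le_left
  · exact h1.trans (centralizer_le_normalizer' _)
  · exact h2.trans (centralizer_le_normalizer' _)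

end Cfsg.Agent.Goldschmidt
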