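import Cfsg.Agent.Goldschmidt.Even

/-!
`bz z` is not an odd number `≥ 5`.
-/

set_option autoImplicit false
set_option linter.unusedVariables false
set_option linter.style.haveILetI false

open Subgroup Cfsg.Agent.Amalgam Cfsg.Agent.FusionAlperin
open scoped commutatorElement

namespace Cfsg.Agent.Goldschmidt

open Cfsg.Agent.LAE60 (exists_adj vertexZ_ne_bot conj_mem_of_mem_normalizer mem_normalizer_of_forall
  centralizer_le_normalizer' mem_centralizer_comm le_normalizer_inf commute_of_commutator_mem)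
open Cfsg.Agent.Fusion (cj mem_cj conj_mem_cj cj_le_iff le_cj_iff cj_inv_cj cj_eq_of_mem cj_inf
  cj_eq_self_of_mem cj_mono cj_eq_iff_mem_normalizer)

variable {X : Type*} [Group X] {M₁ M₂ : Subgroup X} {z : X}

local notation "Γ" => Cfsg.cosetGraph M₁ M₂
local notation "St" => MulAction.stabilizer X
local notation "Qv" => Cfsg.vertexQ 2
local notation "Te" => Cfsg.edgeStabilizer

/-! ### Small facts -/

theorem comm_mul_left (a b k : X) : ⁅a * b, k⁆ = a * ⁅b, k⁆ * a⁻¹ * ⁅a, k⁆ := by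
  simp only [commutatorElement_def]; group

theorem comm_one_of {a k : X} (e : k * a = a * k) : ⁅a, k⁆ = 1 :=
  commutatorElement_eq_one_iff_mul_comm.2 e.symm

theorem mem_Wl_smul {v : Cfsg.CosetVertex M₁ M₂} {a : X} (g : X) (ha : a ∈ Wl v) :
    g * a * g⁻¹ ∈ Wl (g • v) := by
  obtain ⟨⟨h1, h2⟩, h3⟩ := mem_Wl.1 ha
  refine mem_Wl.2 ⟨⟨cj_Q g v ▸ conj_mem_cj.2 h1, fun k hk => ?_⟩,
    by rw [← MulAut.conj_apply, ← map_mul, h3, map_one]⟩
  have hk' : g⁻¹ * k * g ∈ Qv v := by rw [← cj_Q g v, mem_cj] at hk; exact hk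
  calc k * (g * a * g⁻¹) = g * (g⁻¹ * k * g * a) * g⁻¹ := by group
    _ = g * (a * (g⁻¹ * k * g)) * g⁻¹ := by rw [h2 _ hk']
    _ = _ := by group

theorem mem_sup_comm {A B : Subgroup X} (hc : ∀ a ∈ A, ∀ b ∈ B, a * b = b * a) {w : X}
    (hw : w ∈ A ⊔ B) : ∃ a ∈ A, ∃ b ∈ B, a * b = w := by
  have hinv : ∀ a ∈ A, ∀ b ∈ B, ∃ a' ∈ A, ∃ b' ∈ B, a' * b' = (a * b)⁻¹ := fun a ha b hb =>
    ⟨a⁻¹, inv_mem ha, b⁻¹, inv_mem hb, by
      rw [mul_inv_rev, hc _ (inv_mem ha) _ (inv_mem hb)]⟩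
  let S : Subgroup X :=
    { carrier := {w | ∃ a ∈ A, ∃ b ∈ B, a * b = w}
      one_mem' := ⟨1, one_mem _, 1, one_mem _, one_mul 1⟩
      mul_mem' := by
        rintro _ _ ⟨a, ha, b, hb, rfl⟩ ⟨a', ha', b', hb', rfl⟩
        refine ⟨a * a', mul_mem ha ha', b * b', mul_mem hb hb', ?_⟩
        calc a * a' * (b * b') = a * (a' * b) * b' := by group
          _ = a * (b * a') * b' := by rw [hc a' ha' b hb]
          _ = _ := by group
      inv_mem' := by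
        rintro _ ⟨a, ha, b, hb, rfl⟩
        exact hinv a ha b hb }
  exact (sup_le (c := S) (fun a ha => ⟨a, ha, 1, one_mem _, mul_one a⟩)
    (fun b hb => ⟨1, one_mem _, b, hb, one_mul b⟩)) hw

/-- Commutators of a `zz` on a line with the stabilizer of an edge. -/
theorem comm_zz_edge (h : Ctx M₁ M₂ z) {l y q : Cfsg.CosetVertex M₁ M₂} (hy : IsPt y)
    (hl : (Γ).Adj y l) (hq : (Γ).Adj l q) {k : X} (hk : k ∈ Te l y) :
    ⁅zz z q, k⁆ = 1 ∨ ⁅zz z q, k⁆ = zz z y := by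
  have hll := isLine_of_adj hl hy
  by_cases hqy : q = y
  · rw [hqy]
    exact Or.inl (comm_one_of (zz_comm_stab h hy (mem_Te_iff.1 hk).2))
  by_cases hkQ : k ∈ Qv l
  · exact Or.inl (comm_one_of (Wl_comm (zz_mem_Wl h hq hll) hkQ))
  · refine Or.inr ?_
    have e := conj_zz_of_mem_edge h hll hl.symm hq hqy hk hkQ
    have ec : zz z q * zz z y = zz z y * zz z q :=
      Wl_comm (zz_mem_Wl h hl.symm hll) (Wl_le_Q _ (zz_mem_Wl h hq hll))
    calc ⁅zz z q, k⁆ = zz z q * (k * zz z q * k⁻¹)⁻¹ := by rw [commutatorElement_def]; group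
      _ = _ := by rw [e, ec, mul_inv_rev, mul_inv_cancel_left, zz_inv h]

theorem zpowers_fix (h : Ctx M₁ M₂ z) {y : Cfsg.CosetVertex M₁ M₂} (hy : IsPt y) {g e : X}
    (hg : g ∈ St y) (he : e ∈ zpowers (zz z y)) : g * e * g⁻¹ = e := by
  obtain rfl | rfl := (zpowers_zz h).1 he
  · simp
  · rw [zz_comm_stab h hy hg]; group

theorem comm_Vp_Q (h : Ctx M₁ M₂ z) {y : Cfsg.CosetVertex M₁ M₂} (hy : IsPt y) {r k : X}
    (hr : r ∈ Vp z y) (hk : k ∈ Qv y) : ⁅r, k⁆ = 1 ∨ ⁅r, k⁆ = zz z y := by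
  refine (zpowers_zz h).1 ?_
  have hVy : Vp z y ≤ St y := (Vp_le_Q_self h hy).trans (Amalgam.pCoreOf_le 2 _)
  induction hr using closure_induction with
  | mem a ha =>
    obtain ⟨l, q, hl, hq, rfl⟩ := ha
    exact (zpowers_zz h).2 (comm_zz_edge h hy hl hq (vertexQ_le_edge' h.toHyp hl hk))
  | one => rw [commutatorElement_one_left]; exact one_mem _
  | mul a b ha hb iha ihb =>
    rw [comm_mul_left, zpowers_fix h hy (hVy ha) ihb]
    exact mul_mem ihb iha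
  | inv a ha iha =>
    have e : ⁅a⁻¹, k⁆ = a⁻¹ * ⁅a, k⁆⁻¹ * (a⁻¹)⁻¹ := by
      rw [commutatorElement_def, commutatorElement_def]; group
    rw [e, zpowers_fix h hy (inv_mem (hVy ha)) (inv_mem iha)]
    exact inv_mem iha

theorem exists_gen_Vp {p : Cfsg.CosetVertex M₁ M₂} {S : Subgroup X} (hn : ¬ Vp z p ≤ S) :
    ∃ m q, (Γ).Adj p m ∧ (Γ).Adj m q ∧ zz z q ∉ S := by
  by_contra hc
  exact hn (Vp_le fun l hl => Zs_le fun q hq => by_contra fun e => hc ⟨l, q, hl, hq, e⟩)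

/-- An element fixing `v` and a line at `v` but outside `Q_v` fails to commute with some `zz`
on a further line at `v`. -/
theorem exists_noncomm (h : Ctx M₁ M₂ z) {v m0 : Cfsg.CosetVertex M₁ M₂} (hv : IsPt v)
    (hm0 : (Γ).Adj v m0) {g : X} (hg : g ∈ Te v m0) (hgQ : g ∉ Qv v) :
    ∃ m q, (Γ).Adj v m ∧ m ≠ m0 ∧ (Γ).Adj m q ∧ q ≠ v ∧ g * zz z q ≠ zz z q * g := by
  obtain ⟨m, hm, hmne⟩ := exists_other h.toHyp hm0
  obtain ⟨q, hq, hqv⟩ := exists_other h.toHyp hm.symm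
  exact ⟨m, q, hm, hmne, hq, hqv, fun e =>
    smul_ne_of_mem_edge h.toHyp hm0 hm hmne hg hgQ
      (line_fixed_of_comm h hv hm hq hqv (mem_Te_iff.1 hg).1 e)⟩

/-! ### Windows -/

/-- A critical arc of odd length `n + 5`. -/
structure Window (M₁ M₂ : Subgroup X) (z : X) (a : ℕ → Cfsg.CosetVertex M₁ M₂) (n : ℕ) : Prop where
  hb : bz M₁ M₂ z = n + 5
  ev : Even n
  arc : IsArc M₁ M₂ a (n + 5)
  line : IsLine (a 0)
  crit : ¬ Zs z (a 0) ≤ Cfsg.vertexQ 2 (a (n + 5))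

variable {a : ℕ → Cfsg.CosetVertex M₁ M₂} {n : ℕ}

theorem Window.adj1 (w : Window M₁ M₂ z a n) : (Γ).Adj (a 0) (a 1) := w.arc.adj 0 (by omega)

theorem Window.adj2 (w : Window M₁ M₂ z a n) : (Γ).Adj (a 1) (a 2) := w.arc.adj 1 (by omega)

theorem Window.pt1 (w : Window M₁ M₂ z a n) : IsPt (a 1) := isPt_of_adj w.adj1 w.line

theorem Window.line2 (w : Window M₁ M₂ z a n) : IsLine (a 2) := isLine_of_adj w.adj2 w.pt1

theorem Window.line4 (w : Window M₁ M₂ z a n) : IsLine (a (n + 4)) :=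
  (w.arc.parity _ (by omega)).2 ⟨fun _ => w.ev.add (by decide), fun _ => w.line⟩

theorem Window.pt5 (w : Window M₁ M₂ z a n) : IsPt (a (n + 5)) :=
  isPt_of_adj (w.arc.adj (n + 4) (by omega)) w.line4

theorem Window.line2' (w : Window M₁ M₂ z a n) : IsLine (a (n + 2)) :=
  (w.arc.parity _ (by omega)).2 ⟨fun _ => w.ev.add (by decide), fun _ => w.line⟩

theorem Window.pt3 (w : Window M₁ M₂ z a n) : IsPt (a (n + 3)) :=
  isPt_of_adj (w.arc.adj (n + 2) (by omega)) w.line2'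

theorem Window.three_le (w : Window M₁ M₂ z a n) : 3 ≤ bz M₁ M₂ z := by rw [w.hb]; omega

theorem Window.dist_le (w : Window M₁ M₂ z a n) (h : Ctx M₁ M₂ z) {i j : ℕ} (hij : i ≤ j)
    (hj : j ≤ n + 5) : (Γ).dist (a i) (a j) ≤ j - i ∧ (Γ).dist (a j) (a i) ≤ j - i :=
  w.arc.dist_le' h.toHyp hij hj

theorem Window.W_le_St (w : Window M₁ M₂ z a n) (h : Ctx M₁ M₂ z) {i : ℕ} (h1 : 1 ≤ i)
    (hi : i ≤ n + 5) : Vp z (a (n + 5)) ≤ St (a i) := by
  refine Vp_le_St h ?_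
  have := (w.dist_le h hi le_rfl).1
  rw [w.hb]; omega

theorem Window.one_comm (w : Window M₁ M₂ z a n) (h : Ctx M₁ M₂ z) {c : X}
    (hc : c ∈ Vp z (a (n + 5))) : zz z (a 1) * c = c * zz z (a 1) := by
  refine comm_closure ?_ hc
  rintro _ ⟨l, q, hl, hq, rfl⟩
  refine (Zs_comm h w.line2 ?_ (zz_mem_Zs hq) (zz_mem_Zs w.adj2.symm)).symm
  have h1 := (w.dist_le h (i := 2) (j := n + 5) (by omega) le_rfl).1
  have h2 := dist_adj h.toHyp (u := a 2) hl
  rw [SimpleGraph.dist_comm, w.hb]; omega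

theorem Window.zz_not_mem (w : Window M₁ M₂ z a n) (h : Ctx M₁ M₂ z)
    {y : Cfsg.CosetVertex M₁ M₂} (hy : (Γ).Adj (a 0) y) (hne : y ≠ a 1) :
    zz z y ∉ Qv (a (n + 5)) := by
  intro hmem
  refine w.crit (Zs_le_two h w.line hy w.adj1 hne hmem ?_)
  refine Zs_le_Q_of_lt ?_ (zz_mem_Zs w.adj2.symm)
  have h1 := (w.dist_le h (i := 2) (j := n + 5) (by omega) le_rfl).1
  rw [w.hb]; omega

theorem Window.noncomm (w : Window M₁ M₂ z a n) (h : Ctx M₁ M₂ z)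
    {y : Cfsg.CosetVertex M₁ M₂} (hy : (Γ).Adj (a 0) y) (hne : y ≠ a 1) :
    ∃ c ∈ Vp z (a (n + 5)), c * zz z y ≠ zz z y * c := by
  have hg : zz z y ∈ Te (a (n + 5)) (a (n + 4)) := by
    refine mem_Te_iff.2 ⟨?_, ?_⟩
    · exact arc_Zs_le_St h w.arc w.hb.ge le_rfl (zz_mem_Zs hy)
    · exact arc_Zs_le_St h w.arc w.hb.ge (by omega : n + 4 ≤ n + 5) (zz_mem_Zs hy)
  obtain ⟨m, q, hm, -, hq, -, hne'⟩ := exists_noncomm h w.pt5
    (w.arc.adj (n + 4) (by omega)).symm hg (w.zz_not_mem h hy hne)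
  exact ⟨zz z q, Zs_le_Vp hm (zz_mem_Zs hq), fun e => hne' e.symm⟩

/-- The shift of a window. -/
theorem exists_shift (h : Ctx M₁ M₂ z) (w : Window M₁ M₂ z a n)
    {y0 : Cfsg.CosetVertex M₁ M₂} (hy0 : (Γ).Adj (a 0) y0) (hy0ne : y0 ≠ a 1) :
    ∃ l, (Γ).Adj y0 l ∧ l ≠ a 0 ∧ ¬ Zs z l ≤ Qv (a (n + 3)) ∧
      Window M₁ M₂ z (consV l (consV y0 a)) n := by
  have hH := h.toHyp
  have hy0p := isPt_of_adj hy0 w.line
  have harc : IsArc M₁ M₂ (consV y0 a) (n + 5) :=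
    (w.arc.mono (by omega : n + 4 ≤ n + 5)).cons hy0.symm fun _ => hy0ne
  suffices ∃ l, (Γ).Adj y0 l ∧ ¬ Zs z l ≤ Qv (a (n + 3)) by
    obtain ⟨l, hl, hln⟩ := this
    have hlx : l ≠ a 0 := fun e => hln (e ▸ Zs_le_Q_of_lt (by
      have := (w.dist_le h (Nat.zero_le (n + 3)) (by omega)).1
      rw [w.hb]; omega))
    exact ⟨l, hl, hlx, hln, w.hb, w.ev,
      (harc.mono (by omega : n + 4 ≤ n + 5)).cons hl.symm fun _ => hlx,
      isLine_of_adj hl hy0p, hln⟩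
  by_contra hcase
  have hV3 : Vp z y0 ≤ Qv (a (n + 3)) := Vp_le fun l hl => by_contra fun e => hcase ⟨l, hl, e⟩
  have hV4 : ∀ v ∈ Vp z y0, v • a (n + 4) = a (n + 4) := fun v hv =>
    (Q_fix_adj hH (w.arc.adj (n + 3) (by omega)) (hV3 hv)).2
  have hVlow : ∀ i ≤ n + 3, ∀ v ∈ Vp z y0, v • a i = a i := by
    intro i hi v hv
    have h1 := (w.dist_le h (Nat.zero_le i) (by omega)).2
    have h2 := dist_adj hH (u := a i) hy0
    exact Vp_le_St h (by rw [w.hb]; omega) hv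
  have hVy : Vp z y0 ≤ Te (a 0) y0 :=
    (Vp_le_Q_self h hy0p).trans (vertexQ_le_edge' hH hy0.symm)
  have hVcons : ∀ i ≤ n + 5, ∀ v ∈ Vp z y0, v • consV y0 a i = consV y0 a i := by
    intro i hi v hv
    cases i with
    | zero => exact (mem_Te_iff.1 (hVy hv)).2
    | succ i =>
      show v • a i = a i
      rcases Nat.lt_or_ge i (n + 4) with hi' | hi'
      · exact hVlow i (by omega) v hv
      · obtain rfl : i = n + 4 := by omega
        exact hV4 v hv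
  have hmover2 : ∃ e, IsArc M₁ M₂ e (n + 5) ∧ IsPt (e (n + 5)) ∧ Moves M₁ M₂ e (n + 5) := by
    obtain ⟨p, hp, hps⟩ := exists_gen_not_mem w.crit
    have hs : ∀ i ≤ n + 5, zz z p ∈ St (a i) := fun i hi =>
      arc_Zs_le_St h w.arc w.hb.ge hi (zz_mem_Zs hp)
    obtain ⟨m, hm, hmne⟩ := exists_other hH (w.arc.adj (n + 4) (by omega)).symm
    exact ⟨a, w.arc, w.pt5, zz z p, hs, m, hm, smul_ne_of_mem_edge hH
      (w.arc.adj (n + 4) (by omega)).symm hm hmne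
      (mem_Te_iff.2 ⟨hs _ le_rfl, hs _ (by omega)⟩) hps⟩
  have hmover1 : ∃ e, IsArc M₁ M₂ e (n + 5) ∧ IsLine (e (n + 5)) ∧ Moves M₁ M₂ e (n + 5) := by
    by_cases hW : Vp z (a (n + 5)) ≤ Qv (a 1)
    · obtain ⟨c, hc, hcne⟩ := w.noncomm h hy0 hy0ne
      have hc0 : c • a 0 = a 0 := (Q_fix_adj hH w.adj1.symm (hW hc)).2
      refine ⟨fun i => a (n + 5 - i), w.arc.rev, ?_, c, fun i hi => ?_, y0, ?_, fun e => ?_⟩
      · show IsLine (a (n + 5 - (n + 5)))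
        rw [Nat.sub_self]; exact w.line
      · show c • a (n + 5 - i) = a (n + 5 - i)
        rcases Nat.eq_zero_or_pos (n + 5 - i) with e | e
        · rw [e]; exact hc0
        · exact w.W_le_St h e (by omega) hc
      · show (Γ).Adj (a (n + 5 - (n + 5))) y0
        rw [Nat.sub_self]; exact hy0
      · have := zz_smul h c y0
        rw [e] at this
        exact hcne (eq_mul_inv_iff_mul_eq.1 this).symm
    obtain ⟨m, q, hm, hq, hqQ⟩ := exists_gen_Vp hW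
    set wq := zz z q with hwq
    have hwV : wq ∈ Vp z (a (n + 5)) := Zs_le_Vp hm (zz_mem_Zs hq)
    by_cases hfix : ∀ v ∈ Vp z y0, v • a (n + 5) = a (n + 5)
    swap
    · simp only [not_forall] at hfix
      obtain ⟨v, hv, hvm⟩ := hfix
      exact ⟨consV y0 a, harc, w.line4, v, fun i hi => hVcons i hi v hv, a (n + 5),
        w.arc.adj (n + 4) (by omega), hvm⟩
    by_cases hD : ∃ v ∈ Vp z y0, v ∈ Qv (a (n + 5)) ∧ v * wq ≠ wq * v
    · obtain ⟨v, hv, hvQ, hvw⟩ := hD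
      have hml : IsLine m := isLine_of_adj hm w.pt5
      have hvm : v ∈ Te m (a (n + 5)) := vertexQ_le_edge' hH hm hvQ
      have hvQm : v ∉ Qv m := fun e => hvw (Wl_comm (zz_mem_Wl h hq hml) e)
      obtain ⟨p, hp, hpne⟩ := exists_other hH hm.symm
      have hmne : m ≠ a (n + 4) := fun e => hqQ (Zs_le_Q_of_lt (x := a (n + 4)) (by
        have := (w.dist_le h (i := 1) (j := n + 4) (by omega) (by omega)).2
        rw [w.hb]; omega) (zz_mem_Zs (e ▸ hq)))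
      have hr : IsArc M₁ M₂ (consV m (fun i => a (n + 5 - i))) (n + 5) := by
        refine (w.arc.rev.mono (by omega : n + 4 ≤ n + 5)).cons ?_ fun _ => ?_
        · exact hm.symm
        · exact hmne
      refine ⟨fun i => consV m (fun j => a (n + 5 - j)) (n + 5 - i), hr.rev, ?_, v,
        fun i hi => ?_, p, ?_, smul_ne_of_mem_edge hH hm.symm hp hpne hvm hvQm⟩
      · show IsLine (consV m (fun j => a (n + 5 - j)) (n + 5 - (n + 5)))
        rw [Nat.sub_self]; exact hml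
      · show v • consV m (fun j => a (n + 5 - j)) (n + 5 - i) =
          consV m (fun j => a (n + 5 - j)) (n + 5 - i)
        obtain ⟨j, hj⟩ : ∃ j, j = n + 5 - i := ⟨_, rfl⟩
        rw [← hj]
        cases j with
        | zero => exact (mem_Te_iff.1 hvm).1
        | succ j =>
          show v • a (n + 5 - j) = a (n + 5 - j)
          rcases Nat.lt_or_ge (n + 5 - j) (n + 4) with e | e
          · exact hVlow _ (by omega) v hv
          · rcases Nat.lt_or_ge (n + 5 - j) (n + 5) with e' | e'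
            · rw [show n + 5 - j = n + 4 by omega]; exact hV4 v hv
            · rw [show n + 5 - j = n + 5 by omega]; exact hfix v hv
      · show (Γ).Adj (consV m (fun j => a (n + 5 - j)) (n + 5 - (n + 5))) p
        rw [Nat.sub_self]; exact hp
    exfalso
    have hD' : ∀ v ∈ Vp z y0, v ∈ Qv (a (n + 5)) → v * wq = wq * v := fun v hv hvQ =>
      by_contra fun e => hD ⟨v, hv, hvQ, e⟩
    have hw12 : wq ∈ Te (a 1) (a 2) :=
      mem_Te_iff.2 ⟨w.W_le_St h le_rfl (by omega) hwV, w.W_le_St h (by omega) (by omega) hwV⟩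
    have hw1 := (mem_Te_iff.1 hw12).1
    have hwx : wq • a 0 ≠ a 0 := smul_ne_of_mem_edge hH w.adj2 w.adj1.symm
      (w.arc.nb 0 (by omega)) hw12 hqQ
    set x2 := wq • a 0 with hx2
    have hx2a : (Γ).Adj (a 1) x2 := adj_fix hw1 w.adj1.symm
    have hx2l : IsLine x2 := isLine_of_adj hx2a w.pt1
    have hz0U : zz z y0 ∈ Ul z x2 := Vp_le_Ul hx2a.symm (Zs_le_Vp w.adj1.symm (zz_mem_Zs hy0))
    have hDU : ∀ v ∈ Vp z y0, v ∈ Qv (a (n + 5)) → v ∈ Ul z x2 := by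
      intro v hv hvQ
      have e : wq * v * wq⁻¹ = v := by rw [← hD' v hv hvQ]; group
      refine Vp_le_Ul (r := wq • y0) (adj_smul wq hy0) ?_
      rw [← cj_Vp h, ← e]
      exact conj_mem_cj.2 hv
    have hV0U : Vp z y0 ≤ Ul z x2 := by
      intro v hv
      by_cases hvQ : v ∈ Qv (a (n + 5))
      · exact hDU v hv hvQ
      have h45 := (w.arc.adj (n + 4) (by omega)).symm
      have hz0T : zz z y0 ∈ Te (a (n + 5)) (a (n + 4)) := mem_Te_iff.2
        ⟨arc_Zs_le_St h w.arc w.hb.ge le_rfl (zz_mem_Zs hy0),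
          arc_Zs_le_St h w.arc w.hb.ge (by omega : n + 4 ≤ n + 5) (zz_mem_Zs hy0)⟩
      have h1 : v * zz z y0 ∈ Qv (a (n + 5)) :=
        (mul_mem_Q_iff hH h45 (mem_Te_iff.2 ⟨hfix v hv, hV4 v hv⟩) hz0T).2
          (iff_of_false hvQ (w.zz_not_mem h hy0 hy0ne))
      have h2 := mul_mem (hDU _ (mul_mem hv (Zs_le_Vp hy0.symm (zz_mem_Zs hy0))) h1)
        (inv_mem hz0U)
      rwa [mul_inv_cancel_right] at h2
    have hUU : Ul z (a 0) ≤ Ul z x2 := by
      refine Ul_le fun r hr => ?_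
      by_cases e1 : r = a 1
      · rw [e1]; exact Vp_le_Ul hx2a.symm
      by_cases e2 : r = y0
      · rw [e2]; exact hV0U
      obtain ⟨g, hg, hgQ⟩ := SetLike.not_le_iff_exists.1 (vertexQ_not_le hH w.adj1)
      have hgT : g ∈ Te (a 0) (a 1) := vertexQ_le_edge' hH w.adj1.symm hg
      have hgy : g • y0 = r := by
        rcases eq_or_eq_or_eq hH w.adj1 hy0 hr hy0ne.symm (Ne.symm e1) (Ne.symm e2)
          (adj_fix (mem_Te_iff.1 hgT).1 hy0) with e | e | e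
        · exact absurd (smul_left_cancel g (e.trans (mem_Te_iff.1 hgT).2.symm)) hy0ne
        · exact absurd e (smul_ne_of_mem_edge hH w.adj1 hy0 hy0ne hgT hgQ)
        · exact e
      rw [← hgy, ← cj_Vp h, cj_le_iff, cj_Ul h,
        inv_smul_eq_iff.2 (Q_fix_adj hH hx2a hg).2.symm]
      exact hV0U
    have hU2 : Ul z x2 ≤ St x2 := Ul_le fun r hr =>
      (Vp_le_Q_self h (isPt_of_adj hr hx2l)).trans
        ((vertexQ_le_edge hH hr.symm).trans inf_le_right)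
    haveI := finite_of_le hH hU2
    have heq : Ul z (a 0) = Ul z x2 := eq_of_le_of_card_ge hUU (le_of_eq (by
      rw [hx2, ← cj_Ul h, card_cj_eq]))
    have hwn : wq ∈ normalizer (Ul z (a 0) : Set X) := by
      rw [← cj_eq_iff_mem_normalizer, cj_Ul h, ← hx2, ← heq]
    have hSx : St (a 0) ≤ normalizer (Ul z (a 0) : Set X) := fun g hg => by
      rw [← cj_eq_iff_mem_normalizer, cj_Ul h, MulAction.mem_stabilizer_iff.1 hg]
    have hS1 : St (a 1) ≤ normalizer (Ul z (a 0) : Set X) := by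
      rw [← sup_eq_stab hH w.adj1.symm (K := zpowers wq) (zpowers_le.2 hw1)
        (fun hle => hwx (mem_Te_iff.1 (hle (mem_zpowers wq))).2)]
      exact sup_le (inf_le_right.trans hSx) (zpowers_le.2 hwn)
    have hle : Ul z (a 0) ≤ Te (a 0) (a 1) := Ul_le fun r hr => le_inf
      ((Vp_le_Q_self h (isPt_of_adj hr w.line)).trans
        ((vertexQ_le_edge hH hr.symm).trans inf_le_right))
      (Vp_le_St h (by
        have := dist_two hH w.adj1.symm hr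
        rw [w.hb]; omega))
    have hbot := bot_of_normalized hH w.adj1 hle hSx hS1
    exact zz_ne_one h hy0p
      (mem_bot.1 (hbot ▸ Vp_le_Ul hy0 (Zs_le_Vp hy0.symm (zz_mem_Zs hy0))))
  have hhom := (homog_of_movers hH hmover1 hmover2 (n + 4) (by omega)).2
  obtain ⟨g, hg⟩ := hhom (fun i => a (1 + i)) (consV y0 a) (w.arc.shift (by omega))
    (harc.mono (by omega)) w.pt1 hy0p
  have g0 : g • a 1 = y0 := hg 0 (by omega)
  have g1 : g • a (1 + (n + 4)) = a (n + 3) := hg (n + 4) le_rfl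
  rw [show 1 + (n + 4) = n + 5 by omega] at g1
  refine w.crit ((Zs_le_Vp (p := a 1) w.adj1.symm).trans ?_)
  rw [← g0, ← g1, ← cj_Vp h, ← cj_Q] at hV3
  exact (map_le_map_iff_of_injective (MulEquiv.injective _)).1 hV3

/-- A window with `Vp` of its end acting nontrivially at its second vertex. -/
structure SWin (M₁ M₂ : Subgroup X) (z : X) (a : ℕ → Cfsg.CosetVertex M₁ M₂) (n : ℕ) : Prop
    extends Window M₁ M₂ z a n where
  strong : ¬ Vp z (a (n + 5)) ≤ Cfsg.vertexQ 2 (a 1)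

theorem dist_lines (h : Hyp M₁ M₂) {p p' l l' : Cfsg.CosetVertex M₁ M₂} (hl : (Γ).Adj p l)
    (hl' : (Γ).Adj p' l') : (Γ).dist l l' ≤ (Γ).dist p p' + 2 := by
  have h1 := (connected h.pair.1.1).dist_triangle (u := l) (v := p) (w := l')
  rw [dist_one hl.symm] at h1
  have h2 := dist_adj h (u := p) hl'
  omega

theorem Window.W3_comm (w : Window M₁ M₂ z a n) (h : Ctx M₁ M₂ z) {c d : X}
    (hc : c ∈ Vp z (a (n + 3))) (hd : d ∈ Vp z (a (n + 5))) : c * d = d * c := by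
  refine Vp_comm h w.pt5 (fun l l' hl hl' => ?_) hc hd
  have h1 := dist_lines h.toHyp hl hl'
  have h2 := (w.dist_le h (i := n + 3) (j := n + 5) (by omega) le_rfl).1
  rw [w.hb]; omega

theorem Window.V3_le (w : Window M₁ M₂ z a n) (h : Ctx M₁ M₂ z)
    {y0 : Cfsg.CosetVertex M₁ M₂} (hy0 : (Γ).Adj (a 0) y0) :
    Vp z y0 ≤ St (a (n + 3)) ∧ Vp z (a (n + 3)) ≤ St y0 ∧ Vp z (a (n + 3)) ≤ Qv (a 0) := by
  have h1 := w.dist_le h (i := 0) (j := n + 3) (by omega) (by omega)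
  have h2 := dist_adj h.toHyp (u := a (n + 3)) hy0
  refine ⟨Vp_le_St h ?_, Vp_le_St h ?_, Vp_le_Qv h ?_⟩
  · rw [w.hb]; omega
  · rw [w.hb, SimpleGraph.dist_comm]; omega
  · rw [w.hb]; omega

theorem shift_strong (h : Ctx M₁ M₂ z) (w : Window M₁ M₂ z a n)
    {y0 l : Cfsg.CosetVertex M₁ M₂} (hy0 : (Γ).Adj (a 0) y0) (hy0ne : y0 ≠ a 1)
    (hl : (Γ).Adj y0 l) (hln : ¬ Zs z l ≤ Qv (a (n + 3)))
    (w' : Window M₁ M₂ z (consV l (consV y0 a)) n) :
    SWin M₁ M₂ z (consV l (consV y0 a)) n := by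
  refine ⟨w', fun hle => ?_⟩
  have hle : Vp z (a (n + 3)) ≤ Qv y0 := hle
  have hH := h.toHyp
  have hy0p := isPt_of_adj hy0 w.line
  obtain ⟨p, hp, hps⟩ := exists_gen_not_mem hln
  have hpT : zz z p ∈ Te (a (n + 3)) (a (n + 2)) := by
    refine mem_Te_iff.2 ⟨?_, ?_⟩
    · exact arc_Zs_le_St h w'.arc w'.hb.ge (i := n + 5) le_rfl (zz_mem_Zs hp)
    · exact arc_Zs_le_St h w'.arc w'.hb.ge (i := n + 4) (by omega) (zz_mem_Zs hp)
  obtain ⟨m, q, hm, -, hq, -, hne⟩ :=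
    exists_noncomm h w.pt3 (w.arc.adj (n + 2) (by omega)).symm hpT hps
  have hfV : zz z q ∈ Vp z (a (n + 3)) := Zs_le_Vp hm (zz_mem_Zs hq)
  have hrV : ⁅zz z p, zz z q⁆ ∈ Vp z (a (n + 3)) := by
    rw [commutatorElement_def]
    exact mul_mem (conj_mem_Vp h (mem_Te_iff.1 hpT).1 hfV) (inv_mem hfV)
  rcases comm_zz_edge h hy0p hl hp (vertexQ_le_edge' hH hl (hle hfV)) with e | e
  · exact hne (commutatorElement_eq_one_iff_mul_comm.1 e)
  · obtain ⟨c, hc, hcne⟩ := w.noncomm h hy0 hy0ne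
    exact hcne (e ▸ (w.W3_comm h hrV hc)).symm

/-- The key commutator lemma. -/
theorem comm_mem_Zp (h : Ctx M₁ M₂ z) (w : SWin M₁ M₂ z a n)
    {y0 : Cfsg.CosetVertex M₁ M₂} (hy0 : (Γ).Adj (a 0) y0) (hy0ne : y0 ≠ a 1)
    {u f : X} (hu : u ∈ Vp z y0) (hf : f ∈ Vp z (a (n + 3))) : ⁅u, f⁆ ∈ Zp (a 1) := by
  have hH := h.toHyp
  have hb := w.three_le
  have hxl := w.line
  have hy0p := isPt_of_adj hy0 hxl
  obtain ⟨hu3, hf0, hfQx⟩ := w.V3_le h hy0
  set r := ⁅u, f⁆ with hr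
  set z0 := zz z y0 with hz0
  have hVy : Vp z y0 ≤ Qv y0 := Vp_le_Q_self h hy0p
  have hrV0 : r ∈ Vp z y0 := by
    rw [hr, commutatorElement_def, mul_assoc u, mul_assoc u]
    exact mul_mem hu (conj_mem_Vp h (hf0 hf) (inv_mem hu))
  have hrV3 : r ∈ Vp z (a (n + 3)) := by
    rw [hr, commutatorElement_def]
    exact mul_mem (conj_mem_Vp h (hu3 hu) hf) (inv_mem hf)
  by_cases hfQ : f ∈ Qv y0
  · rcases comm_Vp_Q h hy0p hu hfQ with e | e
    · rw [hr, e]; exact one_mem _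
    · obtain ⟨c, hc, hcne⟩ := w.toWindow.noncomm h hy0 hy0ne
      have e3 := w.toWindow.W3_comm h hrV3 hc
      rw [hr, e] at e3
      exact absurd e3.symm hcne
  have hfT : f ∈ Te y0 (a 0) := mem_Te_iff.2 ⟨hf0 hf, (Q_fix_adj hH hy0 (hfQx hf)).1⟩
  have hrf : r * f = f * r := Vp_comm_self h hb w.pt3 hrV3 hf
  have hN : ∀ s ∈ Te (a 0) y0, ⁅r, s⁆ = 1 ∨ ⁅r, s⁆ = z0 := by
    intro s hs
    by_cases hsQ : s ∈ Qv y0
    · exact comm_Vp_Q h hy0p hrV0 hsQ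
    have hs' : s ∈ Te y0 (a 0) := mem_Te_iff.2 ⟨(mem_Te_iff.1 hs).2, (mem_Te_iff.1 hs).1⟩
    have hk : f * s ∈ Qv y0 := (mul_mem_Q_iff hH hy0.symm hfT hs').2 (iff_of_false hfQ hsQ)
    have e1 : r * f⁻¹ = f⁻¹ * r := (Commute.inv_right (hrf : Commute r f)).eq
    have e : ⁅r, s⁆ = f⁻¹ * ⁅r, f * s⁆ * f :=
      calc ⁅r, s⁆ = r * f⁻¹ * (f * s) * r⁻¹ * (f * s)⁻¹ * f := by
            rw [commutatorElement_def]; group
        _ = _ := by rw [e1, commutatorElement_def]; group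
    have hc := comm_Vp_Q h hy0p hrV0 hk
    have e3 : f⁻¹ * ⁅r, f * s⁆ * f = ⁅r, f * s⁆ := by
      simpa using zpowers_fix h hy0p (inv_mem (hf0 hf)) ((zpowers_zz h).2 hc)
    rw [e, e3]; exact hc
  obtain ⟨c, hc, hcQ⟩ := SetLike.not_le_iff_exists.1 w.strong
  have hc12 : c ∈ Te (a 1) (a 2) :=
    mem_Te_iff.2 ⟨w.W_le_St h le_rfl (by omega) hc, w.W_le_St h (by omega) (by omega) hc⟩
  have hc1 := (mem_Te_iff.1 hc12).1
  have hcx : c • a 0 ≠ a 0 :=
    smul_ne_of_mem_edge hH w.adj2 w.adj1.symm (w.arc.nb 0 (by omega)) hc12 hcQ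
  set x2 := c • a 0 with hx2
  set p := c • y0 with hp
  have hrc : r * c = c * r := w.W3_comm h hrV3 hc
  have hx2a : (Γ).Adj (a 1) x2 := adj_fix hc1 w.adj1.symm
  have hx2l : IsLine x2 := isLine_of_adj hx2a w.pt1
  have hpx : (Γ).Adj x2 p := adj_smul c hy0
  have hpne : p ≠ a 1 := fun e => hy0ne (smul_left_cancel c (e.trans hc1.symm))
  have hN2 : ∀ s ∈ Te x2 p, ⁅r, s⁆ = 1 ∨ ⁅r, s⁆ = zz z p := by
    intro s hs
    have hs' : c⁻¹ * s * c ∈ Te (a 0) y0 := by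
      rw [← mem_cj, cj_edge]; exact hs
    have hr' : c * r * c⁻¹ = r := by rw [← hrc]; group
    have e : ⁅r, s⁆ = c * ⁅r, c⁻¹ * s * c⁆ * c⁻¹ :=
      calc ⁅r, s⁆ = ⁅c * r * c⁻¹, s⁆ := by rw [hr']
        _ = _ := by rw [commutatorElement_def, commutatorElement_def]; group
    rcases hN _ hs' with e' | e'
    · exact Or.inl (by rw [e, e']; group)
    · exact Or.inr (by rw [e, e', hp, zz_smul h])
  obtain ⟨d, hd1, hdx, hdx2⟩ := exists_Q_inf_not h hb w.pt1 w.adj1.symm hx2a hcx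
  have hdT : d ∈ Te (a 0) y0 := vertexQ_le_edge hH hy0 hdx
  have hdx2' : d • x2 = x2 := (Q_fix_adj hH hx2a hd1).2
  have hd2 : d ∈ Te x2 (a 1) := vertexQ_le_edge' hH hx2a hd1
  set p'' := d • p with hp''
  have hp''x : (Γ).Adj x2 p'' := adj_fix hdx2' hpx
  have hp''ne : p'' ≠ p := smul_ne_of_mem_edge hH hx2a.symm hpx hpne hd2 hdx2
  have hx2Q : Vp z y0 ≤ Qv x2 := Vp_le_Qv h (by
    have h1 := dist_two hH hy0.symm w.adj1
    have h2 := dist_adj hH (u := y0) hx2a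
    rw [w.hb, SimpleGraph.dist_comm]; omega)
  have hdconj : ∀ s ∈ Qv x2, ⁅d * r * d⁻¹, s⁆ = 1 ∨ ⁅d * r * d⁻¹, s⁆ = zz z p'' := by
    intro s hs
    have hs' : d⁻¹ * s * d ∈ Qv x2 := by
      simpa using conj_mem_Q (inv_mem (mem_Te_iff.1 hd2).1) hs
    have e : ⁅d * r * d⁻¹, s⁆ = d * ⁅r, d⁻¹ * s * d⁆ * d⁻¹ := by
      rw [commutatorElement_def, commutatorElement_def]; group
    rcases hN2 _ (vertexQ_le_edge hH hpx hs') with e' | e'
    · exact Or.inl (by rw [e, e']; group)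
    · exact Or.inr (by rw [e, e', hp'', zz_smul h d p])
  rcases hN d hdT with hrd | hrd
  · have hdr : d * r * d⁻¹ = r := by
      rw [← commutatorElement_eq_one_iff_mul_comm.1 hrd]; group
    have hcent : ∀ s ∈ Qv x2, s * r = r * s := by
      intro s hs
      have h1 := hdconj s hs
      rw [hdr] at h1
      refine (commutatorElement_eq_one_iff_mul_comm.1 ?_).symm
      rcases hN2 s (vertexQ_le_edge hH hpx hs) with e | e
      · exact e
      rcases h1 with e' | e'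
      · exact e'
      · exact absurd (zz_inj h hpx hp''x hx2l (e.symm.trans e')) hp''ne.symm
    have hW2 : r ∈ Wl x2 := mem_Wl.2 ⟨⟨hx2Q hrV0, hcent⟩, Vp_sq h hb hy0p hrV0⟩
    have hW : r ∈ Wl (a 0) := by
      have := mem_Wl_smul c⁻¹ hW2
      rw [hx2, inv_smul_smul, inv_inv, mul_assoc, hrc, inv_mul_cancel_left] at this
      exact this
    exact Wl_inf h hb w.pt1 w.adj1.symm hx2a hcx hW hW2
  exfalso
  have hdr : d * r * d⁻¹ = z0 * r := by
    have h1 : r * d * r⁻¹ * d⁻¹ = z0 := by rw [← hrd, commutatorElement_def]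
    have hzr : r * z0 = z0 * r := zz_comm_stab h hy0p ((Amalgam.pCoreOf_le 2 _) (hVy hrV0))
    have h2 : d * r * d⁻¹ = z0⁻¹ * r := by rw [← h1]; group
    rw [h2, hz0, zz_inv h]
  have hz0Q : z0 ∈ Qv x2 := Zs_le_Q_of_lt (by
    have := dist_two hH w.adj1 hx2a
    rw [w.hb]; omega) (zz_mem_Zs hy0)
  have hz0c : ∀ s ∈ Qv x2, ⁅z0, s⁆ ∈ Zs z x2 := by
    intro s hs
    have h1 : ⁅z0 * r, s⁆ ∈ Zs z x2 := by
      rw [← hdr]
      rcases hdconj s hs with e | e <;> rw [e]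
      exacts [one_mem _, zz_mem_Zs hp''x]
    have h2 : ⁅r, s⁆ ∈ Zs z x2 := by
      rcases hN2 s (vertexQ_le_edge hH hpx hs) with e | e <;> rw [e]
      exacts [one_mem _, zz_mem_Zs hpx]
    have h3 : z0 * ⁅r, s⁆ * z0⁻¹ = ⁅r, s⁆ := by
      rw [Wl_comm (Zs_le_Wl h hx2l h2) hz0Q]; group
    rw [comm_mul_left, h3] at h1
    have := mul_mem (inv_mem h2) h1
    rwa [inv_mul_cancel_left] at this
  -- `Vp` at a point is generated by two lines
  obtain ⟨s, hs, hs1⟩ := SetLike.not_le_iff_exists.1 (vertexQ_not_le hH hx2a)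
  have hsT : s ∈ Te (a 1) x2 := vertexQ_le_edge' hH hx2a.symm hs
  set x3 := s • a 0 with hx3
  have hx3a : (Γ).Adj (a 1) x3 := adj_fix (mem_Te_iff.1 hsT).1 w.adj1.symm
  have hx30 : x3 ≠ a 0 := smul_ne_of_mem_edge hH hx2a w.adj1.symm hcx.symm hsT hs1
  have hx32 : x3 ≠ x2 := fun e =>
    hcx (smul_left_cancel s (e.trans (mem_Te_iff.1 hsT).2.symm)).symm
  have hnat : Zs z x3 ≤ Zs z (a 0) ⊔ Zs z x2 := by
    refine Zs_le_two h (hxl.smul s) hx3a.symm (adj_smul s hy0) (fun e => ?_)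
      (mem_sup_left (zz_mem_Zs w.adj1)) ?_
    · exact hy0ne (smul_left_cancel s (e.symm.trans (mem_Te_iff.1 hsT).1.symm))
    · have e1 : s * z0 * s⁻¹ = ⁅z0, s⁆⁻¹ * z0 := by rw [commutatorElement_def]; group
      rw [zz_smul h, ← hz0, e1]
      exact mul_mem (mem_sup_right (inv_mem (hz0c s hs))) (mem_sup_left (zz_mem_Zs hy0))
  have hnat' : Zs z x2 ≤ Zs z (a 0) ⊔ Zs z x3 := by
    obtain ⟨t, ht, htQ⟩ := SetLike.not_le_iff_exists.1 (not_edge_le_Q hH w.adj1.symm)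
    obtain ⟨ht1, ht0⟩ := mem_Te_iff.1 ht
    have e2 : t • x2 = x3 := by
      rcases eq_or_eq_or_eq hH w.adj1.symm hx2a hx3a hcx.symm hx30.symm hx32.symm
        (adj_fix ht1 hx2a) with e | e | e
      · exact absurd (smul_left_cancel t (e.trans ht0.symm)) hcx
      · exact absurd e (smul_ne_of_mem_edge hH w.adj1.symm hx2a hcx ht htQ)
      · exact e
    have e3 : t • x3 = x2 := by
      rcases eq_or_eq_or_eq hH w.adj1.symm hx2a hx3a hcx.symm hx30.symm hx32.symm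
        (adj_fix ht1 hx3a) with e | e | e
      · exact absurd (smul_left_cancel t (e.trans ht0.symm)) hx30
      · exact e
      · exact absurd e (smul_ne_of_mem_edge hH w.adj1.symm hx3a hx30 ht htQ)
    have : cj t (Zs z x3) ≤ cj t (Zs z (a 0)) ⊔ cj t (Zs z x2) :=
      (cj_mono t hnat).trans (le_of_eq (Subgroup.map_sup _ _ _))
    simp only [cj_Zs h, e2, e3, ht0] at this
    exact this
  obtain ⟨g, hg, hgy⟩ := neighbours_transitive w.adj1 hy0
  have hg0 : g • a 0 = a 0 := hg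
  set l := g • x2 with hl
  set l3 := g • x3 with hl3
  have hly : (Γ).Adj y0 l := hgy ▸ adj_smul g hx2a
  have hl3y : (Γ).Adj y0 l3 := hgy ▸ adj_smul g hx3a
  have hlx : l ≠ a 0 := fun e => hcx (smul_left_cancel g (e.trans hg0.symm))
  have hl3x : l3 ≠ a 0 := fun e => hx30 (smul_left_cancel g (e.trans hg0.symm))
  have hl3l : l3 ≠ l := fun e => hx32 (smul_left_cancel g e)
  have hS : Zs z l3 ≤ Zs z (a 0) ⊔ Zs z l := by
    have : cj g (Zs z x3) ≤ cj g (Zs z (a 0)) ⊔ cj g (Zs z x2) :=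
      (cj_mono g hnat).trans (le_of_eq (Subgroup.map_sup _ _ _))
    simpa only [cj_Zs h, hg0] using this
  have hVsup : Vp z y0 ≤ Zs z (a 0) ⊔ Zs z l := by
    refine Vp_le fun m hm => ?_
    rcases eq_or_eq_or_eq hH hy0.symm hly hl3y hlx.symm hl3x.symm hl3l.symm hm with e | e | e
    · rw [e]; exact le_sup_left
    · rw [e]; exact le_sup_right
    · rw [e]; exact hS
  have hcommV : ∀ b ∈ Vp z y0, ∀ b' ∈ Vp z y0, b * b' = b' * b := fun b hb' b' hb'' =>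
    Vp_comm_self h hb hy0p hb' hb''
  have hgen : ∀ q, (Γ).Adj l q → ⁅zz z q, f⁆ ∈ Zs z (a 0) := by
    intro q hq
    by_cases hqy : q = y0
    · rw [hqy, comm_one_of (zz_comm_stab h hy0p (hf0 hf))]; exact one_mem _
    have hll := isLine_of_adj hly hy0p
    have hfl : f • l = l3 := by
      rcases eq_or_eq_or_eq hH hy0.symm hly hl3y hlx.symm hl3x.symm hl3l.symm
        (adj_fix (mem_Te_iff.1 hfT).1 hly) with e | e | e
      · exact absurd (smul_left_cancel f (e.trans (mem_Te_iff.1 hfT).2.symm)) hlx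
      · exact absurd e (smul_ne_of_mem_edge hH hy0.symm hly hlx hfT hfQ)
      · exact e
    set c3 := f * zz z q * f⁻¹ with hc3
    have hc3' : c3 = zz z (f • q) := (zz_smul h f q).symm
    have hfq : (Γ).Adj l3 (f • q) := hfl ▸ adj_smul f hq
    have hc3l : c3 ∈ Zs z l3 := hc3' ▸ zz_mem_Zs hfq
    obtain ⟨a', ha', c2, hc2, e⟩ := mem_sup_comm
      (fun b hb' b' hb'' => hcommV b (Zs_le_Vp hy0.symm hb') b' (Zs_le_Vp hly hb'')) (hS hc3l)
    have hbad : c3 ∉ Zs z (a 0) := fun hmem => by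
      rw [hc3'] at hmem
      rcases Zs_inf h hy0p hl3y hy0.symm hl3x.symm (zz_mem_Zs hfq) hmem with e' | e'
      · exact zz_ne_one h (isPt_of_adj hfq (isLine_of_adj hl3y hy0p)) e'
      · exact hqy (smul_left_cancel f
          ((zz_inj h hfq hl3y.symm (isLine_of_adj hl3y hy0p) e').trans
            (mem_Te_iff.1 hfT).1.symm))
    have e1 : ⁅zz z q, f⁆ = zz z q * (a' * c2) :=
      calc ⁅zz z q, f⁆ = zz z q * (f * zz z q * f⁻¹)⁻¹ := by rw [commutatorElement_def]; group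
        _ = _ := by rw [← hc3, hc3', zz_inv h, ← hc3', e]
    rw [e1]
    rcases mem_Zs h hll hc2 with e2 | ⟨q', hq', e2⟩
    · exact absurd (by rw [← e, e2, mul_one]; exact ha') hbad
    by_cases e3 : q' = y0
    · exact absurd (by rw [← e, ← e2, e3]; exact mul_mem ha' (zz_mem_Zs hy0)) hbad
    rw [← e2, ← mul_assoc, hcommV _ (Zs_le_Vp hly (zz_mem_Zs hq)) a' (Zs_le_Vp hy0.symm ha'),
      mul_assoc]
    refine mul_mem ha' ?_
    by_cases e4 : q' = q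
    · rw [e4, zz_sq h]; exact one_mem _
    · rw [zz_prod h hll hq hq' hly.symm (Ne.symm e4) hqy e3]
      exact zz_mem_Zs hy0
  have hrx : r ∈ Zs z (a 0) := by
    obtain ⟨a', ha', c2, hc2, e⟩ := mem_sup_comm
      (fun b hb' b' hb'' => hcommV b (Zs_le_Vp hy0.symm hb') b' (Zs_le_Vp hly hb'')) (hVsup hu)
    have h1 : ⁅a', f⁆ = 1 := comm_one_of (Wl_comm (Zs_le_Wl h hxl ha') (hfQx hf))
    have h2 : ⁅c2, f⁆ ∈ Zs z (a 0) := by
      rcases mem_Zs h (isLine_of_adj hly hy0p) hc2 with e2 | ⟨q', hq', e2⟩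
      · rw [e2, commutatorElement_one_left]; exact one_mem _
      · exact e2 ▸ hgen q' hq'
    have hx0 : Zs z (a 0) ≤ St (a 0) :=
      (Zs_le_Wl h hxl).trans ((Wl_le_Q _).trans (Amalgam.pCoreOf_le 2 _))
    rw [hr, ← e, comm_mul_left, h1, mul_one]
    exact conj_mem_Zs h (hx0 ha') h2
  exact zz_ne_one h hy0p (hrd.symm.trans (comm_one_of (Wl_comm (Zs_le_Wl h hxl hrx) hdx)))

/-- Distance `5` is impossible. -/
theorem no_five (h : Ctx M₁ M₂ z) (w : SWin M₁ M₂ z a 0) : False := by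
  have hH := h.toHyp
  have hb := w.three_le
  obtain ⟨y0, hy0, hy0ne⟩ := exists_other hH w.adj1
  have hy0p := isPt_of_adj hy0 w.line
  obtain ⟨l, hl, hlx, hln, w'⟩ := exists_shift h w.toWindow hy0 hy0ne
  have ws := shift_strong h w.toWindow hy0 hy0ne hl hln w'
  have hln : ¬ Zs z l ≤ Qv (a 3) := hln
  have hll := isLine_of_adj hl hy0p
  obtain ⟨p0, hp0, hps⟩ := exists_gen_not_mem hln
  set u := zz z p0 with hu
  have hp0ne : p0 ≠ y0 := fun e => hps (by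
    rw [hu, e]
    refine Zs_le_Q_of_lt ?_ (zz_mem_Zs hy0)
    have := (w.toWindow.dist_le h (i := 0) (j := 3) (by omega) (by omega)).1
    rw [w.hb]; omega)
  have huSt : ∀ i ≤ 3, u ∈ St (a i) := fun i hi =>
    arc_Zs_le_St h w'.arc w'.hb.ge (i := i + 2) (by omega) (zz_mem_Zs hp0)
  obtain ⟨m, q, hm, hq, hqQ⟩ := exists_gen_Vp w.strong
  set c := zz z q with hc
  have hcV : c ∈ Vp z (a 5) := Zs_le_Vp hm (zz_mem_Zs hq)
  have hc12 : c ∈ Te (a 1) (a 2) :=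
    mem_Te_iff.2 ⟨w.W_le_St h le_rfl (by omega) hcV, w.W_le_St h (by omega) (by omega) hcV⟩
  have hc1 := (mem_Te_iff.1 hc12).1
  have hcx : c • a 0 ≠ a 0 :=
    smul_ne_of_mem_edge hH w.adj2 w.adj1.symm (w.arc.nb 0 (by omega)) hc12 hqQ
  have hu32 : u ∈ Te (a 3) (a 2) := mem_Te_iff.2 ⟨huSt 3 le_rfl, huSt 2 (by omega)⟩
  have hu4 : u • a 4 ≠ a 4 := smul_ne_of_mem_edge hH (w.arc.adj 2 (by omega)).symm
    (w.arc.adj 3 (by omega)) (w.arc.nb 2 (by omega)).symm hu32 hps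
  set x2 := c • a 0 with hx2
  set p := c • y0 with hp
  have hx2a : (Γ).Adj (a 1) x2 := adj_fix hc1 w.adj1.symm
  have hpx : (Γ).Adj x2 p := adj_smul c hy0
  have hpne : a 1 ≠ p := fun e => hy0ne (smul_left_cancel c (hc1.trans e)).symm
  have harc : IsArc M₁ M₂ (consV y0 a) 4 :=
    (w.arc.mono (by omega : 3 ≤ 0 + 5)).cons hy0.symm fun _ => hy0ne
  have hom1 : Homog M₁ M₂ 1 IsPt :=
    homog_succ hH homog_zero_pt fun hn => absurd hn (by omega)
  have hom2 : Homog M₁ M₂ 2 IsPt := by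
    refine homog_succ hH hom1 fun _ => ⟨consV y0 a, harc.mono (by omega), hy0p, ?_⟩
    obtain ⟨t, ht, htQ⟩ := SetLike.not_le_iff_exists.1 (not_edge_le_Q hH hy0)
    refine ⟨t, fun i hi => ?_, a 1, w.adj1,
      smul_ne_of_mem_edge hH hy0 w.adj1 hy0ne.symm ht htQ⟩
    interval_cases i
    exacts [(mem_Te_iff.1 ht).2, (mem_Te_iff.1 ht).1]
  have hom3 : Homog M₁ M₂ 3 IsPt := by
    refine homog_succ hH hom2 fun _ => ⟨consV y0 a, harc.mono (by omega), hy0p, ?_⟩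
    obtain ⟨t, ht, htQ⟩ := SetLike.not_le_iff_exists.1 (vertexQ_not_le hH w.adj1.symm)
    have ht1 : t ∈ Te (a 1) (a 0) := vertexQ_le_edge' hH w.adj1 ht
    refine ⟨t, fun i hi => ?_, a 2, w.adj2,
      smul_ne_of_mem_edge hH w.adj1.symm w.adj2 (w.arc.nb 0 (by omega)).symm ht1 htQ⟩
    interval_cases i
    exacts [(Q_fix_adj hH hy0 ht).2, (mem_Te_iff.1 ht1).2, (mem_Te_iff.1 ht1).1]
  have hom4 : Homog M₁ M₂ 4 IsPt := by
    refine homog_succ hH hom3 fun _ => ⟨consV y0 a, harc.mono (by omega), hy0p, ?_⟩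
    obtain ⟨t, ht1, htx, ht2⟩ :=
      exists_Q_inf_not h hb w.pt1 w.adj1.symm w.adj2 (w.arc.nb 0 (by omega)).symm
    refine ⟨t, fun i hi => ?_, a 3, w.arc.adj 2 (by omega), smul_ne_of_mem_edge hH w.adj2.symm
      (w.arc.adj 2 (by omega)) (w.arc.nb 1 (by omega)).symm (vertexQ_le_edge' hH w.adj2 ht1) ht2⟩
    interval_cases i
    exacts [(Q_fix_adj hH hy0 htx).2, (Q_fix_adj hH hy0 htx).1, (Q_fix_adj hH w.adj2 ht1).1,
      (Q_fix_adj hH w.adj2 ht1).2]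
  have key : ∀ e, IsArc M₁ M₂ e 4 → IsPt (e 0) → ∀ b ∈ Vp z (e 0), ∀ b' ∈ Vp z (e 4),
      ⁅b, b'⁆ ∈ Zp (e 2) := by
    intro e he hep b hb1 b' hb2
    obtain ⟨g, hg⟩ := hom4 (consV y0 a) e harc he hy0p hep
    have g0 : g • y0 = e 0 := hg 0 (by omega)
    have g2 : g • a 1 = e 2 := hg 2 (by omega)
    have g4 : g • a 3 = e 4 := hg 4 le_rfl
    have h1 : g⁻¹ * b * g ∈ Vp z y0 := by rw [← mem_cj, cj_Vp h, g0]; exact hb1
    have h2 : g⁻¹ * b' * g ∈ Vp z (a 3) := by rw [← mem_cj, cj_Vp h, g4]; exact hb2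
    have h3 := conj_mem_cj (g := g).2 (comm_mem_Zp h w hy0 hy0ne h1 (f := g⁻¹ * b' * g) h2)
    rw [cj_Zp hH, g2] at h3
    convert h3 using 1
    rw [commutatorElement_def, commutatorElement_def]; group
  have hu3f := (mem_Te_iff.1 hu32).1
  have ea : IsArc M₁ M₂ (consV (a 5) (consV (a 4) (consV (a 3) (consV (u • a 4)
      (fun _ => u • a 5))))) 4 := by
    refine (((IsArc.cons (n := 0) ⟨fun i hi => absurd hi (by omega),
      fun i hi => absurd hi (by omega)⟩ ?_ ?_).cons ?_ fun _ => ?_).cons ?_ fun _ => ?_).cons ?_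
        fun _ => ?_
    · exact adj_smul u (w.arc.adj 4 (by omega))
    · intro hh; omega
    · exact adj_fix hu3f (w.arc.adj 3 (by omega))
    · intro e
      exact w.arc.nb 3 (by omega) (smul_left_cancel u (hu3f.trans e))
    · exact (w.arc.adj 3 (by omega)).symm
    · exact hu4.symm
    · exact (w.arc.adj 4 (by omega)).symm
    · exact (w.arc.nb 3 (by omega)).symm
  have eb : IsArc M₁ M₂ (consV y0 (consV (a 0) (consV (a 1) (consV x2 (fun _ => p))))) 4 := by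
    refine (((IsArc.cons (n := 0) ⟨fun i hi => absurd hi (by omega),
      fun i hi => absurd hi (by omega)⟩ ?_ ?_).cons ?_ fun _ => ?_).cons ?_ fun _ => ?_).cons ?_
        fun _ => ?_
    exacts [hpx, fun hh => by omega, hx2a, hpne, w.adj1, hcx.symm, hy0.symm, hy0ne]
  have hA : ⁅c, u * c * u⁻¹⁆ ∈ Zp (a 3) := key _ ea w.pt5 c hcV (u * c * u⁻¹) (by
    show _ ∈ Vp z (u • a 5)
    rw [← cj_Vp h]; exact conj_mem_cj.2 hcV)
  have hB : ⁅u, c * u * c⁻¹⁆ ∈ Zp (a 1) := key _ eb hy0p u (Zs_le_Vp hl (zz_mem_Zs hp0))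
    (c * u * c⁻¹) (by
      show _ ∈ Vp z p
      rw [hp, ← cj_Vp h]; exact conj_mem_cj.2 (Zs_le_Vp hl (zz_mem_Zs hp0)))
  have hinv : ⁅u, c * u * c⁻¹⁆ = ⁅c, u * c * u⁻¹⁆⁻¹ := by
    simp only [commutatorElement_def, mul_inv_rev, inv_inv, hu, hc, zz_inv h, mul_assoc]
  have h32 : (Γ).Adj (a 2) (a 3) := w.arc.adj 2 (by omega)
  have hone : ⁅u, c * u * c⁻¹⁆ = 1 := Zp_inf_Zp hH w.adj2.symm h32 w.line2
    (w.arc.nb 1 (by omega)).symm hB (hinv ▸ inv_mem hA)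
  have hcomm : u * (c * u * c⁻¹) = c * u * c⁻¹ * u := commutatorElement_eq_one_iff_mul_comm.1 hone
  have hf3 : ∀ l' q', (Γ).Adj y0 l' → l' ≠ a 0 → (Γ).Adj l' q' → q' ≠ y0 →
      zz z q' ∉ Qv (a 3) := by
    intro l' q' hl' hl'x hq' hq'ne hmem
    have hbase : ∀ q', (Γ).Adj l q' → q' ≠ y0 → zz z q' ∉ Qv (a 3) := fun q' hq' hne hmem =>
      hln (Zs_le_two h hll hq' hl.symm hne hmem (Zs_le_Q_of_lt (by
        have := (w.toWindow.dist_le h (i := 0) (j := 3) (by omega) (by omega)).1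
        rw [w.hb]; omega) (zz_mem_Zs hy0)))
    by_cases e : l' = l
    · exact hbase q' (e ▸ hq') hq'ne hmem
    obtain ⟨f, hf, hfQ⟩ := SetLike.not_le_iff_exists.1 ws.strong
    have hf : f ∈ Vp z (a 3) := hf
    have hfQ : f ∉ Qv y0 := hfQ
    obtain ⟨-, hf0, hfQx⟩ := w.toWindow.V3_le h hy0
    have hfT : f ∈ Te y0 (a 0) := mem_Te_iff.2 ⟨hf0 hf, (Q_fix_adj hH hy0 (hfQx hf)).1⟩
    have hfl : f • l' = l := by
      rcases eq_or_eq_or_eq hH hy0.symm hl hl' hlx.symm hl'x.symm (Ne.symm e)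
        (adj_fix (mem_Te_iff.1 hfT).1 hl') with e' | e' | e'
      · exact absurd (smul_left_cancel f (e'.trans (mem_Te_iff.1 hfT).2.symm)) hl'x
      · exact e'
      · exact absurd e' (smul_ne_of_mem_edge hH hy0.symm hl' hl'x hfT hfQ)
    refine hbase (f • q') (hfl ▸ adj_smul f hq')
      (fun e' => hq'ne (smul_left_cancel f (e'.trans (mem_Te_iff.1 hfT).1.symm))) ?_
    rw [zz_smul h]
    exact conj_mem_Q ((Amalgam.pCoreOf_le 2 _) (Vp_le_Q_self h w.pt3 hf)) hmem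
  obtain ⟨g, hg⟩ := hom4 (consV y0 a) _ harc eb hy0p hy0p
  have g0 : g • y0 = y0 := hg 0 (by omega)
  have g1 : g • a 0 = a 0 := hg 1 (by omega)
  have g4 : g • a 3 = p := hg 4 le_rfl
  have g0' : g⁻¹ • y0 = y0 := inv_smul_eq_iff.2 g0.symm
  have g1' : g⁻¹ • a 0 = a 0 := inv_smul_eq_iff.2 g1.symm
  have huQp : u ∉ Qv p := by
    intro hmem
    refine hf3 (g⁻¹ • l) (g⁻¹ • p0) ?_ ?_ (adj_smul _ hp0) ?_ ?_
    · have := adj_smul g⁻¹ hl
      rwa [g0'] at this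
    · exact fun e => hlx (smul_left_cancel g⁻¹ (e.trans g1'.symm))
    · exact fun e => hp0ne (smul_left_cancel g⁻¹ (e.trans g0'.symm))
    · have := conj_mem_cj (g := g⁻¹).2 hmem
      rwa [cj_Q, ← zz_smul h, inv_smul_eq_iff.2 g4.symm] at this
  have hd4 : (Γ).dist l x2 ≤ 4 := by
    have h1 := dist_two hH hl.symm hy0.symm
    have h2 := dist_adj hH (u := l) w.adj1
    have h3 := dist_adj hH (u := l) hx2a
    omega
  have hupx : u ∈ Te p x2 := by
    refine mem_Te_iff.2 ⟨Zs_le_St_of_le h ?_ (zz_mem_Zs hp0), Zs_le_St_of_le h ?_ (zz_mem_Zs hp0)⟩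
    · have := dist_adj hH (u := l) hpx
      rw [w.hb]; omega
    · rw [w.hb]; omega
  have hcl : (Γ).Adj p (c • l) := adj_smul c hl
  refine smul_ne_of_mem_edge hH hpx.symm hcl (fun e => hlx (smul_left_cancel c e)) hupx huQp ?_
  refine line_fixed_of_comm h (hy0p.smul c) hcl (adj_smul c hp0)
    (fun e => hp0ne (smul_left_cancel c e)) (mem_Te_iff.1 hupx).1 ?_
  rw [zz_smul h]
  exact hcomm

theorem bz_not_odd (h : Ctx M₁ M₂ z) (hodd : Odd (bz M₁ M₂ z)) : bz M₁ M₂ z < 5 := by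
  by_contra hcon
  have hH := h.toHyp
  obtain ⟨x, m, hd, hn⟩ := exists_critical h
  obtain ⟨c, hc, hcx, hcm⟩ := exists_geodesic hH x m
  rw [hd] at hc hcm
  subst hcx hcm
  obtain ⟨n, hbn⟩ : ∃ n, bz M₁ M₂ z = n + 5 := ⟨bz M₁ M₂ z - 5, by omega⟩
  have hev : Even n := by
    rw [hbn] at hodd
    rcases Nat.even_or_odd n with e | e
    · exact e
    · exact absurd hodd (Nat.not_odd_iff_even.2 (e.add_odd (by decide)))
  rw [hbn] at hc hn
  have w0 : Window M₁ M₂ z c n := ⟨hbn, hev, hc, isLine_of_not_le h hn, hn⟩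
  obtain ⟨y, hy, hyne⟩ := exists_other hH w0.adj1
  obtain ⟨l0, hl0, -, hl0n, w1⟩ := exists_shift h w0 hy hyne
  have ws := shift_strong h w0 hy hyne hl0 hl0n w1
  set a := consV l0 (consV y c) with ha
  clear_value a
  by_cases h5 : n = 0
  · subst h5
    exact no_five h ws
  obtain ⟨k, rfl⟩ : ∃ k, n = k + 2 := by
    obtain ⟨j, hj⟩ := hev
    exact ⟨n - 2, by omega⟩
  obtain ⟨y0, hy0, hy0ne⟩ := exists_other hH ws.adj1
  have hy0p := isPt_of_adj hy0 ws.line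
  obtain ⟨l, hl, hlx, hln, w2⟩ := exists_shift h ws.toWindow hy0 hy0ne
  have ws2 := shift_strong h ws.toWindow hy0 hy0ne hl hln w2
  obtain ⟨y1, hy1, hy1ne⟩ := exists_other hH hl.symm
  have hy1p := isPt_of_adj hy1 (isLine_of_adj hl hy0p)
  obtain ⟨l', hl', -, hl'n, w3⟩ := exists_shift h w2 hy1 hy1ne
  have hl'n : ¬ Zs z l' ≤ Qv (a (k + 3)) := hl'n
  obtain ⟨q0, hq0, hq0s⟩ := exists_gen_not_mem hl'n
  have hpt : IsPt (a (k + 3)) := w2.pt3
  have hqT : zz z q0 ∈ Te (a (k + 3)) (a (k + 2)) := mem_Te_iff.2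
    ⟨arc_Zs_le_St h w3.arc w3.hb.ge (i := k + 7) (by omega) (zz_mem_Zs hq0),
      arc_Zs_le_St h w3.arc w3.hb.ge (i := k + 6) (by omega) (zz_mem_Zs hq0)⟩
  obtain ⟨m, q, hm, -, hq, -, hne⟩ :=
    exists_noncomm h hpt (ws.arc.adj (k + 2) (by omega)).symm hqT hq0s
  set r := ⁅zz z q0, zz z q⁆ with hr
  have hrne : r ≠ 1 := fun e => hne (commutatorElement_eq_one_iff_mul_comm.1 e)
  have hfV : zz z q ∈ Vp z (a (k + 3)) := Zs_le_Vp hm (zz_mem_Zs hq)
  have hr0 : r ∈ Zp y0 := comm_mem_Zp h ws2 hy1 hy1ne (Zs_le_Vp hl' (zz_mem_Zs hq0)) hfV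
  have hrV : r ∈ Vp z (a (k + 3)) := by
    rw [hr, commutatorElement_def]
    exact mul_mem (conj_mem_Vp h (mem_Te_iff.1 hqT).1 hfV) (inv_mem hfV)
  obtain ⟨d, hdV, hdQ⟩ := SetLike.not_le_iff_exists.1 ws.strong
  have hrd : r * d = d * r := Vp_comm h ws.pt5 (fun u v hu hv => by
    have h1 := dist_lines hH hu hv
    have h2 := (ws.toWindow.dist_le h (i := k + 3) (j := k + 2 + 5) (by omega) le_rfl).1
    rw [ws.hb]; omega) hrV hdV
  have hd12 : d ∈ Te (a 1) (a 2) :=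
    mem_Te_iff.2 ⟨ws.W_le_St h le_rfl (by omega) hdV, ws.W_le_St h (by omega) (by omega) hdV⟩
  have hd1 := (mem_Te_iff.1 hd12).1
  have hdx : d • a 0 ≠ a 0 :=
    smul_ne_of_mem_edge hH ws.adj2 ws.adj1.symm (ws.arc.nb 0 (by omega)) hd12 hdQ
  have hW : r ∈ Wl (a 0) := Zp_le_Wl hH hy0 hy0p hr0
  have hW2 : r ∈ Wl (d • a 0) := by
    have := mem_Wl_smul d hW
    rwa [← hrd, mul_inv_cancel_right] at this
  have hr1 : r ∈ Zp (a 1) :=
    Wl_inf h ws.three_le ws.pt1 ws.adj1.symm (adj_fix hd1 ws.adj1.symm) hdx hW hW2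
  exact hrne (Zp_inf_Zp hH hy0 ws.adj1 ws.line hy0ne.symm hr0 hr1)

end Cfsg.Agent.Goldschmidt
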