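import Cfsg.Agent.Goldschmidt.Base

/-!
Lines and points of the coset graph: the central subgroups `Zp p` at a point, the groups
`Wl x = Ω₁(Z(Q_x))` at a line and the four-groups `Zs z x` generated by the conjugates of a fixed
central involution `z` at the three points of a line.
-/

set_option autoImplicit false
set_option linter.unusedVariables false
set_option linter.style.haveILetI false

open Subgroup Cfsg.Agent.Amalgam Cfsg.Agent.FusionAlperin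
open scoped commutatorElement

namespace Cfsg.Agent.Goldschmidt

open Cfsg.Agent.LAE60 (exists_adj vertexZ_ne_bot conj_mem_of_mem_normalizer mem_normalizer_of_forall
  centralizer_le_normalizer' mem_centralizer_comm le_normalizer_inf commute_of_commutator_mem)
open Cfsg.Agent.Fusion (cj mem_cj conj_mem_cj cj_le_iff le_cj_iff cj_inv_cj cj_eq_of_mem cj_inf
  cj_eq_self_of_mem cj_mono)

variable {X : Type*} [Group X] {M₁ M₂ : Subgroup X}

local notation "Γ" => Cfsg.cosetGraph M₁ M₂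
local notation "St" => MulAction.stabilizer X
local notation "Qv" => Cfsg.vertexQ 2
local notation "Te" => Cfsg.edgeStabilizer

/-! ### Lines and points -/

/-- A line: a coset of `M₁`. -/
def IsLine (v : Cfsg.CosetVertex M₁ M₂) : Prop := ∃ a : X, v = Sum.inl (a : X ⧸ M₁)

/-- A point: a coset of `M₂`. -/
def IsPt (v : Cfsg.CosetVertex M₁ M₂) : Prop := ∃ a : X, v = Sum.inr (a : X ⧸ M₂)

theorem line_or_pt (v : Cfsg.CosetVertex M₁ M₂) : IsLine v ∨ IsPt v := vertex_cases v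

theorem not_line_pt {v : Cfsg.CosetVertex M₁ M₂} (h1 : IsLine v) (h2 : IsPt v) : False := by
  obtain ⟨a, rfl⟩ := h1
  obtain ⟨b, hb⟩ := h2
  cases hb

theorem isLine_iff_not_pt {v : Cfsg.CosetVertex M₁ M₂} : IsLine v ↔ ¬ IsPt v :=
  ⟨not_line_pt, (line_or_pt v).resolve_right⟩

theorem isPt_of_adj {x p : Cfsg.CosetVertex M₁ M₂} (hxp : (Γ).Adj x p) (hx : IsLine x) :
    IsPt p := by
  obtain ⟨a, ⟨rfl, rfl⟩ | ⟨rfl, rfl⟩⟩ := adj_cases hxp
  · exact ⟨a, rfl⟩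
  · exact (not_line_pt hx ⟨a, rfl⟩).elim

theorem isLine_of_adj {x p : Cfsg.CosetVertex M₁ M₂} (hxp : (Γ).Adj p x) (hp : IsPt p) :
    IsLine x := by
  obtain ⟨a, ⟨rfl, rfl⟩ | ⟨rfl, rfl⟩⟩ := adj_cases hxp
  · exact (not_line_pt ⟨a, rfl⟩ hp).elim
  · exact ⟨a, rfl⟩

theorem IsLine.smul {v : Cfsg.CosetVertex M₁ M₂} (h : IsLine v) (g : X) : IsLine (g • v) := by
  obtain ⟨a, rfl⟩ := h
  exact ⟨g * a, smul_inl g a⟩

theorem IsPt.smul {v : Cfsg.CosetVertex M₁ M₂} (h : IsPt v) (g : X) : IsPt (g • v) := by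
  obtain ⟨a, rfl⟩ := h
  exact ⟨g * a, smul_inr g a⟩

theorem line_transitive {v w : Cfsg.CosetVertex M₁ M₂} (hv : IsLine v) (hw : IsLine w) :
    ∃ g : X, g • v = w := by
  obtain ⟨a, rfl⟩ := hv
  obtain ⟨b, rfl⟩ := hw
  exact ⟨b * a⁻¹, by rw [smul_inl, inv_mul_cancel_right]⟩

theorem pt_transitive {v w : Cfsg.CosetVertex M₁ M₂} (hv : IsPt v) (hw : IsPt w) :
    ∃ g : X, g • v = w := by
  obtain ⟨a, rfl⟩ := hv
  obtain ⟨b, rfl⟩ := hw
  exact ⟨b * a⁻¹, by rw [smul_inr, inv_mul_cancel_right]⟩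

theorem adj_fix {v w : Cfsg.CosetVertex M₁ M₂} {g : X} (hg : g • v = v) (h : (Γ).Adj v w) :
    (Γ).Adj v (g • w) := by
  have := adj_smul g h
  rwa [hg] at this

theorem adj_fix' {v w : Cfsg.CosetVertex M₁ M₂} {g : X} (hg : g • v = v) (h : (Γ).Adj w v) :
    (Γ).Adj (g • w) v := (adj_fix hg h.symm).symm

theorem mem_Te_iff {x y : Cfsg.CosetVertex M₁ M₂} {g : X} :
    g ∈ Te x y ↔ g • x = x ∧ g • y = y := Iff.rfl

/-! ### The subgroups `Zp`, `Wl` and the elements `zz` -/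

/-- At a point, the conjugate of `Ω₁(Z(T))`; trivial at a line. -/
noncomputable def Zp (v : Cfsg.CosetVertex M₁ M₂) : Subgroup X :=
  Sum.elim (fun _ => ⊥) (fun b => cj b.out (Z0 M₁ M₂)) v

/-- `Ω₁(Z(Q_v))`. -/
def Wl (v : Cfsg.CosetVertex M₁ M₂) : Subgroup X :=
  Cfsg.omegaOne 2 (Qv v ⊓ centralizer (Qv v : Set X))

/-- The conjugate of `z` at a point; `1` at a line. -/
noncomputable def zz (z : X) (v : Cfsg.CosetVertex M₁ M₂) : X :=
  Sum.elim (fun _ => (1 : X)) (fun b => b.out * z * b.out⁻¹) v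

/-- Generated by the `zz` of the points on a line. -/
def Zs (z : X) (v : Cfsg.CosetVertex M₁ M₂) : Subgroup X :=
  closure {a | ∃ q, (Γ).Adj v q ∧ zz z q = a}

/-- Generated by the `zz` of the points on the lines at a point. -/
def Vp (z : X) (v : Cfsg.CosetVertex M₁ M₂) : Subgroup X :=
  closure {a | ∃ l q, (Γ).Adj v l ∧ (Γ).Adj l q ∧ zz z q = a}

/-- Generated by the `Vp` of the points on a line. -/
def Ul (z : X) (v : Cfsg.CosetVertex M₁ M₂) : Subgroup X :=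
  closure {a | ∃ r l q, (Γ).Adj v r ∧ (Γ).Adj r l ∧ (Γ).Adj l q ∧ zz z q = a}

/-- A chosen nontrivial element of `Ω₁(Z(T))`. -/
structure Ctx (M₁ M₂ : Subgroup X) (z : X) : Prop extends Hyp M₁ M₂ where
  hz : z ∈ Z0 M₁ M₂
  hz1 : z ≠ 1

theorem out_inr (a : X) : ∃ m ∈ M₂, ((a : X ⧸ M₂)).out = a * m := by
  obtain ⟨m, hm⟩ := QuotientGroup.mk_out_eq_mul M₂ a
  exact ⟨m, m.2, hm⟩

theorem Zp_inr (h : Hyp M₁ M₂) (a : X) :
    Zp (Sum.inr (a : X ⧸ M₂) : Cfsg.CosetVertex M₁ M₂) = cj a (Z0 M₁ M₂) := by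
  obtain ⟨m, hm, e⟩ := out_inr (M₂ := M₂) a
  show cj ((a : X ⧸ M₂)).out _ = _
  rw [e, ← Cfsg.Agent.Fusion.cj_cj, cj_eq_of_mem (centralizer_le_normalizer' _ (h.c₂ hm))]

theorem zz_inr (h : Hyp M₁ M₂) {z : X} (hz : z ∈ Z0 M₁ M₂) (a : X) :
    zz z (Sum.inr (a : X ⧸ M₂) : Cfsg.CosetVertex M₁ M₂) = a * z * a⁻¹ := by
  obtain ⟨m, hm, e⟩ := out_inr (M₂ := M₂) a
  show ((a : X ⧸ M₂)).out * z * ((a : X ⧸ M₂)).out⁻¹ = _
  have hc : z * m = m * z := mem_centralizer_iff.1 (h.c₂ hm) z hz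
  rw [e]
  calc a * m * z * (a * m)⁻¹ = a * (m * z) * m⁻¹ * a⁻¹ := by group
    _ = a * z * a⁻¹ := by rw [← hc]; group

theorem Zp_line {x : Cfsg.CosetVertex M₁ M₂} (hx : IsLine x) : Zp x = ⊥ := by
  obtain ⟨a, rfl⟩ := hx; rfl

theorem zz_line {z : X} {x : Cfsg.CosetVertex M₁ M₂} (hx : IsLine x) : zz z x = 1 := by
  obtain ⟨a, rfl⟩ := hx; rfl

theorem Zp_eq (h : Hyp M₁ M₂) {x y : Cfsg.CosetVertex M₁ M₂} (hxy : (Γ).Adj x y) (hy : IsPt y) :
    Zp y = Cfsg.omegaOne 2 (Te x y ⊓ centralizer (Te x y : Set X)) := by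
  obtain ⟨a, ⟨rfl, rfl⟩ | ⟨rfl, rfl⟩⟩ := adj_cases hxy
  · rw [edgeStabilizer_mk, Zp_inr h, ← map_conj_omega_center]
  · exact (not_line_pt ⟨a, rfl⟩ hy).elim

theorem cj_Zp (h : Hyp M₁ M₂) (g : X) (v : Cfsg.CosetVertex M₁ M₂) :
    cj g (Zp v) = Zp (g • v) := by
  obtain ⟨a, rfl⟩ | ⟨a, rfl⟩ := vertex_cases v
  · rw [smul_inl, Zp_line ⟨a, rfl⟩, Zp_line ⟨g * a, rfl⟩]; exact map_bot _
  · rw [smul_inr, Zp_inr h, Zp_inr h, Cfsg.Agent.Fusion.cj_cj]

theorem zz_smul' (h : Hyp M₁ M₂) {z : X} (hz : z ∈ Z0 M₁ M₂) (g : X)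
    (v : Cfsg.CosetVertex M₁ M₂) : zz z (g • v) = g * zz z v * g⁻¹ := by
  obtain ⟨a, rfl⟩ | ⟨a, rfl⟩ := vertex_cases v
  · rw [smul_inl, zz_line ⟨a, rfl⟩, zz_line ⟨g * a, rfl⟩]; simp
  · rw [smul_inr, zz_inr h hz, zz_inr h hz]; group

theorem Zp_comm_stab (h : Hyp M₁ M₂) {y : Cfsg.CosetVertex M₁ M₂} (hy : IsPt y) {a g : X}
    (ha : a ∈ Zp y) (hg : g ∈ St y) : g * a = a * g := by
  obtain ⟨b, rfl⟩ := hy
  rw [Zp_inr h] at ha
  rw [stabilizer_inr] at hg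
  obtain ⟨m, hm, rfl⟩ := hg
  obtain ⟨w, hw, rfl⟩ := ha
  rw [← map_mul, ← map_mul, mem_centralizer_iff.1 (h.c₂ hm) w hw]

theorem center_edge_le_Q (h : Hyp M₁ M₂) {x y : Cfsg.CosetVertex M₁ M₂} (hxy : (Γ).Adj x y) :
    Te x y ⊓ centralizer (Te x y : Set X) ≤ Qv x := fun g hg =>
  inf_centralizer_pCoreOf_le (charP_stabilizer h.pair x)
    ⟨hg.1.1, centralizer_le (vertexQ_le_edge h hxy) hg.2⟩

theorem center_edge_le_Q' (h : Hyp M₁ M₂) {x y : Cfsg.CosetVertex M₁ M₂} (hxy : (Γ).Adj x y) :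
    Te x y ⊓ centralizer (Te x y : Set X) ≤ Qv y := by
  rw [Amalgam.edgeStabilizer_comm]
  exact center_edge_le_Q h hxy.symm

theorem comm_of_inf_centralizer (K : Subgroup X) :
    IsMulCommutative ↥(K ⊓ centralizer (K : Set X)) :=
  ⟨⟨fun a b => Subtype.ext (mem_centralizer_iff.1 b.2.2 a a.2.1)⟩⟩

theorem mem_omega_center {K : Subgroup X} {a : X} :
    a ∈ Cfsg.omegaOne 2 (K ⊓ centralizer (K : Set X)) ↔
      (a ∈ K ∧ ∀ k ∈ K, k * a = a * k) ∧ a * a = 1 := by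
  rw [Modules.mem_omegaOne_iff_of_comm (comm_of_inf_centralizer K), pow_two, mem_inf,
    mem_centralizer_iff]
  rfl

theorem mem_Zp_iff (h : Hyp M₁ M₂) {x y : Cfsg.CosetVertex M₁ M₂} (hxy : (Γ).Adj x y)
    (hy : IsPt y) {a : X} :
    a ∈ Zp y ↔ (a ∈ Te x y ∧ ∀ k ∈ Te x y, k * a = a * k) ∧ a * a = 1 := by
  rw [Zp_eq h hxy hy, mem_omega_center]

theorem Zp_le_Q (h : Hyp M₁ M₂) {x y : Cfsg.CosetVertex M₁ M₂} (hxy : (Γ).Adj x y)
    (hy : IsPt y) : Zp y ≤ Qv x ∧ Zp y ≤ Qv y := by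
  rw [Zp_eq h hxy hy]
  exact ⟨(Modules.omegaOne_le 2 _).trans (center_edge_le_Q h hxy),
    (Modules.omegaOne_le 2 _).trans (center_edge_le_Q' h hxy)⟩

theorem Zp_sq (h : Hyp M₁ M₂) {y : Cfsg.CosetVertex M₁ M₂} (hy : IsPt y) {a : X}
    (ha : a ∈ Zp y) : a * a = 1 := by
  obtain ⟨x, hx⟩ := exists_adj y
  exact ((mem_Zp_iff h hx.symm hy).1 ha).2

theorem mem_Wl {v : Cfsg.CosetVertex M₁ M₂} {a : X} :
    a ∈ Wl v ↔ (a ∈ Qv v ∧ ∀ k ∈ Qv v, k * a = a * k) ∧ a * a = 1 :=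
  mem_omega_center

theorem Wl_le_Q (v : Cfsg.CosetVertex M₁ M₂) : Wl v ≤ Qv v := fun a ha => (mem_Wl.1 ha).1.1

theorem Wl_comm {v : Cfsg.CosetVertex M₁ M₂} {a k : X} (ha : a ∈ Wl v) (hk : k ∈ Qv v) :
    k * a = a * k := (mem_Wl.1 ha).1.2 k hk

theorem Wl_sq {v : Cfsg.CosetVertex M₁ M₂} {a : X} (ha : a ∈ Wl v) : a * a = 1 :=
  (mem_Wl.1 ha).2

theorem Wl_inv {v : Cfsg.CosetVertex M₁ M₂} {a : X} (ha : a ∈ Wl v) : a⁻¹ = a :=
  inv_eq_of_mul_eq_one_right (Wl_sq ha)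

theorem conj_mem_Q {v : Cfsg.CosetVertex M₁ M₂} {g k : X} (hg : g ∈ St v) (hk : k ∈ Qv v) :
    g * k * g⁻¹ ∈ Qv v :=
  conj_mem_of_mem_normalizer (Amalgam.le_normalizer_pCoreOf 2 (St v) hg) hk

theorem conj_mem_Wl {v : Cfsg.CosetVertex M₁ M₂} {g a : X} (hg : g ∈ St v) (ha : a ∈ Wl v) :
    g * a * g⁻¹ ∈ Wl v := by
  obtain ⟨⟨h1, h2⟩, h3⟩ := mem_Wl.1 ha
  refine mem_Wl.2 ⟨⟨conj_mem_Q hg h1, fun k hk => ?_⟩,
    by rw [← MulAut.conj_apply, ← map_mul, h3, map_one]⟩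
  have hk' : g⁻¹ * k * g ∈ Qv v := by simpa using conj_mem_Q (inv_mem hg) hk
  calc k * (g * a * g⁻¹) = g * (g⁻¹ * k * g * a) * g⁻¹ := by group
    _ = g * (a * (g⁻¹ * k * g)) * g⁻¹ := by rw [h2 _ hk']
    _ = _ := by group

theorem Zp_le_Wl (h : Hyp M₁ M₂) {x y : Cfsg.CosetVertex M₁ M₂} (hxy : (Γ).Adj x y)
    (hy : IsPt y) : Zp y ≤ Wl x := fun a ha => by
  obtain ⟨⟨h1, h2⟩, h3⟩ := (mem_Zp_iff h hxy hy).1 ha
  exact mem_Wl.2 ⟨⟨(Zp_le_Q h hxy hy).1 ha, fun k hk => h2 k (vertexQ_le_edge h hxy hk)⟩, h3⟩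

/-- An element of `Wl x` centralized by an element of `T(x, p)` outside `Q_x` lies in `Zp p`. -/
theorem Wl_mem_Zp (h : Hyp M₁ M₂) {x p : Cfsg.CosetVertex M₁ M₂} (hxp : (Γ).Adj x p)
    (hp : IsPt p) {w t : X} (hw : w ∈ Wl x) (ht : t ∈ Te x p) (htQ : t ∉ Qv x)
    (hc : t * w = w * t) : w ∈ Zp p := by
  refine (mem_Zp_iff h hxp hp).2 ⟨⟨vertexQ_le_edge h hxp (Wl_le_Q x hw), fun k hk => ?_⟩, Wl_sq hw⟩
  by_cases hkQ : k ∈ Qv x
  · exact Wl_comm hw hkQ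
  · have h1 : k * t ∈ Qv x := (mul_mem_Q_iff h hxp hk ht).2 (iff_of_false hkQ htQ)
    calc k * w = k * (w * t) * t⁻¹ := by group
      _ = k * t * w * t⁻¹ := by rw [← hc]; group
      _ = w * (k * t) * t⁻¹ := by rw [Wl_comm hw h1]
      _ = w * k := by group

theorem Zp_inf_Zp (h : Hyp M₁ M₂) {x p p' : Cfsg.CosetVertex M₁ M₂} (hxp : (Γ).Adj x p)
    (hxp' : (Γ).Adj x p') (hx : IsLine x) (hne : p' ≠ p) {a : X} (ha : a ∈ Zp p)
    (ha' : a ∈ Zp p') : a = 1 := by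
  have hp := isPt_of_adj hxp hx
  have hp' := isPt_of_adj hxp' hx
  have hTe : Zp p ⊓ Zp p' ≤ Te x p := fun b hb =>
    ((mem_Zp_iff h hxp hp).1 hb.1).1.1
  have hb : Zp p ⊓ Zp p' = ⊥ := by
    refine bot_of_centralized h hxp hTe ?_ ?_
    · exact le_centralizer_of_gen h hxp inf_le_left (not_edge_le_edge h hxp hxp' hne)
        (fun g hg => mem_centralizer_iff.2 fun b hb => (Zp_comm_stab h hp hb.1 hg.2).symm)
        (fun g hg => mem_centralizer_iff.2 fun b hb => (Zp_comm_stab h hp' hb.2 hg.2).symm)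
    · exact fun g hg => mem_centralizer_iff.2 fun b hb => (Zp_comm_stab h hp hb.1 hg).symm
  exact mem_bot.1 (hb ▸ (⟨ha, ha'⟩ : a ∈ Zp p ⊓ Zp p'))

theorem finite_of_le (h : Hyp M₁ M₂) {v : Cfsg.CosetVertex M₁ M₂} {K : Subgroup X}
    (hK : K ≤ St v) : Finite K :=
  haveI := fin h v
  Finite.of_injective _ (inclusion_injective hK)

theorem card_cj_eq (g : X) (K : Subgroup X) : Nat.card (cj g K) = Nat.card K :=
  Cfsg.Agent.Fusion.card_cj g K

theorem card_Zp_eq (h : Hyp M₁ M₂) {p p' : Cfsg.CosetVertex M₁ M₂} (hp : IsPt p) (hp' : IsPt p') :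
    Nat.card (Zp p') = Nat.card (Zp p) := by
  obtain ⟨g, rfl⟩ := pt_transitive hp hp'
  rw [← cj_Zp h, card_cj_eq]

/-- `Wl x` is the product of the `Zp` of any two points of the line `x`. -/
theorem Wl_eq_mul (h : Hyp M₁ M₂) {x p p' : Cfsg.CosetVertex M₁ M₂} (hxp : (Γ).Adj x p)
    (hxp' : (Γ).Adj x p') (hx : IsLine x) (hne : p' ≠ p) :
    Nat.card (Wl x) = Nat.card (Zp p) * Nat.card (Zp p') ∧
      ∀ w ∈ Wl x, ∃ a ∈ Zp p, ∃ b ∈ Zp p', a * b = w := by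
  have hp := isPt_of_adj hxp hx
  have hp' := isPt_of_adj hxp' hx
  haveI : Finite (Wl x) :=
    finite_of_le h ((Wl_le_Q x).trans (Amalgam.pCoreOf_le 2 _))
  haveI : Finite (Zp p) := finite_of_le h ((Zp_le_Q h hxp hp).1.trans (Amalgam.pCoreOf_le 2 _))
  haveI : Finite (Zp p') := finite_of_le h ((Zp_le_Q h hxp' hp').1.trans (Amalgam.pCoreOf_le 2 _))
  obtain ⟨t, ht, htQ⟩ := SetLike.not_le_iff_exists.1 (not_edge_le_Q h hxp)
  have htt : t * t ∈ Qv x := (mul_mem_Q_iff h hxp ht ht).2 Iff.rfl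
  have him : ∀ w ∈ Wl x, w * (t * w * t⁻¹) ∈ Zp p := by
    intro w hw
    have hw' := conj_mem_Wl ht.1 hw
    refine Wl_mem_Zp h hxp hp (mul_mem hw hw') ht htQ ?_
    have e2 : t * t * w = w * (t * t) := Wl_comm hw htt
    have e : t * (w * (t * w * t⁻¹)) * t⁻¹ = w * (t * w * t⁻¹) :=
      calc t * (w * (t * w * t⁻¹)) * t⁻¹ = t * w * t⁻¹ * (t * t * w) * (t * t)⁻¹ := by group
        _ = t * w * t⁻¹ * w := by rw [e2]; group
        _ = _ := Wl_comm hw ((Wl_le_Q x) hw')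
    calc t * (w * (t * w * t⁻¹)) = t * (w * (t * w * t⁻¹)) * t⁻¹ * t := by group
      _ = _ := by rw [e]
  let φ : Wl x →* Zp p :=
    { toFun := fun w => ⟨w * (t * w * t⁻¹), him w w.2⟩
      map_one' := Subtype.ext (by simp)
      map_mul' := fun a b => Subtype.ext (by
        have hc : t * a * t⁻¹ * (b : X) = b * (t * a * t⁻¹) :=
          Wl_comm b.2 (Wl_le_Q x (conj_mem_Wl ht.1 a.2))
        show (a : X) * b * (t * (a * b) * t⁻¹) = a * (t * a * t⁻¹) * (b * (t * b * t⁻¹))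
        calc (a : X) * b * (t * (a * b) * t⁻¹)
            = a * (b * (t * a * t⁻¹)) * (t * b * t⁻¹) := by group
          _ = a * (t * a * t⁻¹ * b) * (t * b * t⁻¹) := by rw [hc]
          _ = _ := by group) }
  have hker : Nat.card φ.ker ≤ Nat.card (Zp p) := by
    have hmem : ∀ w : φ.ker, ((w : Wl x) : X) ∈ Zp p := by
      intro w
      refine Wl_mem_Zp h hxp hp (w : Wl x).2 ht htQ ?_
      have e : ((w : Wl x) : X) * (t * (w : Wl x) * t⁻¹) = 1 :=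
        congrArg Subtype.val (MonoidHom.mem_ker.1 w.2)
      have e' : t * ((w : Wl x) : X) * t⁻¹ = (w : Wl x) := by
        rw [eq_inv_of_mul_eq_one_right e, Wl_inv (w : Wl x).2]
      calc t * ((w : Wl x) : X) = t * ((w : Wl x) : X) * t⁻¹ * t := by group
        _ = _ := by rw [e']
    exact Nat.card_le_card_of_injective (fun w => (⟨_, hmem w⟩ : Zp p))
      fun a b hab => by
        simp only [Subtype.mk.injEq] at hab
        exact Subtype.ext (Subtype.ext hab)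
  have hle : Nat.card (Wl x) ≤ Nat.card (Zp p) * Nat.card (Zp p') := by
    rw [← card_mul_index φ.ker, index_ker, card_Zp_eq h hp hp']
    exact Nat.mul_le_mul hker (Subgroup.card_le_card_group φ.range)
  let ψ : Zp p × Zp p' → Wl x := fun ab =>
    ⟨ab.1 * ab.2, mul_mem (Zp_le_Wl h hxp hp ab.1.2) (Zp_le_Wl h hxp' hp' ab.2.2)⟩
  have hψ : Function.Injective ψ := by
    rintro ⟨a, b⟩ ⟨a', b'⟩ e
    have e1 : (a : X) * b = a' * b' := congrArg Subtype.val e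
    have e2 : (a' : X)⁻¹ * a = b' * (b : X)⁻¹ :=
      calc (a' : X)⁻¹ * a = (a' : X)⁻¹ * (a * b) * (b : X)⁻¹ := by group
        _ = _ := by rw [e1]; group
    have e3 : (a' : X)⁻¹ * a = 1 := Zp_inf_Zp h hxp hxp' hx hne (mul_mem (inv_mem a'.2) a.2)
      (e2 ▸ mul_mem b'.2 (inv_mem b.2))
    have ha : (a : X) = a' := (inv_mul_eq_one.1 e3).symm
    rw [ha] at e1
    exact Prod.ext (Subtype.ext ha) (Subtype.ext (mul_left_cancel e1))
  have heq : Nat.card (Wl x) = Nat.card (Zp p) * Nat.card (Zp p') := by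
    refine le_antisymm hle ?_
    rw [← Nat.card_prod]
    exact Nat.card_le_card_of_injective ψ hψ
  have hbij : Function.Bijective ψ :=
    (Nat.bijective_iff_injective_and_card ψ).2 ⟨hψ, by rw [Nat.card_prod, heq]⟩
  refine ⟨heq, fun w hw => ?_⟩
  obtain ⟨⟨a, b⟩, hab⟩ := hbij.2 ⟨w, hw⟩
  exact ⟨a, a.2, b, b.2, congrArg Subtype.val hab⟩

/-! ### The elements `zz` on a line -/

variable {z : X}

theorem zz_smul (h : Ctx M₁ M₂ z) (g : X) (v : Cfsg.CosetVertex M₁ M₂) :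
    zz z (g • v) = g * zz z v * g⁻¹ := zz_smul' h.toHyp h.hz g v

theorem zz_mem (h : Ctx M₁ M₂ z) {p : Cfsg.CosetVertex M₁ M₂} (hp : IsPt p) :
    zz z p ∈ Zp p := by
  obtain ⟨a, rfl⟩ := hp
  rw [zz_inr h.toHyp h.hz, Zp_inr h.toHyp]
  exact conj_mem_cj.2 h.hz

theorem zz_ne_one (h : Ctx M₁ M₂ z) {p : Cfsg.CosetVertex M₁ M₂} (hp : IsPt p) :
    zz z p ≠ 1 := by
  obtain ⟨a, rfl⟩ := hp
  rw [zz_inr h.toHyp h.hz]
  exact fun e => h.hz1 (by simpa using e)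

theorem zz_sq (h : Ctx M₁ M₂ z) (p : Cfsg.CosetVertex M₁ M₂) : zz z p * zz z p = 1 := by
  obtain hp | hp := line_or_pt p
  · rw [zz_line hp, one_mul]
  · exact Zp_sq h.toHyp hp (zz_mem h hp)

theorem zz_inv (h : Ctx M₁ M₂ z) (p : Cfsg.CosetVertex M₁ M₂) : (zz z p)⁻¹ = zz z p :=
  inv_eq_of_mul_eq_one_right (zz_sq h p)

theorem zz_mem_Wl (h : Ctx M₁ M₂ z) {x p : Cfsg.CosetVertex M₁ M₂} (hxp : (Γ).Adj x p)
    (hx : IsLine x) : zz z p ∈ Wl x :=
  Zp_le_Wl h.toHyp hxp (isPt_of_adj hxp hx) (zz_mem h (isPt_of_adj hxp hx))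

theorem zz_comm_stab (h : Ctx M₁ M₂ z) {p : Cfsg.CosetVertex M₁ M₂} (hp : IsPt p) {g : X}
    (hg : g ∈ St p) : g * zz z p = zz z p * g :=
  Zp_comm_stab h.toHyp hp (zz_mem h hp) hg

theorem zz_inj (h : Ctx M₁ M₂ z) {x p q : Cfsg.CosetVertex M₁ M₂} (hxp : (Γ).Adj x p)
    (hxq : (Γ).Adj x q) (hx : IsLine x) (e : zz z p = zz z q) : p = q := by
  by_contra hne
  exact zz_ne_one h (isPt_of_adj hxp hx) (Zp_inf_Zp h.toHyp hxp hxq hx (Ne.symm hne)
    (zz_mem h (isPt_of_adj hxp hx)) (e ▸ zz_mem h (isPt_of_adj hxq hx)))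

theorem zz_prod (h : Ctx M₁ M₂ z) {x a b c : Cfsg.CosetVertex M₁ M₂} (hx : IsLine x)
    (ha : (Γ).Adj x a) (hb : (Γ).Adj x b) (hc : (Γ).Adj x c) (hab : a ≠ b) (hac : a ≠ c)
    (hbc : b ≠ c) : zz z a * zz z b = zz z c := by
  set u := zz z a * zz z b * zz z c with hu
  have hu' : u ∈ Wl x :=
    mul_mem (mul_mem (zz_mem_Wl h ha hx) (zz_mem_Wl h hb hx)) (zz_mem_Wl h hc hx)
  have cab : zz z a * zz z b = zz z b * zz z a :=
    Wl_comm (zz_mem_Wl h hb hx) (Wl_le_Q x (zz_mem_Wl h ha hx))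
  have cbc : zz z b * zz z c = zz z c * zz z b :=
    Wl_comm (zz_mem_Wl h hc hx) (Wl_le_Q x (zz_mem_Wl h hb hx))
  have hca : u ∈ Zp c := by
    obtain ⟨t, ht, htQ⟩ := SetLike.not_le_iff_exists.1 (not_edge_le_Q h.toHyp hc)
    refine Wl_mem_Zp h.toHyp hc (isPt_of_adj hc hx) hu' ht htQ ?_
    have hta : t • a = b := by
      rcases eq_or_eq_or_eq h.toHyp ha hb hc hab hac hbc (adj_fix ht.1 ha) with e | e | e
      · exact absurd e (smul_ne_of_mem_edge h.toHyp hc ha hac ht htQ)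
      · exact e
      · exact absurd (smul_left_cancel t (e.trans ht.2.symm)) hac
    have htb : t • b = a := by
      rcases eq_or_eq_or_eq h.toHyp ha hb hc hab hac hbc (adj_fix ht.1 hb) with e | e | e
      · exact e
      · exact absurd e (smul_ne_of_mem_edge h.toHyp hc hb hbc ht htQ)
      · exact absurd (smul_left_cancel t (e.trans ht.2.symm)) hbc
    have e : t * u * t⁻¹ = u :=
      calc t * u * t⁻¹ = t * zz z a * t⁻¹ * (t * zz z b * t⁻¹) * (t * zz z c * t⁻¹) := by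
            rw [hu]; group
        _ = u := by
            rw [← zz_smul h, ← zz_smul h, ← zz_smul h, hta, htb, mem_stabilizer_eq ht.2, hu, cab]
    calc t * u = t * u * t⁻¹ * t := by group
      _ = u * t := by rw [e]
  have haa : u ∈ Zp a := by
    obtain ⟨t, ht, htQ⟩ := SetLike.not_le_iff_exists.1 (not_edge_le_Q h.toHyp ha)
    refine Wl_mem_Zp h.toHyp ha (isPt_of_adj ha hx) hu' ht htQ ?_
    have htb : t • b = c := by
      rcases eq_or_eq_or_eq h.toHyp ha hb hc hab hac hbc (adj_fix ht.1 hb) with e | e | e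
      · exact absurd (smul_left_cancel t (e.trans ht.2.symm)) hab.symm
      · exact absurd e (smul_ne_of_mem_edge h.toHyp ha hb hab.symm ht htQ)
      · exact e
    have htc : t • c = b := by
      rcases eq_or_eq_or_eq h.toHyp ha hb hc hab hac hbc (adj_fix ht.1 hc) with e | e | e
      · exact absurd (smul_left_cancel t (e.trans ht.2.symm)) hac.symm
      · exact e
      · exact absurd e (smul_ne_of_mem_edge h.toHyp ha hc hac.symm ht htQ)
    have e : t * u * t⁻¹ = u :=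
      calc t * u * t⁻¹ = t * zz z a * t⁻¹ * (t * zz z b * t⁻¹) * (t * zz z c * t⁻¹) := by
            rw [hu]; group
        _ = u := by
            rw [← zz_smul h, ← zz_smul h, ← zz_smul h, htb, htc, mem_stabilizer_eq ht.2, hu,
              mul_assoc, ← cbc, ← mul_assoc]
    calc t * u = t * u * t⁻¹ * t := by group
      _ = u * t := by rw [e]
  have h1 : u = 1 := Zp_inf_Zp h.toHyp ha hc hx hac.symm haa hca
  rw [hu] at h1
  rw [eq_inv_of_mul_eq_one_left h1, zz_inv h]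
where
  mem_stabilizer_eq {t : X} {v : Cfsg.CosetVertex M₁ M₂} (h : t ∈ St v) : t • v = v := h

theorem Zs_le {x : Cfsg.CosetVertex M₁ M₂} {S : Subgroup X}
    (hS : ∀ q, (Γ).Adj x q → zz z q ∈ S) : Zs z x ≤ S :=
  (closure_le S).2 (by rintro _ ⟨q, hq, rfl⟩; exact hS q hq)

theorem zz_mem_Zs {x q : Cfsg.CosetVertex M₁ M₂} (h : (Γ).Adj x q) : zz z q ∈ Zs z x :=
  subset_closure ⟨q, h, rfl⟩

theorem Zs_le_Wl (h : Ctx M₁ M₂ z) {x : Cfsg.CosetVertex M₁ M₂} (hx : IsLine x) :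
    Zs z x ≤ Wl x :=
  Zs_le fun q hq => zz_mem_Wl h hq hx

theorem Zs_pt (h : Ctx M₁ M₂ z) {p : Cfsg.CosetVertex M₁ M₂} (hp : IsPt p) :
    Zs z p = ⊥ :=
  le_bot_iff.1 (Zs_le fun q hq => by rw [zz_line (isLine_of_adj hq hp)]; exact one_mem _)

theorem Zs_le_two (h : Ctx M₁ M₂ z) {x p q : Cfsg.CosetVertex M₁ M₂} (hx : IsLine x)
    (hp : (Γ).Adj x p) (hq : (Γ).Adj x q) (hne : p ≠ q) {S : Subgroup X} (hpS : zz z p ∈ S)
    (hqS : zz z q ∈ S) : Zs z x ≤ S := by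
  refine Zs_le fun r hr => ?_
  by_cases e1 : r = p
  · exact e1 ▸ hpS
  by_cases e2 : r = q
  · exact e2 ▸ hqS
  rw [← zz_prod h hx hp hq hr hne (Ne.symm e1) (Ne.symm e2)]
  exact mul_mem hpS hqS

theorem mem_Zs (h : Ctx M₁ M₂ z) {x : Cfsg.CosetVertex M₁ M₂} (hx : IsLine x) {w : X}
    (hw : w ∈ Zs z x) : w = 1 ∨ ∃ q, (Γ).Adj x q ∧ zz z q = w := by
  induction hw using closure_induction with
  | mem a ha => exact Or.inr ha
  | one => exact Or.inl rfl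
  | inv a ha iha =>
    rcases iha with rfl | ⟨q, hq, rfl⟩
    · exact Or.inl inv_one
    · exact Or.inr ⟨q, hq, (zz_inv h q).symm⟩
  | mul a b ha hb iha ihb =>
    rcases iha with rfl | ⟨q, hq, rfl⟩
    · rwa [one_mul]
    rcases ihb with rfl | ⟨r, hr, rfl⟩
    · rw [mul_one]; exact Or.inr ⟨q, hq, rfl⟩
    by_cases e : q = r
    · exact Or.inl (e ▸ zz_sq h q)
    · obtain ⟨s, hs, hsq, hsr⟩ : ∃ s, (Γ).Adj x s ∧ s ≠ q ∧ s ≠ r := by
        obtain ⟨u, v, hu, hv, huq, hvq, huv⟩ := exists_others h.toHyp hq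
        by_cases e' : u = r
        · exact ⟨v, hv, hvq, fun e'' => huv (e'.trans e''.symm)⟩
        · exact ⟨u, hu, huq, e'⟩
      exact Or.inr ⟨s, hs, (zz_prod h hx hq hr hs e hsq.symm hsr.symm).symm⟩

/-- An element of a line stabilizer centralizing `Zs` lies in the kernel. -/
theorem mem_Q_of_comm (h : Ctx M₁ M₂ z) {x : Cfsg.CosetVertex M₁ M₂} (hx : IsLine x) {g : X}
    (hg : g ∈ St x) (hc : ∀ q, (Γ).Adj x q → g * zz z q = zz z q * g) : g ∈ Qv x := by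
  rw [← neighbourKernel_eq h.toHyp x, mem_neighbourKernel]
  refine ⟨hg, fun q hq => ?_⟩
  refine zz_inj h (adj_fix hg hq) hq hx ?_
  rw [zz_smul h, hc q hq]
  group

theorem comm_of_Zs_gen {x : Cfsg.CosetVertex M₁ M₂} {g : X}
    (hc : ∀ q, (Γ).Adj x q → g * zz z q = zz z q * g) {w : X} (hw : w ∈ Zs z x) :
    g * w = w * g := by
  have : Zs z x ≤ centralizer ({g} : Set X) := Zs_le fun q hq => mem_centralizer_iff.2 (by
    rintro _ rfl; exact hc q hq)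
  exact mem_centralizer_iff.1 (this hw) g rfl

theorem cj_Zs (h : Ctx M₁ M₂ z) (g : X) (x : Cfsg.CosetVertex M₁ M₂) :
    cj g (Zs z x) = Zs z (g • x) := by
  refine le_antisymm ?_ (Zs_le fun q hq => ?_)
  · rw [cj_le_iff]
    refine Zs_le fun q hq => ?_
    rw [Cfsg.Agent.Fusion.mem_cj_inv, ← zz_smul h]
    exact zz_mem_Zs (adj_smul g hq)
  · refine mem_cj.2 ?_
    have := zz_mem_Zs (z := z) (x := x) (q := g⁻¹ • q)
      (by simpa using adj_smul g⁻¹ hq)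
    rwa [zz_smul h, inv_inv] at this

theorem conj_mem_Zs (h : Ctx M₁ M₂ z) {x : Cfsg.CosetVertex M₁ M₂} {g w : X} (hg : g ∈ St x)
    (hw : w ∈ Zs z x) : g * w * g⁻¹ ∈ Zs z x := by
  have := cj_Zs h g x
  rw [MulAction.mem_stabilizer_iff.1 hg] at this
  exact this ▸ conj_mem_cj.2 hw

theorem zpowers_zz (h : Ctx M₁ M₂ z) {p : Cfsg.CosetVertex M₁ M₂} {w : X} :
    w ∈ zpowers (zz z p) ↔ w = 1 ∨ w = zz z p := by
  constructor
  · rw [zpowers_eq_closure]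
    intro hw
    induction hw using closure_induction with
    | mem a ha => exact Or.inr ha
    | one => exact Or.inl rfl
    | inv a _ iha =>
      rcases iha with rfl | rfl
      · exact Or.inl inv_one
      · exact Or.inr (zz_inv h p)
    | mul a b _ _ iha ihb =>
      rcases iha with rfl | rfl
      · rwa [one_mul]
      · rcases ihb with rfl | rfl
        · exact Or.inr (mul_one _)
        · exact Or.inl (zz_sq h p)
  · rintro (rfl | rfl)
    · exact one_mem _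
    · exact mem_zpowers _

/-- Distinct lines at a point have distinct `Zs`. -/
theorem Zs_not_le (h : Ctx M₁ M₂ z) {p x x' : Cfsg.CosetVertex M₁ M₂} (hp : IsPt p)
    (hx : (Γ).Adj p x) (hx' : (Γ).Adj p x') (hne : x' ≠ x) : ¬ Zs z x' ≤ Zs z x := by
  intro hle
  have hxl := isLine_of_adj hx hp
  have hx'l := isLine_of_adj hx' hp
  have hge : Zs z x ≤ Zs z x' := by
    obtain ⟨q, hq, hqp⟩ := exists_other h.toHyp hx'.symm
    obtain e | ⟨r, hr, e⟩ := mem_Zs h hxl (hle (zz_mem_Zs hq))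
    · exact absurd e (zz_ne_one h (isPt_of_adj hq hx'l))
    · have hrp : r ≠ p := by
        rintro rfl
        exact hqp (zz_inj h hq hx'.symm hx'l e.symm)
      exact Zs_le_two h hxl hx.symm hr hrp.symm (zz_mem_Zs hx'.symm) (e ▸ zz_mem_Zs hq)
  have he := le_antisymm hle hge
  have hsx : St x ≤ normalizer (Zs z x : Set X) :=
    mem_normalizer_of_forall fun g hg w hw => conj_mem_Zs h hg hw
  have hsp : St p ≤ normalizer (Zs z x : Set X) := by
    rw [← sup_eq_stab h.toHyp hx (K := Te p x') inf_le_left (not_edge_le_edge h.toHyp hx hx' hne)]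
    refine sup_le (inf_le_right.trans hsx) (inf_le_right.trans ?_)
    exact mem_normalizer_of_forall fun g hg w hw => he.le (conj_mem_Zs h hg (he.ge hw))
  have hle' : Zs z x ≤ Te x p := by
    refine ((Zs_le_Wl h hxl).trans (Wl_le_Q x)).trans ?_
    exact vertexQ_le_edge h.toHyp hx.symm
  have := bot_of_normalized h.toHyp hx.symm hle' hsx hsp
  exact zz_ne_one h hp (mem_bot.1 (this ▸ zz_mem_Zs hx.symm))

/-- Two lines at `p` share only `⟨zz p⟩`. -/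
theorem Zs_inf (h : Ctx M₁ M₂ z) {p x x' : Cfsg.CosetVertex M₁ M₂} (hp : IsPt p)
    (hx : (Γ).Adj p x) (hx' : (Γ).Adj p x') (hne : x' ≠ x) {w : X} (hw : w ∈ Zs z x)
    (hw' : w ∈ Zs z x') : w = 1 ∨ w = zz z p := by
  obtain e | ⟨q, hq, rfl⟩ := mem_Zs h (isLine_of_adj hx' hp) hw'
  · exact Or.inl e
  by_cases e : q = p
  · exact Or.inr (by rw [e])
  exact absurd (Zs_le_two h (isLine_of_adj hx' hp) hx'.symm hq (Ne.symm e) (zz_mem_Zs hx.symm) hw)
    (Zs_not_le h hp hx hx' hne)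

/-- An element fixing `p` that centralizes `zz q` fixes the line through `p` and `q`. -/
theorem line_fixed_of_comm (h : Ctx M₁ M₂ z) {p m q : Cfsg.CosetVertex M₁ M₂} (hp : IsPt p)
    (hm : (Γ).Adj p m) (hq : (Γ).Adj m q) (hqp : q ≠ p) {g : X} (hg : g ∈ St p)
    (hc : g * zz z q = zz z q * g) : g • m = m := by
  by_contra hne
  have hml := isLine_of_adj hm hp
  have e : zz z q ∈ Zs z (g • m) := by
    rw [← cj_Zs h, mem_cj]
    have e' : g⁻¹ * zz z q * g = zz z q := by rw [mul_assoc, ← hc]; group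
    rw [e']
    exact zz_mem_Zs hq
  rcases Zs_inf h hp hm (adj_fix hg hm) hne (zz_mem_Zs hq) e with e' | e'
  · exact zz_ne_one h (isPt_of_adj hq hml) e'
  · exact hqp (zz_inj h hq hm.symm hml e')

end Cfsg.Agent.Goldschmidt
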