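import Cfsg.Agent.Goldschmidt.Odd
import Cfsg.Agent.PGroup.Basic

/-!
`Ω₁(Z(T))` has order `2`, and the order of `T` when `bz z = 2`.
-/

set_option autoImplicit false
set_option linter.unusedVariables false
set_option linter.style.haveILetI false

open Subgroup Cfsg.Agent.Amalgam Cfsg.Agent.FusionAlperin
open scoped commutatorElement

namespace Cfsg.Agent.Goldschmidt

open Cfsg.Agent.LAE60 (exists_adj vertexZ_ne_bot conj_mem_of_mem_normalizer mem_normalizer_of_forall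
  centralizer_le_normalizer' mem_centralizer_comm le_normalizer_inf commute_of_commutator_mem)
open Cfsg.Agent.Fusion (cj mem_cj conj_mem_cj cj_le_iff le_cj_iff cj_inv_cj cj_eq_of_mem cj_inf
  cj_eq_self_of_mem cj_mono cj_eq_iff_mem_normalizer)

variable {X : Type*} [Group X] {M₁ M₂ : Subgroup X} {z : X}

local notation "Γ" => Cfsg.cosetGraph M₁ M₂
local notation "St" => MulAction.stabilizer X
local notation "Qv" => Cfsg.vertexQ 2
local notation "Te" => Cfsg.edgeStabilizer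

theorem bz_range (h : Ctx M₁ M₂ z) : bz M₁ M₂ z = 2 ∨ bz M₁ M₂ z = 3 := by
  have h2 := bz_two h
  rcases Nat.even_or_odd (bz M₁ M₂ z) with he | ho
  · have := bz_not_even h he
    omega
  · have h5 := bz_not_odd h ho
    obtain ⟨j, hj⟩ := ho
    omega

theorem isArc_zero (v : Cfsg.CosetVertex M₁ M₂) : IsArc M₁ M₂ (fun _ => v) 0 :=
  ⟨fun i hi => absurd hi (Nat.not_lt_zero i), fun i hi => absurd hi (by omega)⟩

theorem isArc_two {u v w : Cfsg.CosetVertex M₁ M₂} (huv : (Γ).Adj u v) (hvw : (Γ).Adj v w)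
    (hne : u ≠ w) : IsArc M₁ M₂ (consV u (consV v (fun _ => w))) 2 :=
  ((isArc_zero w).cons hvw fun hh => absurd hh (by omega)).cons huv fun _ => hne

theorem isArc_three {u v w p : Cfsg.CosetVertex M₁ M₂} (huv : (Γ).Adj u v) (hvw : (Γ).Adj v w)
    (hwp : (Γ).Adj w p) (hne : u ≠ w) (hne' : v ≠ p) :
    IsArc M₁ M₂ (consV u (consV v (consV w (fun _ => p)))) 3 :=
  (isArc_two hvw hwp hne').cons huv fun _ => hne

theorem homog_line_two (h : Hyp M₁ M₂) : Homog M₁ M₂ 2 IsLine := by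
  refine homog_succ h (homog_succ h homog_zero_line fun hn => absurd hn (by omega)) fun _ => ?_
  let x : Cfsg.CosetVertex M₁ M₂ := Sum.inl ((1 : X) : X ⧸ M₁)
  obtain ⟨y, hy⟩ := exists_adj x
  refine ⟨consV x (fun _ => y), (isArc_zero y).cons hy fun hh => absurd hh (by omega), ⟨1, rfl⟩, ?_⟩
  obtain ⟨t, ht, htQ⟩ := SetLike.not_le_iff_exists.1 (not_edge_le_Q h hy.symm)
  obtain ⟨x2, hx2, hne⟩ := exists_other h hy.symm
  refine ⟨t, fun i hi => ?_, x2, hx2, smul_ne_of_mem_edge h hy.symm hx2 hne ht htQ⟩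
  interval_cases i
  exacts [(mem_Te_iff.1 ht).2, (mem_Te_iff.1 ht).1]

theorem homog_line_three (h : Hyp M₁ M₂) : Homog M₁ M₂ 3 IsLine := by
  refine homog_succ h (homog_line_two h) fun _ => ?_
  let x : Cfsg.CosetVertex M₁ M₂ := Sum.inl ((1 : X) : X ⧸ M₁)
  obtain ⟨y, hy⟩ := exists_adj x
  obtain ⟨x2, hx2, hne⟩ := exists_other h hy.symm
  refine ⟨_, isArc_two hy hx2 hne.symm, ⟨1, rfl⟩, ?_⟩
  obtain ⟨t, ht, htQ⟩ := SetLike.not_le_iff_exists.1 (vertexQ_not_le h hx2.symm)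
  obtain ⟨p, hp, hpne⟩ := exists_other h hx2.symm
  refine ⟨t, fun i hi => ?_, p, hp,
    smul_ne_of_mem_edge h hx2.symm hp hpne (vertexQ_le_edge' h hx2 ht) htQ⟩
  interval_cases i
  exacts [(Q_fix_adj h hy.symm ht).2, (Q_fix_adj h hy.symm ht).1, (Q_fix_adj h hx2 ht).2]

theorem crit_of_homog (h : Ctx M₁ M₂ z) {n : ℕ} (hb : bz M₁ M₂ z = n)
    (hom : Homog M₁ M₂ n IsLine) {e : ℕ → Cfsg.CosetVertex M₁ M₂} (he : IsArc M₁ M₂ e n)
    (he0 : IsLine (e 0)) : ¬ Zs z (e 0) ≤ Qv (e n) := by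
  obtain ⟨x, m, hd, hn⟩ := exists_critical h
  obtain ⟨c, hc, hcx, hcm⟩ := exists_geodesic h.toHyp x m
  rw [hd, hb] at hc hcm
  subst hcx hcm
  obtain ⟨g, hg⟩ := hom c e hc he (isLine_of_not_le h hn) he0
  intro hle
  refine hn ?_
  rw [← hg 0 (Nat.zero_le n), ← hg n le_rfl, ← cj_Zs h, ← cj_Q] at hle
  exact (map_le_map_iff_of_injective (MulEquiv.injective _)).1 hle

theorem crit_of_homog' (h : Ctx M₁ M₂ z) {n : ℕ} (hb : bz M₁ M₂ z = n)
    (hom : Homog M₁ M₂ n IsLine) {e : ℕ → Cfsg.CosetVertex M₁ M₂} (he : IsArc M₁ M₂ e n)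
    {x m : Cfsg.CosetVertex M₁ M₂} (hx : e 0 = x) (hm : e n = m) (hxl : IsLine x) :
    ¬ Zs z x ≤ Qv m := by
  subst hx hm
  exact crit_of_homog h hb hom he hxl

theorem card_le_two_mul (h : Hyp M₁ M₂) {x y : Cfsg.CosetVertex M₁ M₂} (hxy : (Γ).Adj x y)
    {K : Subgroup X} (hK : K ≤ Te x y) :
    Nat.card K ≤ 2 * Nat.card ↥(K ⊓ Qv x) := by
  classical
  haveI : Finite K := finite_of_le h (hK.trans inf_le_left)
  haveI : Finite ↥(K ⊓ Qv x) := finite_of_le h (inf_le_left.trans (hK.trans inf_le_left))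
  by_cases hn : K ≤ Qv x
  · rw [inf_eq_left.2 hn]; omega
  obtain ⟨k0, hk0, hk0Q⟩ := SetLike.not_le_iff_exists.1 hn
  let f : K → Bool × ↥(K ⊓ Qv x) := fun g =>
    if hg : (g : X) ∈ Qv x then (true, ⟨g, g.2, hg⟩)
    else (false, ⟨g * k0, mul_mem g.2 hk0,
      (mul_mem_Q_iff h hxy (hK g.2) (hK hk0)).2 (iff_of_false hg hk0Q)⟩)
  have hf : Function.Injective f := by
    intro a b hab
    by_cases ha : (a : X) ∈ Qv x <;> by_cases hb : (b : X) ∈ Qv x <;>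
      simp only [f, ha, hb, dif_pos, dif_neg, not_false_iff, Prod.mk.injEq, Subtype.mk.injEq,
        reduceCtorEq, false_and, true_and] at hab
    · have e : (a : X) = (b : X) := congrArg (fun t : ↥(K ⊓ Qv x) => (t : X)) hab
      exact Subtype.ext e
    · exact Subtype.ext (mul_right_cancel (congrArg Subtype.val hab))
  have := Nat.card_le_card_of_injective f hf
  simpa [Nat.card_prod, Nat.card_eq_fintype_card (α := Bool)] using this

theorem exists_ctx (h : Hyp M₁ M₂) {y : Cfsg.CosetVertex M₁ M₂} (hy : IsPt y) {a : X}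
    (ha : a ∈ Zp y) (ha1 : a ≠ 1) : ∃ z', Ctx M₁ M₂ z' ∧ zz z' y = a := by
  obtain ⟨b, rfl⟩ := hy
  rw [Zp_inr h, mem_cj] at ha
  refine ⟨b⁻¹ * a * b, ⟨h, ha, fun e => ha1 ?_⟩, by rw [zz_inr h ha]; group⟩
  exact conj_eq_one_iff (a := b⁻¹) |>.1 (by rwa [inv_inv])

theorem card_Zp_le_two (h : Ctx M₁ M₂ z) {p : Cfsg.CosetVertex M₁ M₂} (hp : IsPt p) :
    Nat.card (Zp p) ≤ 2 := by
  have hH := h.toHyp
  by_cases hcase : ∃ z', Ctx M₁ M₂ z' ∧ bz M₁ M₂ z' = 2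
  · obtain ⟨z', h', hb⟩ := hcase
    obtain ⟨x, m, hd, hn⟩ := exists_critical h'
    obtain ⟨c, hc, hcx, hcm⟩ := exists_geodesic hH x m
    rw [hd, hb] at hc hcm
    subst hcx hcm
    have h0 := isLine_of_not_le h' hn
    have h01 := hc.adj 0 (by omega)
    have h12 := hc.adj 1 (by omega)
    have h1 := isPt_of_adj h01 h0
    have h2 := isLine_of_adj h12 h1
    obtain ⟨-, q, hq, -, hqT, hqQ⟩ := crit_even h' (n := 0) hb.symm hc h0 h2 hn
    obtain ⟨y', hy', hy'ne⟩ := exists_other hH h01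
    have hK : Wl (c 0) ≤ Te (c 2) (c 1) :=
      (Wl_le_Q_adj h' h01 h0).trans (vertexQ_le_edge' hH h12)
    have hle : Wl (c 0) ⊓ Qv (c 2) ≤ Zp (c 1) := fun w hw =>
      Wl_mem_Zp hH h01 h1 hw.1 hqT hqQ (Wl_comm (zz_mem_Wl h' hq h2) hw.2).symm
    have hcard := card_le_two_mul hH h12.symm hK
    rw [(Wl_eq_mul hH h01 hy' h0 hy'ne).1] at hcard
    haveI : Finite (Zp (c 1)) :=
      finite_of_le hH ((Zp_le_Q hH h01 h1).1.trans (Amalgam.pCoreOf_le 2 _))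
    have h3 := Subgroup.card_le_of_le hle
    rw [card_Zp_eq hH hp h1, card_Zp_eq hH hp (isPt_of_adj hy' h0)] at hcard
    rw [card_Zp_eq hH hp h1] at h3
    have hpos : 0 < Nat.card (Zp p) := by
      rw [← card_Zp_eq hH hp h1]; exact Nat.card_pos
    exact Nat.le_of_mul_le_mul_left
      ((hcard.trans (Nat.mul_le_mul le_rfl h3)).trans_eq (mul_comm _ _)) hpos
  have hb : ∀ z', Ctx M₁ M₂ z' → bz M₁ M₂ z' = 3 := fun z' h' =>
    (bz_range h').resolve_left fun e => hcase ⟨z', h', e⟩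
  obtain ⟨x, m, hd, hn⟩ := exists_critical h
  obtain ⟨c, hc, hcx, hcm⟩ := exists_geodesic hH x m
  rw [hd, hb z h] at hc hcm
  subst hcx hcm
  have h0 := isLine_of_not_le h hn
  have h01 := hc.adj 0 (by omega)
  have h12 : (Γ).Adj (c 1) (c 2) := hc.adj 1 (by omega)
  have h23 : (Γ).Adj (c 2) (c 3) := hc.adj 2 (by omega)
  have h1 := isPt_of_adj h01 h0
  have h2 := isLine_of_adj h12 h1
  obtain ⟨y', hy', hy'ne⟩ := exists_other hH h01
  have hy'p := isPt_of_adj hy' h0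
  have hK : Zp y' ≤ Te (c 3) (c 2) := by
    intro a ha
    by_cases ha1 : a = 1
    · rw [ha1]; exact one_mem _
    obtain ⟨z', h', e⟩ := exists_ctx hH hy'p ha ha1
    have h4 : zz z' y' ∈ Qv (c 2) := Zs_le_Q_of_lt (x := c 0) (by
      have := dist_two hH h01 h12
      rw [hb z' h']; omega) (zz_mem_Zs hy')
    rw [e] at h4
    exact mem_Te_iff.2 ⟨(Q_fix_adj hH h23 h4).2, (Q_fix_adj hH h23 h4).1⟩
  have hcard := card_le_two_mul hH h23.symm hK
  have hbot : Zp y' ⊓ Qv (c 3) = ⊥ := by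
    rw [eq_bot_iff]
    intro a ha
    by_contra ha1
    obtain ⟨z', h', e⟩ := exists_ctx hH hy'p ha.1 fun e => ha1 (e ▸ one_mem _)
    refine crit_of_homog h' (hb z' h') (homog_line_three hH) hc h0
      (Zs_le_two h' h0 hy' h01 hy'ne (e ▸ ha.2) ?_)
    exact Zs_le_Q_adj h' h23 h2 (zz_mem_Zs h12.symm)
  rw [hbot, Subgroup.card_bot, card_Zp_eq hH hp hy'p] at hcard
  omega

theorem eq_zz_of_mem_Zp (h : Ctx M₁ M₂ z) {p : Cfsg.CosetVertex M₁ M₂} (hp : IsPt p) {a : X}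
    (ha : a ∈ Zp p) : a = 1 ∨ a = zz z p := by
  by_contra hcon
  rw [not_or] at hcon
  obtain ⟨x, hx⟩ := exists_adj p
  haveI : Finite (Zp p) :=
    finite_of_le h.toHyp ((Zp_le_Q h.toHyp hx.symm hp).1.trans (Amalgam.pCoreOf_le 2 _))
  have hz1 := zz_ne_one h hp
  let f : Fin 3 → Zp p := ![1, ⟨zz z p, zz_mem h hp⟩, ⟨a, ha⟩]
  have hf : Function.Injective f := by
    intro i j hij
    have hij' : (f i : X) = f j := congrArg Subtype.val hij
    fin_cases i <;> fin_cases j <;>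
      first
      | rfl
      | (simp [f, hcon.1, hcon.2, hz1, Ne.symm hcon.1, Ne.symm hcon.2, Ne.symm hz1] at hij')
  have := Nat.card_le_card_of_injective f hf
  have h2 := card_Zp_le_two h hp
  rw [Nat.card_fin] at this
  omega

theorem Wl_le_Zs (h : Ctx M₁ M₂ z) {x : Cfsg.CosetVertex M₁ M₂} (hx : IsLine x) :
    Wl x ≤ Zs z x := by
  intro w hw
  obtain ⟨p, hp⟩ := exists_adj x
  obtain ⟨p', hp', hne⟩ := exists_other h.toHyp hp
  obtain ⟨a, ha, b, hb, rfl⟩ := (Wl_eq_mul h.toHyp hp hp' hx hne).2 w hw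
  refine mul_mem ?_ ?_
  · rcases eq_zz_of_mem_Zp h (isPt_of_adj hp hx) ha with rfl | rfl
    exacts [one_mem _, zz_mem_Zs hp]
  · rcases eq_zz_of_mem_Zp h (isPt_of_adj hp' hx) hb with rfl | rfl
    exacts [one_mem _, zz_mem_Zs hp']

theorem card_Zs_le (h : Ctx M₁ M₂ z) {x : Cfsg.CosetVertex M₁ M₂} (hx : IsLine x) :
    Nat.card (Zs z x) ≤ 4 := by
  obtain ⟨p, hp⟩ := exists_adj x
  obtain ⟨p', hp', hne⟩ := exists_other h.toHyp hp
  haveI := finite_of_le h.toHyp ((Wl_le_Q x).trans (Amalgam.pCoreOf_le 2 _))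
  refine (Subgroup.card_le_of_le (Zs_le_Wl h hx)).trans ?_
  rw [(Wl_eq_mul h.toHyp hp hp' hx hne).1]
  exact Nat.mul_le_mul (card_Zp_le_two h (isPt_of_adj hp hx))
    (card_Zp_le_two h (isPt_of_adj hp' hx))

/-- A normal subgroup of `Q_x` missing `Zs z x` is trivial. -/
theorem trivial_normal (h : Ctx M₁ M₂ z) {x : Cfsg.CosetVertex M₁ M₂} (hx : IsLine x)
    {F : Subgroup X} (hFQ : F ≤ Qv x) (hn : ∀ q ∈ Qv x, ∀ f ∈ F, q * f * q⁻¹ ∈ F)
    (hF : ∀ w ∈ F, w ∈ Zs z x → w = 1) : F = ⊥ := by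
  haveI : Fact (Nat.Prime 2) := ⟨Nat.prime_two⟩
  haveI := finite_of_le h.toHyp (Amalgam.pCoreOf_le 2 (St x))
  have hP : IsPGroup 2 ↥(Qv x) := Amalgam.pCoreOf_isPGroup (p := 2) (St x)
  by_contra hne
  haveI : (F.subgroupOf (Qv x)).Normal := ⟨fun f hf g => hn g g.2 f hf⟩
  have hne' : F.subgroupOf (Qv x) ≠ ⊥ := fun e => hne (by
    rw [subgroupOf_eq_bot, disjoint_iff, inf_eq_left.2 hFQ] at e
    exact e)
  have hM := PGroup.inf_center_ne_bot hP (F.subgroupOf (Qv x)) hne'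
  set M := F.subgroupOf (Qv x) ⊓ Subgroup.center ↥(Qv x) with hMdef
  obtain ⟨k, hk⟩ := IsPGroup.iff_card.1 (hP.to_subgroup M)
  have h2 : 2 ∣ Nat.card M := by
    rcases k with _ | k
    · exact absurd (eq_bot_of_card_eq _ (by simpa using hk)) hM
    · exact hk ▸ dvd_pow_self 2 k.succ_ne_zero
  obtain ⟨⟨⟨u, huQ⟩, huM⟩, hu⟩ := exists_prime_orderOf_dvd_card' 2 h2
  rw [orderOf_mk, orderOf_mk] at hu
  have huu : u * u = 1 := by
    rw [← pow_two, ← hu]; exact pow_orderOf_eq_one u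
  have hW : u ∈ Wl x := mem_Wl.2 ⟨⟨huQ, fun q hq => congrArg Subtype.val
    (Subgroup.mem_center_iff.1 huM.2 ⟨q, hq⟩)⟩, huu⟩
  rw [hF u huM.1 (Wl_le_Zs h hx hW), orderOf_one] at hu
  exact absurd hu (by norm_num)

/-- The elements of `Q_v` in the kernels of all neighbours. -/
def Cc (v : Cfsg.CosetVertex M₁ M₂) : Subgroup X :=
  Cfsg.vertexQ 2 v ⊓ ⨅ x ∈ (Cfsg.cosetGraph M₁ M₂).neighborSet v, Cfsg.vertexQ 2 x

theorem mem_Cc {v : Cfsg.CosetVertex M₁ M₂} {a : X} :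
    a ∈ Cc v ↔ a ∈ Qv v ∧ ∀ x, (Γ).Adj v x → a ∈ Qv x := by
  simp [Cc, mem_iInf]

theorem conj_mem_Cc' {v : Cfsg.CosetVertex M₁ M₂} (g : X) {a : X} (ha : a ∈ Cc v) :
    g * a * g⁻¹ ∈ Cc (g • v) := by
  obtain ⟨h1, h2⟩ := mem_Cc.1 ha
  refine mem_Cc.2 ⟨cj_Q g v ▸ conj_mem_cj.2 h1, fun x hx => ?_⟩
  have h3 := conj_mem_cj (g := g).2 (h2 (g⁻¹ • x) (by simpa using adj_smul g⁻¹ hx))
  rwa [cj_Q, smul_inv_smul] at h3

theorem conj_mem_Cc {v : Cfsg.CosetVertex M₁ M₂} {g a : X} (hg : g ∈ St v) (ha : a ∈ Cc v) :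
    g * a * g⁻¹ ∈ Cc v := by
  have := conj_mem_Cc' g ha
  rwa [MulAction.mem_stabilizer_iff.1 hg] at this

theorem finite_Cc (h : Hyp M₁ M₂) (v : Cfsg.CosetVertex M₁ M₂) :
    Finite ↥(Cc v : Subgroup X) :=
  finite_of_le h (inf_le_left.trans (Amalgam.pCoreOf_le 2 (St v)))

theorem card_Q_eq (h : Hyp M₁ M₂) {x y : Cfsg.CosetVertex M₁ M₂} (hxy : (Γ).Adj x y) :
    Nat.card (Qv x) = Nat.card (Qv y) := by
  have h1 := card_edge h hxy
  rw [Amalgam.edgeStabilizer_comm, card_edge h hxy.symm] at h1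
  omega

/-- The bound when `bz z = 2`. -/
theorem bound_two (h : Ctx M₁ M₂ z) (hb : bz M₁ M₂ z = 2) {x y : Cfsg.CosetVertex M₁ M₂}
    (hxy : (Γ).Adj x y) (hx : IsLine x) : Nat.card (Qv y) ≤ 64 := by
  have hH := h.toHyp
  have hy := isPt_of_adj hxy hx
  obtain ⟨y', hy', hy'ne⟩ := exists_other hH hxy
  obtain ⟨x2, x3, hx2, hx3, hx2ne, hx3ne, hx23⟩ := exists_others hH hxy.symm
  have hcrit : ∀ p l, (Γ).Adj x p → (Γ).Adj p l → l ≠ x → ¬ Zs z x ≤ Qv l := fun p l hp hl hne =>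
    crit_of_homog' h hb (homog_line_two hH) (isArc_two hp hl hne.symm) rfl rfl hx
  haveI := finite_Cc hH y
  haveI := finite_Cc hH y'
  haveI := finite_of_le hH (Amalgam.pCoreOf_le 2 (St x))
  -- index at most eight
  have hQy : Nat.card (Qv y) ≤ 8 * Nat.card ↥(Cc y) := by
    have a1 := card_le_two_mul hH hxy (vertexQ_le_edge' hH hxy.symm)
    have a2 := card_le_two_mul hH hx2.symm
      (K := Qv y ⊓ Qv x) (inf_le_left.trans (vertexQ_le_edge' hH hx2))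
    have a3 := card_le_two_mul hH hx3.symm (K := Qv y ⊓ Qv x ⊓ Qv x2)
      ((inf_le_left.trans inf_le_left).trans (vertexQ_le_edge' hH hx3))
    have hle : Qv y ⊓ Qv x ⊓ Qv x2 ⊓ Qv x3 ≤ Cc y := by
      intro a ha
      simp only [mem_inf] at ha
      obtain ⟨⟨⟨ha0, ha1⟩, ha2⟩, ha3⟩ := ha
      rw [mem_Cc]
      constructor
      · exact ha0
      intro l hl
      rcases eq_or_eq_or_eq hH hxy.symm hx2 hx3 hx2ne.symm hx3ne.symm hx23 hl with e | e | e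
      · rw [e]; exact ha1
      · rw [e]; exact ha2
      · rw [e]; exact ha3
    have a4 := Subgroup.card_le_of_le hle
    omega
  have hE : Cc y ⊓ Cc y' = ⊥ := by
    refine trivial_normal h hx (fun a ha => (mem_Cc.1 ha.1).2 x hxy.symm) (fun q hq f hf => ?_)
      (fun w hw hwZ => ?_)
    · exact ⟨conj_mem_Cc (Q_fix_adj hH hxy hq).2 hf.1, conj_mem_Cc (Q_fix_adj hH hy' hq).2 hf.2⟩
    · rcases mem_Zs h hx hwZ with e | ⟨q, hq, rfl⟩
      · exact e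
      exfalso
      have key : ∀ r, (Γ).Adj x r → q ≠ r → zz z q ∈ Cc r → False := by
        intro r hr hqr hm
        obtain ⟨l, hl, hlx⟩ := exists_other hH hr.symm
        exact hcrit r l hr hl hlx (Zs_le_two h hx hq hr hqr ((mem_Cc.1 hm).2 l hl)
          ((Zp_le_Q hH hl.symm (isPt_of_adj hr hx)).1 (zz_mem h (isPt_of_adj hr hx))))
      by_cases e : q = y'
      · exact key y hxy (e ▸ hy'ne) hw.1
      · exact key y' hy' e hw.2
  have hprod : Nat.card ↥(Cc y) * Nat.card ↥(Cc y') ≤ Nat.card (Qv x) := by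
    rw [← Nat.card_prod]
    let f : ↥(Cc y) × ↥(Cc y') → ↥(Qv x) := fun ab =>
      ⟨(ab.1 : X) * (ab.2 : X),
        mul_mem ((mem_Cc.1 ab.1.2).2 x hxy.symm) ((mem_Cc.1 ab.2.2).2 x hy'.symm)⟩
    refine Nat.card_le_card_of_injective f ?_
    rintro ⟨⟨a, ha⟩, ⟨b, hb'⟩⟩ ⟨⟨a', ha'⟩, ⟨b', hb''⟩⟩ e
    have e : a * b = a' * b' := congrArg Subtype.val e
    have e2 : a'⁻¹ * a = b' * b⁻¹ :=
      calc a'⁻¹ * a = a'⁻¹ * (a * b) * b⁻¹ := by group
        _ = _ := by rw [e]; group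
    have hmem : a'⁻¹ * a ∈ Cc y ⊓ Cc y' :=
      mem_inf.2 ⟨mul_mem (inv_mem ha') ha, e2 ▸ mul_mem hb'' (inv_mem hb')⟩
    rw [hE, mem_bot, inv_mul_eq_one] at hmem
    subst hmem
    obtain rfl := mul_left_cancel e
    rfl
  have hCC : Nat.card ↥(Cc y) ≤ Nat.card ↥(Cc y') := by
    obtain ⟨g, hg, rfl⟩ := neighbours_transitive hxy hy'
    exact Nat.card_le_card_of_injective
      (fun a : ↥(Cc y) => (⟨g * a * g⁻¹, conj_mem_Cc' g a.2⟩ : ↥(Cc (g • y))))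
      fun a b e => Subtype.ext (by simpa using congrArg Subtype.val e)
  rw [card_Q_eq hH hxy] at hprod
  have h8 : Nat.card ↥(Cc y) * Nat.card ↥(Cc y) ≤ Nat.card ↥(Cc y) * 8 :=
    ((Nat.mul_le_mul le_rfl hCC).trans hprod).trans (hQy.trans_eq (mul_comm _ _))
  have := Nat.le_of_mul_le_mul_left h8 Nat.card_pos
  omega

end Cfsg.Agent.Goldschmidt
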