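import Cfsg.Agent.Goldschmidt.Small

/-!
The order of `T` when `bz z = 3`.
-/

set_option autoImplicit false
set_option linter.unusedVariables false
set_option linter.style.haveILetI false

open Subgroup Cfsg.Agent.Amalgam Cfsg.Agent.FusionAlperin
open scoped commutatorElement

namespace Cfsg.Agent.Goldschmidt

open Cfsg.Agent.LAE60 (exists_adj vertexZ_ne_bot conj_mem_of_mem_normalizer mem_normalizer_of_forall
  centralizer_le_normalizer' mem_centralizer_comm le_normalizer_inf commute_of_commutator_mem)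
open Cfsg.Agent.Fusion (cj mem_cj conj_mem_cj cj_le_iff le_cj_iff cj_inv_cj cj_eq_of_mem cj_inf
  cj_eq_self_of_mem cj_mono cj_eq_iff_mem_normalizer)

variable {X : Type*} [Group X] {M₁ M₂ : Subgroup X} {z : X}

local notation "Γ" => Cfsg.cosetGraph M₁ M₂
local notation "St" => MulAction.stabilizer X
local notation "Qv" => Cfsg.vertexQ 2
local notation "Te" => Cfsg.edgeStabilizer

variable {x y y' y'' : Cfsg.CosetVertex M₁ M₂}

theorem exists_third (h : Hyp M₁ M₂) (hxy : (Γ).Adj x y) (hxy' : (Γ).Adj x y') (hne : y' ≠ y) :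
    ∃ s, (Γ).Adj x s ∧ s ≠ y ∧ s ≠ y' := by
  obtain ⟨u, v, hu, hv, huy, hvy, huv⟩ := exists_others h hxy
  by_cases e : u = y'
  · exact ⟨v, hv, hvy, fun e' => huv (e.trans e'.symm)⟩
  · exact ⟨u, hu, huy, e⟩

theorem crit3 (h : Ctx M₁ M₂ z) (hb : bz M₁ M₂ z = 3) (hx : IsLine x)
    {x2 p : Cfsg.CosetVertex M₁ M₂} (hxy : (Γ).Adj x y) (hx2 : (Γ).Adj y x2) (hp : (Γ).Adj x2 p)
    (h1 : x2 ≠ x) (h2 : p ≠ y) : ¬ Zs z x ≤ Qv p :=
  crit_of_homog' h hb (homog_line_three h.toHyp) (isArc_three hxy hx2 hp h1.symm h2.symm) rfl rfl hx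

/-- A `zz` off the line `x` at `y` moves the lines at the other points of `x`. -/
theorem side (h : Ctx M₁ M₂ z) (hb : bz M₁ M₂ z = 3) (hx : IsLine x) (hxy : (Γ).Adj x y)
    (hxy' : (Γ).Adj x y') (hne : y' ≠ y) {l q : Cfsg.CosetVertex M₁ M₂} (hl : (Γ).Adj y l)
    (hlx : l ≠ x) (hq : (Γ).Adj l q) (hqy : q ≠ y) :
    zz z q ∈ Te y' x ∧ zz z q ∉ Qv y' ∧ zz z q ∈ Qv x := by
  have hll := isLine_of_adj hl (isPt_of_adj hxy hx)
  have hd : (Γ).dist l x ≤ 2 := dist_two h.toHyp hl.symm hxy.symm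
  have hQx : zz z q ∈ Qv x := Zs_le_Q_of_lt (by omega) (zz_mem_Zs hq)
  refine ⟨mem_Te_iff.2 ⟨(Q_fix_adj h.toHyp hxy' hQx).2, (Q_fix_adj h.toHyp hxy' hQx).1⟩,
    fun hmem => ?_, hQx⟩
  exact crit3 h hb hll hl.symm hxy.symm hxy' hlx.symm hne
    (Zs_le_two h hll hq hl.symm hqy hmem (Zs_le_Q_adj h hxy' hx (zz_mem_Zs hxy)))

theorem Vp_le_Qx (h : Ctx M₁ M₂ z) (hb : bz M₁ M₂ z = 3) (hxy : (Γ).Adj x y) :
    Vp z y ≤ Qv x :=
  Vp_le_Qv h (by rw [dist_one hxy, hb]; omega)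

theorem Vp_le_Cc (h : Ctx M₁ M₂ z) (hb : bz M₁ M₂ z = 3) (hy : IsPt y) : Vp z y ≤ Cc y :=
  fun w hw => mem_Cc.2 ⟨Vp_le_Q_self h hy hw, fun l hl => Vp_le_Qx h hb hl.symm hw⟩

theorem Cc_comm (h : Ctx M₁ M₂ z) (hy : IsPt y) {c w : X} (hc : c ∈ Cc y) (hw : w ∈ Vp z y) :
    c * w = w * c := by
  refine comm_closure ?_ hw
  rintro _ ⟨l, q, hl, hq, rfl⟩
  exact Wl_comm (zz_mem_Wl h hq (isLine_of_adj hl hy)) ((mem_Cc.1 hc).2 l hl)

theorem comm_eq (h : Ctx M₁ M₂ z) (hb : bz M₁ M₂ z = 3) (hx : IsLine x) (hxy : (Γ).Adj x y)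
    (hxy' : (Γ).Adj x y') (hxy'' : (Γ).Adj x y'') (hne : y' ≠ y) (hne2 : y'' ≠ y)
    (hne3 : y'' ≠ y') {l q l' q' : Cfsg.CosetVertex M₁ M₂} (hl : (Γ).Adj y l) (hlx : l ≠ x)
    (hq : (Γ).Adj l q) (hqy : q ≠ y) (hl' : (Γ).Adj y' l') (hl'x : l' ≠ x) (hq' : (Γ).Adj l' q')
    (hq'y : q' ≠ y') : ⁅zz z q, zz z q'⁆ = zz z y'' := by
  have hH := h.toHyp
  have hy := isPt_of_adj hxy hx
  have hy' := isPt_of_adj hxy' hx
  obtain ⟨hvT, hvQ, hvx⟩ := side h hb hx hxy hxy' hne hl hlx hq hqy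
  obtain ⟨hv'T, hv'Q, hv'x⟩ := side h hb hx hxy' hxy hne.symm hl' hl'x hq' hq'y
  set v := zz z q with hv
  set v' := zz z q' with hv'
  have hvV : v ∈ Vp z y := Zs_le_Vp hl (zz_mem_Zs hq)
  have hv'V : v' ∈ Vp z y' := Zs_le_Vp hl' (zz_mem_Zs hq')
  set r := ⁅v, v'⁆ with hr
  have hrV : r ∈ Vp z y := by
    rw [hr, commutatorElement_def, mul_assoc v, mul_assoc v]
    exact mul_mem hvV (conj_mem_Vp h (mem_Te_iff.1 hv'T).1 (inv_mem hvV))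
  have hrV' : r ∈ Vp z y' := by
    rw [hr, commutatorElement_def]
    exact mul_mem (conj_mem_Vp h (mem_Te_iff.1 hvT).1 hv'V) (inv_mem hv'V)
  have hedge : ∀ {a : Cfsg.CosetVertex M₁ M₂}, IsPt a → (Γ).Adj x a → r ∈ Vp z a → ∀ f, f ∈ Te a x → f ∉ Qv a →
      r * f = f * r → ∀ s ∈ Qv x, ⁅r, s⁆ = 1 ∨ ⁅r, s⁆ = zz z a := by
    intro a ha hxa hra f hf hfQ hrf s hs
    by_cases hsQ : s ∈ Qv a
    · exact comm_Vp_Q h ha hra hsQ
    have hs' : s ∈ Te a x := vertexQ_le_edge' hH hxa hs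
    have hk : f * s ∈ Qv a := (mul_mem_Q_iff hH hxa.symm hf hs').2 (iff_of_false hfQ hsQ)
    have e1 : r * f⁻¹ = f⁻¹ * r := (Commute.inv_right (hrf : Commute r f)).eq
    have e : ⁅r, s⁆ = f⁻¹ * ⁅r, f * s⁆ * f :=
      calc ⁅r, s⁆ = r * f⁻¹ * (f * s) * r⁻¹ * (f * s)⁻¹ * f := by
            rw [commutatorElement_def]; group
        _ = _ := by rw [e1, commutatorElement_def]; group
    have hc := comm_Vp_Q h ha hra hk
    have e3 : f⁻¹ * ⁅r, f * s⁆ * f = ⁅r, f * s⁆ := by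
      simpa using zpowers_fix h ha (inv_mem (mem_Te_iff.1 hf).1) ((zpowers_zz h).2 hc)
    rw [e, e3]; exact hc
  have hb3 : 3 ≤ bz M₁ M₂ z := hb.ge
  have h1 := hedge hy hxy hrV v' hv'T hv'Q (Vp_comm_self h hb3 hy' hrV' hv'V)
  have h2 := hedge hy' hxy' hrV' v hvT hvQ (Vp_comm_self h hb3 hy hrV hvV)
  have hrW : r ∈ Wl x := by
    refine mem_Wl.2 ⟨⟨Vp_le_Qx h hb hxy hrV, fun s hs => ?_⟩, Vp_sq h hb3 hy hrV⟩
    refine (commutatorElement_eq_one_iff_mul_comm.1 ?_).symm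
    rcases h1 s hs with e | e
    · exact e
    rcases h2 s hs with e' | e'
    · exact e'
    · exact absurd (zz_inj h hxy hxy' hx (e.symm.trans e')) hne.symm
  have hvl : v • l' ≠ l' := smul_ne_of_mem_edge hH hxy'.symm hl' hl'x hvT hvQ
  have hv'l : v' • l ≠ l := smul_ne_of_mem_edge hH hxy.symm hl hlx hv'T hv'Q
  have hll := isLine_of_adj hl hy
  have hll' := isLine_of_adj hl' hy'
  have hrne : r ≠ 1 := fun e => hvl (line_fixed_of_comm h hy' hl' hq' hq'y (mem_Te_iff.1 hvT).1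
    (commutatorElement_eq_one_iff_mul_comm.1 e))
  have hr1 : r ≠ zz z y := fun e => by
    have e' : v' * v * v'⁻¹ = r⁻¹ * v := by rw [hr, commutatorElement_def]; group
    have hmem : zz z (v' • q) ∈ Zs z l := by
      rw [zz_smul h, ← hv, e', e, zz_inv h]
      exact mul_mem (zz_mem_Zs hl.symm) (zz_mem_Zs hq)
    have hadj : (Γ).Adj (v' • l) (v' • q) := adj_smul v' hq
    have hyl : (Γ).Adj y (v' • l) := adj_fix (mem_Te_iff.1 hv'T).1 hl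
    rcases Zs_inf h hy hyl hl hv'l.symm (zz_mem_Zs hadj) hmem with e2 | e2
    · exact zz_ne_one h (isPt_of_adj hadj (hll.smul v')) e2
    · exact hqy (smul_left_cancel v'
        ((zz_inj h hadj hyl.symm (hll.smul v') e2).trans (mem_Te_iff.1 hv'T).1.symm))
  have hr2 : r ≠ zz z y' := fun e => by
    have e' : v * v' * v⁻¹ = r * v' := by rw [hr, commutatorElement_def]; group
    have hmem : zz z (v • q') ∈ Zs z l' := by
      rw [zz_smul h, ← hv', e', e]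
      exact mul_mem (zz_mem_Zs hl'.symm) (zz_mem_Zs hq')
    have hadj : (Γ).Adj (v • l') (v • q') := adj_smul v hq'
    have hyl : (Γ).Adj y' (v • l') := adj_fix (mem_Te_iff.1 hvT).1 hl'
    rcases Zs_inf h hy' hyl hl' hvl.symm (zz_mem_Zs hadj) hmem with e2 | e2
    · exact zz_ne_one h (isPt_of_adj hadj (hll'.smul v)) e2
    · exact hq'y (smul_left_cancel v
        ((zz_inj h hadj hyl.symm (hll'.smul v) e2).trans (mem_Te_iff.1 hvT).1.symm))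
  rcases mem_Zs h hx (Wl_le_Zs h hx hrW) with e | ⟨s, hs, e⟩
  · exact absurd e hrne
  rcases eq_or_eq_or_eq hH hxy hxy' hxy'' hne.symm hne2.symm hne3.symm hs with rfl | rfl | rfl
  exacts [absurd e.symm hr1, absurd e.symm hr2, e.symm]

/-- `Vp` at a point is generated by the `Zs` of two of its lines. -/
theorem natural (h : Ctx M₁ M₂ z) (hb : bz M₁ M₂ z = 3) (hx : IsLine x) (hxy : (Γ).Adj x y)
    {l : Cfsg.CosetVertex M₁ M₂} (hl : (Γ).Adj y l) (hlx : l ≠ x) :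
    Vp z y ≤ Zs z x ⊔ Zs z l := by
  have hH := h.toHyp
  have hy := isPt_of_adj hxy hx
  obtain ⟨y', y'', hy', hy'', hne, hne2, hne3⟩ := exists_others hH hxy
  obtain ⟨l', hl', hl'x⟩ := exists_other hH hy'.symm
  obtain ⟨q', hq', hq'y⟩ := exists_other hH hl'.symm
  obtain ⟨q, hq, hqy⟩ := exists_other hH hl.symm
  obtain ⟨hv'T, hv'Q, -⟩ := side h hb hx hy' hxy hne.symm hl' hl'x hq' hq'y
  have hr := comm_eq h hb hx hxy hy' hy'' hne hne2 hne3.symm hl hlx hq hqy hl' hl'x hq' hq'y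
  set v' := zz z q' with hv'
  obtain ⟨hv'y, hv'x⟩ := mem_Te_iff.1 hv'T
  have hl3 : (Γ).Adj y (v' • l) := adj_fix hv'y hl
  have hl3l : v' • l ≠ l := smul_ne_of_mem_edge hH hxy.symm hl hlx hv'T hv'Q
  have hl3x : v' • l ≠ x := fun e => hlx (smul_left_cancel v' (e.trans hv'x.symm))
  refine Vp_le fun m hm => ?_
  rcases eq_or_eq_or_eq hH hxy.symm hl hl3 hlx.symm hl3x.symm hl3l.symm hm with e | e | e
  · rw [e]; exact le_sup_left
  · rw [e]; exact le_sup_right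
  rw [e]
  refine Zs_le_two h ((isLine_of_adj hl hy).smul v') hl3.symm (adj_smul v' hq)
    (fun e' => hqy (smul_left_cancel v' (e'.symm.trans hv'y.symm)))
    (mem_sup_left (zz_mem_Zs hxy)) ?_
  have e' : v' * zz z q * v'⁻¹ = ⁅zz z q, v'⁆⁻¹ * zz z q := by
    rw [commutatorElement_def]; group
  rw [zz_smul h, e', hr, zz_inv h]
  exact mul_mem (mem_sup_left (zz_mem_Zs hy'')) (mem_sup_right (zz_mem_Zs hq))

theorem mem_Cc_of (h : Ctx M₁ M₂ z) (hb : bz M₁ M₂ z = 3) (hx : IsLine x) (hxy : (Γ).Adj x y)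
    {l : Cfsg.CosetVertex M₁ M₂} (hl : (Γ).Adj y l) (hlx : l ≠ x) {c : X} (hcy : c ∈ Qv y)
    (hcx : c ∈ Qv x) (hcl : c ∈ Qv l) : c ∈ Cc y := by
  have hy := isPt_of_adj hxy hx
  refine mem_Cc.2 ⟨hcy, fun m hm => ?_⟩
  refine mem_Q_of_comm h (isLine_of_adj hm hy) (Q_fix_adj h.toHyp hm hcy).2 fun q hq => ?_
  obtain ⟨a, ha, b, hb', e⟩ := mem_sup_comm
    (fun a ha b hb' => Vp_comm_self h hb.ge hy (Zs_le_Vp hxy.symm ha) (Zs_le_Vp hl hb'))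
    (natural h hb hx hxy hl hlx (Zs_le_Vp hm (zz_mem_Zs hq)))
  have ca : Commute c a := Wl_comm (Zs_le_Wl h hx ha) hcx
  have cb : Commute c b := Wl_comm (Zs_le_Wl h (isLine_of_adj hl hy) hb') hcl
  rw [← e]
  exact ca.mul_right cb

theorem card_Q_le (h : Ctx M₁ M₂ z) (hb : bz M₁ M₂ z = 3) (hx : IsLine x) (hxy : (Γ).Adj x y) :
    Nat.card (Qv y) ≤ 4 * Nat.card ↥(Cc y) := by
  have hH := h.toHyp
  obtain ⟨l, hl, hlx⟩ := exists_other hH hxy.symm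
  have a1 := card_le_two_mul hH hxy (vertexQ_le_edge' hH hxy.symm)
  have a2 := card_le_two_mul hH hl.symm (K := Qv y ⊓ Qv x)
    (inf_le_left.trans (vertexQ_le_edge' hH hl))
  haveI := finite_Cc hH y
  have hle : Qv y ⊓ Qv x ⊓ Qv l ≤ Cc y := by
    intro c hc
    simp only [mem_inf] at hc
    obtain ⟨⟨h1, h2⟩, h3⟩ := hc
    exact mem_Cc_of h hb hx hxy hl hlx h1 h2 h3
  have a3 := Subgroup.card_le_of_le hle
  omega

theorem comm_mem_Zs (h : Ctx M₁ M₂ z) (hb : bz M₁ M₂ z = 3) (hx : IsLine x) (hxy : (Γ).Adj x y)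
    (hxy' : (Γ).Adj x y') (hne : y' ≠ y) {l' q' : Cfsg.CosetVertex M₁ M₂} (hl' : (Γ).Adj y' l')
    (hl'x : l' ≠ x) (hq' : (Γ).Adj l' q') (hq'y : q' ≠ y') {c : X} (hc : c ∈ Cc y) :
    ⁅c, zz z q'⁆ ∈ Zs z x := by
  have hH := h.toHyp
  have hy := isPt_of_adj hxy hx
  have hy' := isPt_of_adj hxy' hx
  have hcx : c ∈ Qv x := (mem_Cc.1 hc).2 x hxy.symm
  have hcT : c ∈ Te y' x := vertexQ_le_edge' hH hxy' hcx
  have hQ : ∀ d ∈ Qv y', ⁅d, zz z q'⁆ ∈ Zs z x := by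
    intro d hd
    rw [← commutatorElement_inv]
    refine inv_mem ?_
    rcases comm_zz_edge h hy' hl' hq' (vertexQ_le_edge' hH hl' hd) with e | e
    · rw [e]; exact one_mem _
    · rw [e]; exact zz_mem_Zs hxy'
  by_cases hcQ : c ∈ Qv y'
  · exact hQ c hcQ
  obtain ⟨y'', hy'', hne2, hne3⟩ := exists_third hH hxy hxy' hne
  obtain ⟨l, hl, hlx⟩ := exists_other hH hxy.symm
  obtain ⟨q, hq, hqy⟩ := exists_other hH hl.symm
  obtain ⟨hvT, hvQ, hvx⟩ := side h hb hx hxy hxy' hne hl hlx hq hqy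
  set v := zz z q with hv
  have hk : c * v ∈ Qv y' :=
    (mul_mem_Q_iff hH hxy'.symm hcT hvT).2 (iff_of_false hcQ hvQ)
  have e : c = c * v * v := by rw [mul_assoc, hv, zz_sq h, mul_one]
  rw [e, comm_mul_left, comm_eq h hb hx hxy hxy' hy'' hne hne2 hne3 hl hlx hq hqy hl' hl'x hq' hq'y,
    Wl_comm (zz_mem_Wl h hy'' hx) (mul_mem hcx hvx), mul_inv_cancel_right]
  exact mul_mem (zz_mem_Zs hy'') (hQ _ hk)

theorem kernel_mem (h : Ctx M₁ M₂ z) (hb : bz M₁ M₂ z = 3) (hx : IsLine x) (hxy : (Γ).Adj x y)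
    (hxy' : (Γ).Adj x y') {l' q' : Cfsg.CosetVertex M₁ M₂} (hl' : (Γ).Adj y' l') (hl'x : l' ≠ x)
    (hq' : (Γ).Adj l' q') (hq'y : q' ≠ y') {c : X} (hc : c ∈ Cc y)
    (hcomm : c * zz z q' = zz z q' * c) : c ∈ Cc y' := by
  have hH := h.toHyp
  have hy' := isPt_of_adj hxy' hx
  have hll' := isLine_of_adj hl' hy'
  have hcx : c ∈ Qv x := (mem_Cc.1 hc).2 x hxy.symm
  have hcT : c ∈ Te y' x := vertexQ_le_edge' hH hxy' hcx
  have hfix := line_fixed_of_comm h hy' hl' hq' hq'y (mem_Te_iff.1 hcT).1 hcomm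
  have hcy' : c ∈ Qv y' := by
    by_contra hn
    exact smul_ne_of_mem_edge hH hxy'.symm hl' hl'x hcT hn hfix
  refine mem_Cc_of h hb hx hxy' hl' hl'x hcy' hcx (mem_Q_of_comm h hll' hfix fun r hr => ?_)
  have hle : Zs z l' ≤ centralizer ({c} : Set X) :=
    Zs_le_two h hll' hl'.symm hq' hq'y.symm
      (mem_centralizer_iff.2 (by rintro _ rfl; exact zz_comm_stab h hy' (mem_Te_iff.1 hcT).1))
      (mem_centralizer_iff.2 (by rintro _ rfl; exact hcomm))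
  exact mem_centralizer_iff.1 (hle (zz_mem_Zs hr)) c rfl

theorem comm_mul_Cc (h : Ctx M₁ M₂ z) (hx : IsLine x) {a b w : X} (ha : a ∈ Qv x)
    (h1 : ⁅a, w⁆ ∈ Zs z x) (h2 : ⁅b, w⁆ ∈ Zs z x) : ⁅a * b, w⁆ = ⁅a, w⁆ * ⁅b, w⁆ := by
  rw [comm_mul_left, Wl_comm (Zs_le_Wl h hx h2) ha, mul_inv_cancel_right,
    Wl_comm (Zs_le_Wl h hx h1) (Wl_le_Q x (Zs_le_Wl h hx h2))]

theorem card_Cc_le (h : Ctx M₁ M₂ z) (hb : bz M₁ M₂ z = 3) (hx : IsLine x) (hxy : (Γ).Adj x y)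
    (hxy' : (Γ).Adj x y') (hne : y' ≠ y) :
    Nat.card ↥(Cc y) ≤ 4 * Nat.card ↥(Cc y ⊓ Cc y') := by
  have hH := h.toHyp
  haveI := finite_Cc hH y
  haveI : Finite ↥(Cc y ⊓ Cc y') :=
    Finite.of_injective _ (inclusion_injective (inf_le_left : Cc y ⊓ Cc y' ≤ Cc y))
  obtain ⟨l', hl', hl'x⟩ := exists_other hH hxy'.symm
  obtain ⟨q', hq', hq'y⟩ := exists_other hH hl'.symm
  have hmem : ∀ c : ↥(Cc y), ⁅(c : X), zz z q'⁆ ∈ Zs z x := fun c =>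
    comm_mem_Zs h hb hx hxy hxy' hne hl' hl'x hq' hq'y c.2
  let φ : ↥(Cc y) →* ↥(Zs z x) := MonoidHom.mk' (fun c => ⟨⁅(c : X), zz z q'⁆, hmem c⟩)
    fun a b => Subtype.ext (comm_mul_Cc h hx ((mem_Cc.1 a.2).2 x hxy.symm) (hmem a) (hmem b))
  have hker : Nat.card φ.ker ≤ Nat.card ↥(Cc y ⊓ Cc y') := by
    have hmem' : ∀ c : φ.ker, ((c : ↥(Cc y)) : X) ∈ Cc y ⊓ Cc y' := fun c =>
      mem_inf.2 ⟨c.1.2, kernel_mem h hb hx hxy hxy' hl' hl'x hq' hq'y c.1.2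
        (commutatorElement_eq_one_iff_mul_comm.1 (congrArg Subtype.val (MonoidHom.mem_ker.1 c.2)))⟩
    refine Nat.card_le_card_of_injective (fun c => (⟨_, hmem' c⟩ : ↥(Cc y ⊓ Cc y'))) ?_
    intro a b hab
    exact Subtype.ext (Subtype.ext (congrArg (fun t : ↥(Cc y ⊓ Cc y') => (t : X)) hab))
  haveI := finite_of_le hH
    ((Zs_le_Wl h hx).trans ((Wl_le_Q x).trans (Amalgam.pCoreOf_le 2 (St x))))
  rw [← card_mul_index φ.ker, index_ker, mul_comm 4]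
  exact Nat.mul_le_mul hker ((Subgroup.card_le_card_group φ.range).trans (card_Zs_le h hx))

theorem comm_any (h : Ctx M₁ M₂ z) (hb : bz M₁ M₂ z = 3) (hy : IsPt y)
    {x p m q : Cfsg.CosetVertex M₁ M₂} (hyx : (Γ).Adj y x) (hxp : (Γ).Adj x p) (hpm : (Γ).Adj p m)
    (hmq : (Γ).Adj m q) {c : X} (hc : c ∈ Cc y) : ⁅c, zz z q⁆ ∈ Vp z y := by
  have hH := h.toHyp
  have hx := isLine_of_adj hyx hy
  by_cases e1 : p = y
  · rw [comm_one_of (Cc_comm h hy hc (Zs_le_Vp (e1 ▸ hpm) (zz_mem_Zs hmq))).symm]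
    exact one_mem _
  by_cases e2 : m = x
  · rw [comm_one_of (Cc_comm h hy hc (Zs_le_Vp hyx (zz_mem_Zs (e2 ▸ hmq)))).symm]
    exact one_mem _
  by_cases e3 : q = p
  · rw [e3, comm_one_of (zz_comm_stab h (isPt_of_adj hxp hx)
      (Q_fix_adj hH hxp ((mem_Cc.1 hc).2 x hyx)).2).symm]
    exact one_mem _
  exact Zs_le_Vp hyx (comm_mem_Zs h hb hx hyx.symm hxp e1 hpm e2 hmq e3 hc)

theorem E_transfer (h : Ctx M₁ M₂ z) (hb : bz M₁ M₂ z = 3) (hx : IsLine x) (hxy : (Γ).Adj x y)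
    (hxy' : (Γ).Adj x y') (hxy'' : (Γ).Adj x y'') (hne : y' ≠ y) (hne2 : y'' ≠ y)
    (hne3 : y'' ≠ y') {e : X} (he : e ∈ Cc y ⊓ Cc y') :
    ∃ e2 ∈ Cc y ⊓ Cc y'', ∃ v0 ∈ Vp z y, e = e2 * v0 := by
  have hH := h.toHyp
  have hy := isPt_of_adj hxy hx
  set S := (Cc y ⊓ Cc y') ⊔ Vp z y with hS
  haveI := finite_Cc hH y
  have hSle : S ≤ Cc y := sup_le inf_le_left (Vp_le_Cc h hb hy)
  haveI : Finite S := Finite.of_injective _ (inclusion_injective hSle)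
  set gen : Set X := {g | g ∈ Cc y ∨ ∃ x' p m q, (Γ).Adj y x' ∧ (Γ).Adj x' p ∧ (Γ).Adj p m ∧
    (Γ).Adj m q ∧ zz z q = g} with hgen
  set K := closure gen with hK
  have hKn : K ≤ normalizer (S : Set X) := by
    rw [hK, closure_le]
    intro g hg
    show g ∈ normalizer (S : Set X)
    rw [← cj_eq_iff_mem_normalizer]
    refine eq_of_le_of_card_ge ?_ (card_cj_eq g S).ge
    rintro _ ⟨s, hs, rfl⟩
    show g * s * g⁻¹ ∈ S
    rcases hg with hg | ⟨x', p, m, q, h1, h2, h3, h4, rfl⟩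
    · have hgy : g ∈ St y := (Amalgam.pCoreOf_le 2 _) (mem_Cc.1 hg).1
      have hgy' : g ∈ St y' := (Q_fix_adj hH hxy' ((mem_Cc.1 hg).2 x hxy.symm)).2
      obtain ⟨a, ha, b, hb', rfl⟩ := mem_sup_comm
        (fun a ha b hb' => Cc_comm h hy (mem_inf.1 ha).1 hb') hs
      have e' : g * (a * b) * g⁻¹ = g * a * g⁻¹ * (g * b * g⁻¹) := by group
      rw [e']
      exact mul_mem (mem_sup_left (mem_inf.2 ⟨conj_mem_Cc hgy (mem_inf.1 ha).1,
        conj_mem_Cc hgy' (mem_inf.1 ha).2⟩)) (mem_sup_right (conj_mem_Vp h hgy hb'))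
    · have e' : zz z q * s * (zz z q)⁻¹ = s * ⁅s⁻¹, zz z q⁆ := by
        rw [commutatorElement_def]; group
      rw [e']
      exact mul_mem hs (mem_sup_right (comm_any h hb hy h1 h2 h3 h4 (inv_mem (hSle hs))))
  have hKy : ∀ d ∈ St y, ∀ k ∈ K, d * k * d⁻¹ ∈ K := by
    intro d hd k hk
    have : K ≤ cj d⁻¹ K := by
      rw [hK, closure_le]
      intro g hg
      show g ∈ cj d⁻¹ (closure gen)
      rw [Cfsg.Agent.Fusion.mem_cj_inv]
      refine subset_closure ?_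
      rcases hg with hg | ⟨x', p, m, q, h1, h2, h3, h4, rfl⟩
      · exact Or.inl (conj_mem_Cc hd hg)
      · exact Or.inr ⟨d • x', d • p, d • m, d • q, adj_fix hd h1, adj_smul d h2, adj_smul d h3,
          adj_smul d h4, zz_smul h d q⟩
    exact Cfsg.Agent.Fusion.mem_cj_inv.1 (this hk)
  obtain ⟨x2, x3, hx2, hx3, hx2x, hx3x, hx23⟩ := exists_others hH hxy.symm
  obtain ⟨l', hl', hl'x⟩ := exists_other hH hxy'.symm
  obtain ⟨q', hq', hq'y⟩ := exists_other hH hl'.symm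
  obtain ⟨hv'T, hv'Q, -⟩ := side h hb hx hxy' hxy hne.symm hl' hl'x hq' hq'y
  set v' := zz z q' with hv'
  have hv'K : v' ∈ K := subset_closure (Or.inr ⟨x, y', l', q', hxy.symm, hxy', hl', hq', rfl⟩)
  obtain ⟨hv'y, hv'x⟩ := mem_Te_iff.1 hv'T
  have hv'23 : v' • x2 = x3 := by
    rcases eq_or_eq_or_eq hH hxy.symm hx2 hx3 hx2x.symm hx3x.symm hx23 (adj_fix hv'y hx2) with
      e' | e' | e'
    · exact absurd (smul_left_cancel v' (e'.trans hv'x.symm)) hx2x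
    · exact absurd e' (smul_ne_of_mem_edge hH hxy.symm hx2 hx2x hv'T hv'Q)
    · exact e'
  obtain ⟨d, hdy, hd2, hd3⟩ := exists_Q_inf_not h hb.ge hy hx2 hx3 hx23.symm
  have hdSt : d ∈ St y := (Amalgam.pCoreOf_le 2 _) hdy
  set k0 := v' * (d * v'⁻¹ * d⁻¹) with hk0
  have hk0K : k0 ∈ K := mul_mem hv'K (hKy d hdSt _ (inv_mem hv'K))
  have e0 : k0 = v' * d * v'⁻¹ * d⁻¹ := by rw [hk0]; group
  have hk0y : k0 ∈ Qv y := e0 ▸ mul_mem (conj_mem_Q hv'y hdy) (inv_mem hdy)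
  have hk03 : k0 ∉ Qv x3 := fun hmem => hd3 (by
    have h1 : v' * d * v'⁻¹ ∈ Qv x3 := by
      have := conj_mem_cj (g := v').2 hd2
      rwa [cj_Q, hv'23] at this
    have h2 := mul_mem (inv_mem hmem) h1
    have e' : k0⁻¹ * (v' * d * v'⁻¹) = d := by rw [e0]; group
    rwa [e'] at h2)
  obtain ⟨g, hg, hgx⟩ := neighbours_transitive hx3 hxy.symm
  set k1 := g * k0 * g⁻¹ with hk1
  have hk1K : k1 ∈ K := hKy g hg _ hk0K
  have hk1y : k1 ∈ Qv y := conj_mem_Q hg hk0y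
  have hk1x : k1 ∉ Qv x := fun hmem => hk03 (by
    rw [← hgx, ← cj_Q, conj_mem_cj] at hmem
    exact hmem)
  have hk1T : k1 ∈ Te x y := vertexQ_le_edge' hH hxy.symm hk1y
  obtain ⟨hk1xf, hk1yf⟩ := mem_Te_iff.1 hk1T
  have hk1y' : k1 • y' = y'' := by
    rcases eq_or_eq_or_eq hH hxy hxy' hxy'' hne.symm hne2.symm hne3.symm
      (adj_fix hk1xf hxy') with e' | e' | e'
    · exact absurd (smul_left_cancel k1 (e'.trans hk1yf.symm)) hne
    · exact absurd e' (smul_ne_of_mem_edge hH hxy hxy' hne hk1T hk1x)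
    · exact e'
  have hmemS : k1⁻¹ * e * k1 ∈ S := by
    have := conj_mem_of_mem_normalizer (inv_mem (hKn hk1K)) (mem_sup_left he : e ∈ S)
    rwa [inv_inv] at this
  obtain ⟨a, ha, b, hb', eab⟩ := mem_sup_comm
    (fun a ha b hb' => Cc_comm h hy (mem_inf.1 ha).1 hb') hmemS
  refine ⟨k1 * a * k1⁻¹, mem_inf.2 ⟨conj_mem_Cc hk1yf (mem_inf.1 ha).1, ?_⟩, k1 * b * k1⁻¹,
    conj_mem_Vp h hk1yf hb', ?_⟩
  · exact hk1y' ▸ conj_mem_Cc' k1 (mem_inf.1 ha).2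
  · calc e = k1 * (k1⁻¹ * e * k1) * k1⁻¹ := by group
      _ = _ := by rw [← eab]; group

theorem comm_V (h : Ctx M₁ M₂ z) (hb : bz M₁ M₂ z = 3) (hx : IsLine x) (hxy : (Γ).Adj x y)
    (hxy' : (Γ).Adj x y') (hxy'' : (Γ).Adj x y'') (hne : y' ≠ y) (hne2 : y'' ≠ y)
    (hne3 : y'' ≠ y') {l'' q'' : Cfsg.CosetVertex M₁ M₂} (hl'' : (Γ).Adj y'' l'') (hl''x : l'' ≠ x)
    (hq'' : (Γ).Adj l'' q'') (hq''y : q'' ≠ y'') {v0 : X} (hv0 : v0 ∈ Vp z y) :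
    ⁅v0, zz z q''⁆ = 1 ∨ ⁅v0, zz z q''⁆ = zz z y' := by
  have hH := h.toHyp
  have hy := isPt_of_adj hxy hx
  obtain ⟨l, hl, hlx⟩ := exists_other hH hxy.symm
  have hll := isLine_of_adj hl hy
  obtain ⟨a, ha, b, hb', e⟩ := mem_sup_comm
    (fun a ha b hb' => Vp_comm_self h hb.ge hy (Zs_le_Vp hxy.symm ha) (Zs_le_Vp hl hb'))
    (natural h hb hx hxy hl hlx hv0)
  obtain ⟨hwT, -, hwx⟩ := side h hb hx hxy'' hxy hne2.symm hl'' hl''x hq'' hq''y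
  have h1 : ⁅a, zz z q''⁆ = 1 := comm_one_of (Wl_comm (Zs_le_Wl h hx ha) hwx)
  have hax : a ∈ Qv x := Wl_le_Q x (Zs_le_Wl h hx ha)
  rcases mem_Zs h hll hb' with rfl | ⟨q, hq, rfl⟩
  · rw [← e, mul_one]; exact Or.inl h1
  rw [← e, comm_mul_left, h1, mul_one]
  by_cases hqy : q = y
  · rw [hqy, comm_one_of (zz_comm_stab h hy (mem_Te_iff.1 hwT).1)]
    exact Or.inl (by group)
  · refine Or.inr ?_
    rw [comm_eq h hb hx hxy hxy'' hxy' hne2 hne hne3.symm hl hlx hq hqy hl'' hl''x hq'' hq''y,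
      Wl_comm (zz_mem_Wl h hxy' hx) hax]
    group

theorem E_eq (h : Ctx M₁ M₂ z) (hb : bz M₁ M₂ z = 3) (hx : IsLine x) (hxy : (Γ).Adj x y)
    (hxy' : (Γ).Adj x y') (hxy'' : (Γ).Adj x y'') (hne : y' ≠ y) (hne2 : y'' ≠ y)
    (hne3 : y'' ≠ y') {e : X} (he : e ∈ Cc y ⊓ Cc y') : e ∈ Cc y'' := by
  have hH := h.toHyp
  obtain ⟨l'', hl'', hl''x⟩ := exists_other hH hxy''.symm
  obtain ⟨q'', hq'', hq''y⟩ := exists_other hH hl''.symm
  refine kernel_mem h hb hx hxy hxy'' hl'' hl''x hq'' hq''y (mem_inf.1 he).1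
    (commutatorElement_eq_one_iff_mul_comm.1 ?_)
  have key : ∀ {a b : Cfsg.CosetVertex M₁ M₂}, (Γ).Adj x a → (Γ).Adj x b → b ≠ a → y'' ≠ a → y'' ≠ b →
      e ∈ Cc a ⊓ Cc b → ⁅e, zz z q''⁆ = 1 ∨ ⁅e, zz z q''⁆ = zz z b := by
    intro a b hxa hxb hab ha hb2 hem
    obtain ⟨e2, he2, v0, hv0, rfl⟩ :=
      E_transfer h hb hx hxa hxb hxy'' hab ha hb2 hem
    rw [mem_inf] at he2
    have h1 : ⁅e2, zz z q''⁆ = 1 := comm_one_of
      (Cc_comm h (isPt_of_adj hxy'' hx) he2.2 (Zs_le_Vp hl'' (zz_mem_Zs hq''))).symm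
    have h2 := comm_V h hb hx hxa hxb hxy'' hab ha hb2 hl'' hl''x hq'' hq''y hv0
    have hex : e2 ∈ Qv x := (mem_Cc.1 he2.1).2 x hxa.symm
    rw [comm_mul_left, h1, mul_one]
    rcases h2 with e' | e'
    · exact Or.inl (by rw [e']; group)
    · exact Or.inr (by rw [e', Wl_comm (zz_mem_Wl h hxb hx) hex]; group)
  rcases key hxy hxy' hne hne2 hne3 he with e1 | e1
  · exact e1
  rcases key hxy' hxy hne.symm hne3 hne2 (mem_inf.2 (mem_inf.1 he).symm) with e2 | e2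
  · exact e2
  · exact absurd (zz_inj h hxy' hxy hx (e1.symm.trans e2)) hne

/-- The elements of `Cc y` centralizing `Vp` of all points collinear with `y`. -/
def Cs (z : X) (v : Cfsg.CosetVertex M₁ M₂) : Subgroup X :=
  Cc v ⊓ centralizer {w | ∃ m r, (Cfsg.cosetGraph M₁ M₂).Adj v m ∧
    (Cfsg.cosetGraph M₁ M₂).Adj m r ∧ w ∈ Vp z r}

theorem mem_Cs {v : Cfsg.CosetVertex M₁ M₂} {c : X} :
    c ∈ Cs z v ↔ c ∈ Cc v ∧
      ∀ m r w, (Γ).Adj v m → (Γ).Adj m r → w ∈ Vp z r → c * w = w * c := by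
  rw [Cs, mem_inf, mem_centralizer_iff]
  exact and_congr_right fun _ => ⟨fun hc m r w h1 h2 h3 => (hc w ⟨m, r, h1, h2, h3⟩).symm,
    fun hc w ⟨m, r, h1, h2, h3⟩ => (hc m r w h1 h2 h3).symm⟩

theorem conj_mem_Cs (h : Ctx M₁ M₂ z) {v : Cfsg.CosetVertex M₁ M₂} {g c : X} (hg : g ∈ St v)
    (hc : c ∈ Cs z v) : g * c * g⁻¹ ∈ Cs z v := by
  obtain ⟨h1, h2⟩ := mem_Cs.1 hc
  refine mem_Cs.2 ⟨conj_mem_Cc hg h1, fun m r w hm hr hw => ?_⟩
  have hw' : g⁻¹ * w * g ∈ Vp z (g⁻¹ • r) := by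
    rw [← cj_Vp h, Cfsg.Agent.Fusion.mem_cj_inv]
    simpa [mul_assoc] using hw
  have := h2 _ _ _ (adj_fix (inv_mem hg) hm) (adj_smul g⁻¹ hr) hw'
  calc g * c * g⁻¹ * w = g * (c * (g⁻¹ * w * g)) * g⁻¹ := by group
    _ = g * ((g⁻¹ * w * g) * c) * g⁻¹ := by rw [this]
    _ = _ := by group

theorem exists_zeta (h : Ctx M₁ M₂ z) (hb : bz M₁ M₂ z = 3) (hx : IsLine x) (hxy : (Γ).Adj x y)
    (hxy' : (Γ).Adj x y') (hne : y' ≠ y) {e : X} (he : e ∈ Cc y ⊓ Cc y') :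
    ∃ ζ ∈ Zs z x, e * ζ ∈ Cs z y := by
  have hH := h.toHyp
  have hy := isPt_of_adj hxy hx
  obtain ⟨y'', hy'', hne2, hne3⟩ := exists_third hH hxy hxy' hne
  have he'' := E_eq h hb hx hxy hxy' hy'' hne hne2 hne3 he
  obtain ⟨x3, hx3, hx3x⟩ := exists_other hH hxy.symm
  have hx3l := isLine_of_adj hx3 hy
  obtain ⟨p3, hp3, hp3y⟩ := exists_other hH hx3.symm
  obtain ⟨m, hm, hmx⟩ := exists_other hH hp3.symm
  obtain ⟨q, hq, hqp⟩ := exists_other hH hm.symm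
  obtain ⟨hkT, hkQ, -⟩ := side h hb hx3l hp3 hx3.symm hp3y.symm hm hmx hq hqp
  set k := zz z q with hk
  obtain ⟨hky, hkx3⟩ := mem_Te_iff.1 hkT
  set x2 := k • x with hx2
  have hx2a : (Γ).Adj y x2 := adj_fix hky hxy.symm
  have hx2x : x2 ≠ x := smul_ne_of_mem_edge hH hx3 hxy.symm hx3x.symm hkT hkQ
  have hx2x3 : x2 ≠ x3 := fun e' => hx3x (smul_left_cancel k (e'.trans hkx3.symm)).symm
  have hx2l := isLine_of_adj hx2a hy
  have hb3 : 3 ≤ bz M₁ M₂ z := hb.ge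
  obtain ⟨ζ, hζ, ξ, hξ, eζ⟩ := mem_sup_comm
    (fun a ha b hb' => Vp_comm_self h hb3 hy (Zs_le_Vp hxy.symm ha) (Zs_le_Vp hx2a hb'))
    (natural h hb hx hxy hx2a hx2x (Zs_le_Vp hx3
      (comm_mem_Zs h hb hx3l hx3.symm hp3 hp3y hm hmx hq hqp (inv_mem (mem_inf.1 he).1))))
  have hkek : k * e * k⁻¹ = e * (ζ * ξ) := by rw [eζ, commutatorElement_def, hk]; group
  refine ⟨ζ, hζ, mem_Cs.2 ⟨mul_mem (mem_inf.1 he).1 (Vp_le_Cc h hb hy (Zs_le_Vp hxy.symm hζ)),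
    ?_⟩⟩
  have hA : ∀ r, (Γ).Adj x r → ∀ w ∈ Vp z r, e * w = w * e ∧ ζ * w = w * ζ := by
    intro r hr w hw
    have hrp := isPt_of_adj hr hx
    refine ⟨Cc_comm h hrp ?_ hw, (Wl_comm (Zs_le_Wl h hx hζ) (Vp_le_Qx h hb hr hw)).symm⟩
    rcases eq_or_eq_or_eq hH hxy hxy' hy'' hne.symm hne2.symm hne3.symm hr with e' | e' | e'
    · exact e' ▸ (mem_inf.1 he).1
    · exact e' ▸ (mem_inf.1 he).2
    · exact e' ▸ he''
  have hB : ∀ r, (Γ).Adj x r → ∀ w ∈ Vp z r, e * ζ * w = w * (e * ζ) := fun r hr w hw => by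
    obtain ⟨c1, c2⟩ := hA r hr w hw
    rw [mul_assoc, c2, ← mul_assoc, c1, mul_assoc]
  have hC : ∀ r, (Γ).Adj x2 r → ∀ w ∈ Vp z r, e * ζ * w = w * (e * ζ) := by
    intro r hr w hw
    have hr0 : (Γ).Adj x (k⁻¹ • r) := by
      have := adj_smul k⁻¹ hr
      rwa [hx2, inv_smul_smul] at this
    have hw0 : k⁻¹ * w * k ∈ Vp z (k⁻¹ • r) := by
      rw [← cj_Vp h, Cfsg.Agent.Fusion.mem_cj_inv]
      simpa [mul_assoc] using hw
    have c1 : k * e * k⁻¹ * w = w * (k * e * k⁻¹) :=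
      calc k * e * k⁻¹ * w = k * (e * (k⁻¹ * w * k)) * k⁻¹ := by group
        _ = k * ((k⁻¹ * w * k) * e) * k⁻¹ := by rw [(hA _ hr0 _ hw0).1]
        _ = _ := by group
    have c2 : Commute ξ w :=
      (Wl_comm (Zs_le_Wl h hx2l hξ) (Vp_le_Qx h hb hr hw)).symm
    have hd : e * ζ = k * e * k⁻¹ * ξ⁻¹ := by rw [hkek]; group
    rw [hd]
    exact (Commute.mul_left (show Commute (k * e * k⁻¹) w from c1) c2.inv_left).eq
  obtain ⟨l', hl', hl'x⟩ := exists_other hH hxy'.symm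
  obtain ⟨q', hq', hq'y⟩ := exists_other hH hl'.symm
  obtain ⟨hv'T, hv'Q, -⟩ := side h hb hx hxy' hxy hne.symm hl' hl'x hq' hq'y
  set v' := zz z q' with hv'
  obtain ⟨hv'yf, hv'xf⟩ := mem_Te_iff.1 hv'T
  have hv'23 : v' • x2 = x3 := by
    rcases eq_or_eq_or_eq hH hxy.symm hx2a hx3 hx2x.symm hx3x.symm hx2x3
      (adj_fix hv'yf hx2a) with e' | e' | e'
    · exact absurd (smul_left_cancel v' (e'.trans hv'xf.symm)) hx2x
    · exact absurd e' (smul_ne_of_mem_edge hH hxy.symm hx2a hx2x hv'T hv'Q)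
    · exact e'
  have hD : ∀ r, (Γ).Adj x3 r → ∀ w ∈ Vp z r, e * ζ * w = w * (e * ζ) := by
    intro r hr w hw
    have hr0 : (Γ).Adj x2 (v'⁻¹ • r) := by
      have := adj_smul v'⁻¹ hr
      rwa [← hv'23, inv_smul_smul] at this
    have hw0 : v'⁻¹ * w * v' ∈ Vp z (v'⁻¹ • r) := by
      rw [← cj_Vp h, Cfsg.Agent.Fusion.mem_cj_inv]
      simpa [mul_assoc] using hw
    have c1 : Commute (e * ζ) v' := hB y' hxy' v' (Zs_le_Vp hl' (zz_mem_Zs hq'))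
    have c2 : Commute (e * ζ) (v'⁻¹ * w * v') := hC _ hr0 _ hw0
    have c3 := (c1.mul_right c2).mul_right c1.inv_right
    have ew : v' * (v'⁻¹ * w * v') * v'⁻¹ = w := by group
    rw [ew] at c3
    exact c3
  intro mm r w hmm hr hw
  rcases eq_or_eq_or_eq hH hxy.symm hx2a hx3 hx2x.symm hx3x.symm hx2x3 hmm with e' | e' | e'
  · exact hB r (e' ▸ hr) w hw
  · exact hC r (e' ▸ hr) w hw
  · exact hD r (e' ▸ hr) w hw

/-- The bound when `bz z = 3`. -/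
theorem bound_three (h : Ctx M₁ M₂ z) (hb : bz M₁ M₂ z = 3) (hxy : (Γ).Adj x y) (hx : IsLine x) :
    Nat.card (Qv y) ≤ 64 := by
  have hH := h.toHyp
  obtain ⟨y', hy', hne⟩ := exists_other hH hxy
  haveI := finite_of_le hH
    ((Zs_le_Wl h hx).trans ((Wl_le_Q x).trans (Amalgam.pCoreOf_le 2 (St x))))
  have hF : Cs z y ⊓ Cs z y' = ⊥ := by
    refine trivial_normal h hx (fun a ha => (mem_Cc.1 (mem_Cs.1 (mem_inf.1 ha).1).1).2 x hxy.symm)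
      (fun q hq f hf => mem_inf.2 ⟨conj_mem_Cs h (Q_fix_adj hH hxy hq).2 (mem_inf.1 hf).1,
        conj_mem_Cs h (Q_fix_adj hH hy' hq).2 (mem_inf.1 hf).2⟩) fun w hw hwZ => ?_
    rcases mem_Zs h hx hwZ with e | ⟨q, hq, rfl⟩
    · exact e
    exfalso
    have key : ∀ r, (Γ).Adj x r → q ≠ r → zz z q ∈ Cs z r → False := by
      intro r hr hqr hm
      obtain ⟨x2, hx2, hx2x⟩ := exists_other hH hr.symm
      obtain ⟨p, hp, hpr⟩ := exists_other hH hx2.symm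
      have hx2l := isLine_of_adj hx2 (isPt_of_adj hr hx)
      have hp' := isPt_of_adj hp hx2l
      have hQ : zz z q ∈ Qv p := by
        by_contra hn
        have hd2 : (Γ).dist x x2 ≤ 2 := dist_two hH hr hx2
        have hd3 : (Γ).dist x p ≤ 3 := (dist_adj hH hp).trans (by omega)
        have hT : zz z q ∈ Te p x2 := mem_Te_iff.2 ⟨Zs_le_St_of_le h (by omega) (zz_mem_Zs hq),
          Zs_le_St_of_le h (by omega) (zz_mem_Zs hq)⟩
        obtain ⟨m, q2, hm2, -, hq2, -, hnc⟩ := exists_noncomm h hp' hp.symm hT hn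
        exact hnc ((mem_Cs.1 hm).2 x2 p _ hx2 hp (Zs_le_Vp hm2 (zz_mem_Zs hq2)))
      exact crit3 h hb hx hr hx2 hp hx2x hpr (Zs_le_two h hx hq hr hqr hQ
        (Zs_le_Q_adj h hp hx2l (zz_mem_Zs hx2.symm)))
    rw [mem_inf] at hw
    by_cases e : q = y'
    · exact key y hxy (e ▸ hne) hw.1
    · exact key y' hy' e hw.2
  have hE : Cc y ⊓ Cc y' ≤ Zs z x := by
    intro e he
    obtain ⟨ζ, hζ, hd⟩ := exists_zeta h hb hx hxy hy' hne he
    obtain ⟨ζ', hζ', hd'⟩ :=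
      exists_zeta h hb hx hy' hxy hne.symm (mem_inf.2 (mem_inf.1 he).symm)
    have hex : e ∈ Qv x := (mem_Cc.1 (mem_inf.1 he).1).2 x hxy.symm
    have hcomm : ∀ {s : X}, s ∈ Zs z x → e * s = s * e := fun hs =>
      Wl_comm (Zs_le_Wl h hx hs) hex
    have hsq : ∀ {s : X}, s ∈ Zs z x → e * s * (e * s) = e * e := fun {s} hs => by
      calc e * s * (e * s) = e * (s * e) * s := by group
        _ = e * e * (s * s) := by rw [← hcomm hs]; group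
        _ = e * e := by rw [Wl_sq (Zs_le_Wl h hx hs), mul_one]
    have hdd : e * ζ * (e * ζ) = 1 := by
      rw [← mem_bot (G := X), ← hF, mem_inf]
      exact ⟨mul_mem hd hd, by rw [hsq hζ, ← hsq hζ']; exact mul_mem hd' hd'⟩
    have hcent : ∀ q ∈ Qv x, q * (e * ζ) = e * ζ * q := by
      intro q hq
      have e1 : ⁅e * ζ, q⁆ = ⁅e * ζ', q⁆ := by
        rw [comm_mul_left, comm_mul_left, comm_one_of (Wl_comm (Zs_le_Wl h hx hζ) hq),
          comm_one_of (Wl_comm (Zs_le_Wl h hx hζ') hq)]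
      have m1 : ∀ {v : Cfsg.CosetVertex M₁ M₂} {c : X}, (Γ).Adj x v → c ∈ Cs z v →
          ⁅c, q⁆ ∈ Cs z v := fun {v c} hv hc => by
        rw [commutatorElement_def, mul_assoc c, mul_assoc c]
        exact mul_mem hc (conj_mem_Cs h (Q_fix_adj hH hv hq).2 (inv_mem hc))
      have h1 : ⁅e * ζ, q⁆ ∈ Cs z y ⊓ Cs z y' :=
        mem_inf.2 ⟨m1 hxy hd, e1 ▸ m1 hy' hd'⟩
      rw [hF, mem_bot] at h1
      exact (commutatorElement_eq_one_iff_mul_comm.1 h1).symm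
    have hW : e * ζ ∈ Wl x :=
      mem_Wl.2 ⟨⟨mul_mem hex (Wl_le_Q x (Zs_le_Wl h hx hζ)), hcent⟩, hdd⟩
    have := mul_mem (Wl_le_Zs h hx hW) (inv_mem hζ)
    rwa [mul_inv_cancel_right] at this
  have h1 := Subgroup.card_le_of_le hE
  have h2 := card_Zs_le h hx
  have h3 := card_Cc_le h hb hx hxy hy' hne
  have h4 := card_Q_le h hb hx hxy
  omega

end Cfsg.Agent.Goldschmidt
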